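import Mathlib
import Cfsg.Agent.H28.Par

/-! The index of a parabolic subgroup of `GL_n(q)`. -/

set_option autoImplicit false
set_option linter.style.haveILetI false
set_option linter.unusedSectionVars false

namespace Cfsg.Agent.H28.Par

open Cfsg Matrix Finset

variable {n : ℕ} {F : Type*} [Field F] [Fintype F] {α : Fin n → ℕ}

theorem card_li {V : Type*} [AddCommGroup V] [Module F V] [Finite V] {k : ℕ} (W : Fin k → Submodule F V) (hW : Monotone W) :
    Nat.card {v : Fin k → V // LinearIndependent F v ∧ ∀ j, v j ∈ W j} = ∏ j, (Nat.card (W j) - Fintype.card F ^ j.val) := by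
  induction k with
  | zero => simp [linearIndependent_empty_type]
  | succ k ih =>
    let e : {v : Fin (k + 1) → V // LinearIndependent F v ∧ ∀ j, v j ∈ W j} ≃
        Σ s : {v : Fin k → V // LinearIndependent F v ∧ ∀ j, v j ∈ W j.castSucc},
          ((W (Fin.last k) : Set V) \ Submodule.span F (Set.range s.1) : Set V) :=
      { toFun := fun v => ⟨⟨Fin.init v.1, (linearIndependent_finSucc'.1 v.2.1).1, fun j => v.2.2 _⟩,
          v.1 (Fin.last k), v.2.2 _, (linearIndependent_finSucc'.1 v.2.1).2⟩
        invFun := fun s => ⟨Fin.snoc s.1.1 s.2.1, linearIndependent_finSnoc.2 ⟨s.1.2.1, s.2.2.2⟩, fun j => by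
          refine Fin.lastCases ?_ (fun j => ?_) j
          · simpa using s.2.2.1
          · simpa using s.1.2.2 j⟩
        left_inv := fun _ => by simp
        right_inv := fun ⟨⟨_, _⟩, ⟨_, _⟩⟩ => by
          refine Sigma.ext (by simp) ((Subtype.heq_iff_coe_eq (by simp)).2 (by simp)) }
    haveI := Fintype.ofFinite {v : Fin k → V // LinearIndependent F v ∧ ∀ j, v j ∈ W j.castSucc}
    rw [Nat.card_congr e, Nat.card_sigma, Fin.prod_univ_castSucc, sum_congr rfl (g := fun _ => Nat.card (W (Fin.last k)) - Fintype.card F ^ k),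
      sum_const, card_univ, ← Nat.card_eq_fintype_card, ih (fun j => W j.castSucc) (hW.comp Fin.strictMono_castSucc.monotone)]
    · simp
    rintro ⟨s, h1, h2⟩ -
    rw [Nat.card_coe_set_eq, Set.ncard_sdiff (Submodule.span_le.2 (by rintro _ ⟨j, rfl⟩; exact hW (Fin.le_last _) (h2 j)))]
    congr 1
    rw [← Nat.card_coe_set_eq, SetLike.coe_sort_coe, Module.natCard_eq_pow_finrank (K := F), finrank_span_eq_card h1]; simp

/-- q-integer -/
def qi (q m : ℕ) : ℕ := ∑ l ∈ range m, q ^ l

theorem pow_sub_pow (q : ℕ) (hq : 1 ≤ q) {a b : ℕ} (h : b ≤ a) : q ^ a - q ^ b = q ^ b * (q - 1) * qi q (a - b) := by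
  obtain ⟨c, rfl⟩ := Nat.exists_eq_add_of_le h
  obtain ⟨q, rfl⟩ := Nat.exists_eq_add_of_le' hq
  have := geom_sum_mul_add q c
  rw [Nat.add_sub_cancel_left, Nat.add_sub_cancel, pow_add, ← this, qi]
  exact Nat.sub_eq_of_eq_add (by ring)

theorem card_parabolic (hα : ∑ i, α i = n) : Nat.card (parabolicGL n F α) =
    (∏ j : Fin n, Fintype.card F ^ j.val * (Fintype.card F - 1)) * ∏ i, ∏ j ∈ range (α i), qi (Fintype.card F) (j + 1) := by
  let W : Fin n → Submodule F (Fin n → F) := fun j => Submodule.pi {i | compLabel α j < compLabel α i} fun _ => ⊥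
  have hW : Monotone W := fun j k h x hx i hi => hx i ((compLabel_mono α h).trans_lt hi)
  let l : Fin n → Fin n := fun j => ⟨_, compLabel_lt hα j⟩
  have h1 : ∀ j, Nat.card (W j) = Fintype.card F ^ ∑ k with k ≤ l j, α k := fun j => by
    let e : W j ≃ ({i // compLabel α i ≤ compLabel α j} → F) :=
      { toFun := fun x i => x.1 i
        invFun := fun x => ⟨fun i => if h : compLabel α i ≤ compLabel α j then x ⟨i, h⟩ else 0, fun i hi =>
          (Submodule.mem_bot F).2 (dif_neg (not_le.2 (show _ < _ from hi)))⟩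
        left_inv := fun x => Subtype.ext (funext fun i => by
          by_cases h : compLabel α i ≤ compLabel α j
          · exact dif_pos h
          · exact (dif_neg h).trans (x.2 i (not_le.1 h)).symm)
        right_inv := fun x => funext fun i => dif_pos i.2 }
    rw [Nat.card_congr e, Nat.card_fun, Nat.card_eq_fintype_card, Nat.card_eq_fintype_card, Fintype.card_subtype,
      filter_congr fun i _ => compLabel_le_iff α i (l j), Fin.card_filter_val_lt, min_eq_right (psum_le hα _)]
  rw [show Nat.card (parabolicGL n F α) = _ from Nat.card_congr (((equiv_GL_linearindependent n).subtypeEquiv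
    (q := fun v => ∀ j, v.1 j ∈ W j) fun g => ⟨fun h j i hi => @h i j hi, fun h i j hi => h j i hi⟩).trans
      (Equiv.subtypeSubtypeEquivSubtypeInter _ fun v : Fin n → Fin n → F => ∀ j, v j ∈ W j)), card_li W hW,
    prod_congr rfl fun j _ => by rw [h1, pow_sub_pow _ Fintype.card_pos ((compLabel_le_iff α j (l j)).1 le_rfl).le],
    prod_mul_distrib]
  congr 1
  rw [← prod_fiberwise univ l]
  refine prod_congr rfl fun s _ => (prod_congr (filter_congr fun j _ => Fin.ext_iff) fun j hj => ?_).trans (prod_fiber hα s _)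
  rw [show l j = s from Fin.ext (mem_filter.1 hj).2]

theorem index_parabolic (hα : ∑ i, α i = n) : Nat.card (GL (Fin n) F ⧸ parabolicGL n F α) *
    ∏ i, ∏ j ∈ range (α i), qi (Fintype.card F) (j + 1) = ∏ j ∈ range n, qi (Fintype.card F) (j + 1) := by
  have h := (parabolicGL n F α).card_eq_card_quotient_mul_card_subgroup
  rw [card_parabolic hα, card_GL_field, prod_congr rfl fun j _ => pow_sub_pow _ Fintype.card_pos j.2.le, prod_mul_distrib,
    mul_left_comm, Fin.prod_univ_eq_prod_range (fun j => qi _ (n - j)), ← prod_range_reflect] at h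
  refine (Nat.eq_of_mul_eq_mul_left (prod_pos fun j _ => mul_pos (pow_pos Fintype.card_pos _)
    (Nat.sub_pos_of_lt Fintype.one_lt_card)) h).symm.trans (prod_congr rfl fun j hj => ?_)
  have := mem_range.1 hj
  congr 1; omega

end Cfsg.Agent.H28.Par
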