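import Mathlib
import Cfsg.Agent.H28.Par2

/-! Jacobi–Trudi orthogonality and the degree formula for the unipotent characters of `GL_n(q)`. -/

set_option autoImplicit false
set_option linter.style.haveILetI false
set_option linter.unusedSectionVars false

namespace Cfsg.Agent.H28.Par

open Cfsg Matrix Finset

variable {n : ℕ}

/-- exponent vector -/
noncomputable abbrev fs (x : Fin n → ℕ) : Fin n →₀ ℕ := Finsupp.equivFunOnFinite.symm x

theorem prod_X (x : Fin n → ℕ) : ∏ k, (MvPolynomial.X k : MvPolynomial (Fin n) ℂ) ^ x k = MvPolynomial.monomial (fs x) 1 := by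
  rw [MvPolynomial.monomial_eq, Finsupp.prod_fintype _ _ (by simp)]; simp

/-- geometric series -/
noncomputable def ge (k : Fin n) : PowerSeries (MvPolynomial (Fin n) ℂ) := PowerSeries.mk fun r => MvPolynomial.X k ^ r

/-- complete homogeneous symmetric polynomial -/
noncomputable def hh (n m : ℕ) : MvPolynomial (Fin n) ℂ := PowerSeries.coeff m (∏ k : Fin n, ge k)

theorem hh_zero : hh n 0 = 1 := by simp [hh, ge, map_prod]

theorem coeff_prod_hh (α β : Fin n → ℕ) : MvPolynomial.coeff (fs β) (∏ i, hh n (α i)) = tab α β := by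
  simp only [hh, PowerSeries.coeff_prod, ge, PowerSeries.coeff_mk]
  rw [prod_univ_sum]
  simp only [prod_X, MvPolynomial.coeff_sum, ← MvPolynomial.monomial_sum_one, MvPolynomial.coeff_monomial, sum_boole]
  rw [tab, Nat.card_coe_set_eq, ← Set.ncard_coe_finset]
  congr 1
  refine Set.ncard_congr (fun M _ s t => M s t) (fun M hM => ?_) (fun M M' _ _ e => funext fun s => Finsupp.ext (congrFun₂ e s))
    fun M hM => ⟨fun s => fs (M s), ?_, rfl⟩
  · simp only [coe_filter, Fintype.mem_piFinset, mem_finsuppAntidiag, Set.mem_ofPred_eq] at hM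
    exact ⟨fun s => (hM.1 s).1, fun t => by simpa [Finsupp.finsetSum_apply] using DFunLike.congr_fun hM.2 t⟩
  · simp only [coe_filter, Fintype.mem_piFinset, mem_finsuppAntidiag, Set.mem_ofPred_eq]
    exact ⟨fun s => ⟨hM.1 s, subset_univ _⟩, Finsupp.ext fun t => by simpa [Finsupp.finsetSum_apply] using hM.2 t⟩

theorem ge_mul (k : Fin n) : ge k * (1 - PowerSeries.C (MvPolynomial.X k) * PowerSeries.X) = 1 := by
  ext1 m
  rcases m with _ | m
  · simp [ge]
  · simp [ge, mul_sub, ← mul_assoc, PowerSeries.coeff_succ_mul_X, pow_succ, PowerSeries.coeff_one]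

theorem coeff_prod_lin {R ι : Type*} [CommRing R] (a : ι → R) (s : Finset ι) (j : ℕ) (h : #s < j) :
    PowerSeries.coeff j (∏ l ∈ s, (1 - PowerSeries.C (a l) * PowerSeries.X)) = 0 := by
  classical
  induction s using Finset.induction_on generalizing j with
  | empty => rw [prod_empty, PowerSeries.coeff_one, if_neg (by omega)]
  | insert l s hl ih =>
    rw [card_insert_of_notMem hl] at h
    obtain ⟨j, rfl⟩ := Nat.exists_eq_add_of_le' (show 1 ≤ j by omega)
    rw [prod_insert hl, sub_mul, one_mul, map_sub, mul_assoc, PowerSeries.coeff_C_mul, PowerSeries.coeff_succ_X_mul, ih _ (by omega),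
      ih _ (by omega)]
    simp

/-- the Jacobi–Trudi matrix -/
noncomputable def jt (ℓ : Fin n → ℕ) : Matrix (Fin n) (Fin n) (MvPolynomial (Fin n) ℂ) := of fun i j => if j.val ≤ ℓ i then hh n (ℓ i - j) else 0

theorem alt_eq (ℓ : Fin n → ℕ) : (of fun i k => MvPolynomial.X k ^ ℓ i) = jt ℓ *
    of fun (j k : Fin n) => PowerSeries.coeff j (∏ l ∈ univ.erase k, (1 - PowerSeries.C (MvPolynomial.X l) * PowerSeries.X)) := by
  ext1 i k
  generalize hP : ∏ l ∈ univ.erase k, (1 - PowerSeries.C (MvPolynomial.X l : MvPolynomial (Fin n) ℂ) * PowerSeries.X) = P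
  have h1 : ge k = P * ∏ l, ge l := by
    rw [← mul_prod_erase _ _ (mem_univ k), mul_left_comm, ← hP, ← prod_mul_distrib, prod_eq_one fun l _ => (mul_comm _ _).trans (ge_mul l), mul_one]
  have h2 := congrArg (PowerSeries.coeff (ℓ i)) h1
  rw [ge, PowerSeries.coeff_mk, PowerSeries.coeff_mul, Nat.sum_antidiagonal_eq_sum_range_succ_mk] at h2
  simp only [jt, mul_apply, of_apply, hP]
  rw [h2, Fin.sum_univ_eq_sum_range (fun j => (if j ≤ ℓ i then hh n (ℓ i - j) else 0) * PowerSeries.coeff j P),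
    sum_subset (s₁ := range n) (s₂ := range (n + (ℓ i + 1))) (by simp) fun j _ hj => ?_]
  · refine (sum_congr rfl fun j hj => ?_).trans (sum_subset (by simp) fun j _ hj => ?_)
    · rw [if_pos (Nat.lt_succ_iff.1 (mem_range.1 hj)), mul_comm, hh]
    · rw [if_neg (by simp at hj; omega), zero_mul]
  · have := k.2
    rw [← hP, coeff_prod_lin _ _ _ (by simp at hj ⊢; omega), mul_zero]

theorem det_alt (ℓ : Fin n → ℕ) : (of fun i k => (MvPolynomial.X k : MvPolynomial (Fin n) ℂ) ^ ℓ i).det =
    (jt ℓ).det * (of fun (i k : Fin n) => (MvPolynomial.X k : MvPolynomial (Fin n) ℂ) ^ i.val).det := by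
  have : (jt fun i : Fin n => i.val).det = 1 := by
    rw [det_of_isLowerTriangular (jt fun i : Fin n => i.val) fun i j h => if_neg (not_le.2 h)]; simp [jt, hh_zero]
  rw [alt_eq, alt_eq fun i => i.val, det_mul, det_mul, this, one_mul]

theorem jt_orth {ℓ m : Fin n → ℕ} (hℓ : StrictMono ℓ) (hm : StrictMono m) :
    ∑ κ : Equiv.Perm (Fin n), ∑ κ' : Equiv.Perm (Fin n), (if (∀ i, (κ i).val ≤ ℓ i) ∧ ∀ i, (κ' i).val ≤ m i then
      ((Equiv.Perm.sign κ : ℤ) : ℂ) * ((Equiv.Perm.sign κ' : ℤ) : ℂ) * tab (fun i => ℓ i - κ i) (fun i => m i - κ' i) else 0) =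
      if ℓ = m then 1 else 0 := by
  have h := congrArg (MvPolynomial.coeff (fs m)) (det_alt ℓ)
  rw [← det_transpose (jt ℓ)] at h
  simp only [det_apply', of_apply, prod_X, sum_mul_sum, MvPolynomial.coeff_sum, transpose_apply, jt] at h
  refine Eq.trans (sum_congr rfl fun κ _ => sum_congr rfl fun κ' _ => ?_) (h.symm.trans ?_)
  · simp only [← map_intCast (MvPolynomial.C : ℂ →+* _)]
    rw [mul_mul_mul_comm, ← map_mul, MvPolynomial.coeff_C_mul, MvPolynomial.coeff_mul_monomial']
    by_cases h1 : ∀ i, (κ i).val ≤ ℓ i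
    · by_cases h2 : ∀ i, (κ' i).val ≤ m i
      · rw [if_pos ⟨h1, h2⟩, if_pos (by exact h2), ← coeff_prod_hh, prod_congr rfl fun i _ => if_pos (h1 i), mul_one]
        congr 2
        ext; simp
      · rw [if_neg fun h => h2 h.2, if_neg (by exact h2), mul_zero]
    · obtain ⟨i, hi⟩ := not_forall.1 h1
      rw [if_neg fun h => h1 h.1, prod_eq_zero (mem_univ i) (if_neg hi)]; simp
  · simp only [← map_intCast (MvPolynomial.C : ℂ →+* _), MvPolynomial.coeff_C_mul, MvPolynomial.coeff_monomial,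
      Finsupp.equivFunOnFinite.symm.apply_eq_iff_eq]
    rw [sum_eq_single 1 (fun σ _ h1 => ?_) (by simp)]
    · simp [funext_iff]
    · rw [if_neg, mul_zero]
      rintro rfl
      exact h1 (Equiv.ext fun i => congrFun ((StrictMono.range_inj (f := σ) (g := id) (fun _ _ h => hℓ.lt_iff_lt.1 (hm h)) strictMono_id).1 (by simp)) i)

variable {F : Type*} [Field F]

theorem sum_sub {ν : Fin n → ℕ} (hν : ∑ i, ν i = n) {κ : Equiv.Perm (Fin n)} (h : ∀ i, (κ i).val ≤ ν i + i) :
    ∑ i, (ν i + i - κ i) = n := by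
  rw [sum_tsub_distrib _ fun i _ => h i, sum_add_distrib, hν, Equiv.sum_comp κ Fin.val, Nat.add_sub_cancel]

theorem uni_eq (ν : Fin n → ℕ) : unipotentCharacterGL n F ν = ∑ κ : Equiv.Perm (Fin n), (if ∀ i, (κ i).val ≤ ν i + i then
    ((Equiv.Perm.sign κ : ℤ) : ℂ) else 0) • fixedPointCharacter (parabolicGL n F fun i => ν i + i - κ i) := by
  ext g; simp only [unipotentCharacterGL, Finset.sum_apply, Pi.smul_apply, smul_eq_mul, ite_mul, zero_mul]

theorem strictMono_add {ν : Fin n → ℕ} (h : Monotone ν) : StrictMono fun i => ν i + i := h.add_strictMono Fin.val_strictMono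

theorem inner_uni [Fintype (GL (Fin n) F)] {ν μ : Fin n → ℕ} (hν : Monotone ν) (hνs : ∑ i, ν i = n) (hμ : Monotone μ) (hμs : ∑ i, μ i = n) :
    classInner (unipotentCharacterGL n F ν) (unipotentCharacterGL n F μ) = if ν = μ then 1 else 0 := by
  have := jt_orth (strictMono_add hν) (strictMono_add hμ)
  simp only [funext_iff, add_left_inj] at this
  simp only [uni_eq, H6.classInner_sum_left, H6.classInner_smul_left, funext_iff, ← this]
  simp only [H6.classInner_sum_right, H6.classInner_smul_right, mul_sum]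
  refine sum_congr rfl fun κ _ => sum_congr rfl fun κ' _ => ?_
  by_cases h1 : ∀ i, (κ i).val ≤ ν i + i
  · by_cases h2 : ∀ i, (κ' i).val ≤ μ i + i
    · rw [if_pos h1, if_pos h2, if_pos ⟨h1, h2⟩, inner_parabolic (sum_sub hνs h1) (sum_sub hμs h2)]; simp; ring
    · simp [h2]
  · simp [h1]

theorem isGen_uni [Finite (GL (Fin n) F)] (ν : Fin n → ℕ) : IsGeneralizedCharacter _ (unipotentCharacterGL n F ν) := by
  rw [uni_eq]
  refine H6.isGen_sum _ fun κ _ => ?_
  split_ifs
  · exact H6.isGen_intCast_smul _ (H6.isGen_of_isCharacter (H6.isCharacter_perm _))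
  · simpa using H6.isGen_zero

theorem qi_sub (q m t : ℕ) (h : t ≤ m) : (qi q (m - t) : ℂ) * q ^ t = qi q m - qi q t := by
  obtain ⟨c, rfl⟩ := Nat.exists_eq_add_of_le h
  simp [qi, sum_range_add, sum_mul, pow_add, mul_comm]

theorem qfac (q m j : ℕ) (hq : 0 < q) : (if j ≤ m then (∏ t ∈ range (m - j), (qi q (t + 1) : ℂ))⁻¹ else 0) * (q ^ j.choose 2 *
    ∏ t ∈ range m, (qi q (t + 1) : ℂ)) = ∏ t ∈ range j, ((qi q m : ℂ) - qi q t) := by
  split_ifs with h
  · rw [← prod_congr rfl fun t ht => qi_sub q m t ((mem_range.1 ht).le.trans h), prod_mul_distrib, prod_pow_eq_pow_sum, sum_range_id,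
      Nat.choose_two_right]
    obtain ⟨c, rfl⟩ := Nat.exists_eq_add_of_le' h
    rw [Nat.add_sub_cancel, prod_range_add, ← prod_range_reflect _ j, inv_mul_eq_iff_eq_mul₀ (prod_ne_zero_iff.2 fun t _ => by
      simp [qi, sum_range_succ', -Nat.cast_add]), prod_congr rfl fun t ht => show ((qi q (c + (j - 1 - t) + 1) : ℕ) : ℂ) = qi q (c + j - t) by
        have := mem_range.1 ht; congr 2; omega]
    ring
  · rw [zero_mul, prod_eq_zero (mem_range.2 (not_le.1 h)) (sub_self _)]

theorem uni_one [Fintype F] {ν : Fin n → ℕ} (hν : ∑ i, ν i = n) :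
    unipotentCharacterGL n F ν 1 * (Fintype.card F : ℂ) ^ (n * (n - 1) * (n - 2) / 6) *
        ∏ i : Fin n, ∏ j ∈ range (ν i + i), (qi (Fintype.card F) (j + 1) : ℂ) =
      (∏ j ∈ range n, (qi (Fintype.card F) (j + 1) : ℂ)) *
        ∏ i : Fin n, ∏ j with i < j, ((qi (Fintype.card F) (ν j + j) : ℂ) - qi (Fintype.card F) (ν i + i)) := by
  generalize hq : Fintype.card F = q
  have hq0 : 0 < q := hq ▸ Fintype.card_pos
  have h := det_eval_matrixOfPolynomials_eq_det_vandermonde (fun i => (qi q (ν i + i) : ℂ))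
    (fun j : Fin n => ∏ t ∈ range j, (Polynomial.X - Polynomial.C (qi q t : ℂ))) (fun j => by
      rw [Polynomial.natDegree_prod_of_monic _ _ fun t _ => Polynomial.monic_X_sub_C _]; simp only [Polynomial.natDegree_X_sub_C]; simp)
    fun j => Polynomial.monic_prod_of_monic _ _ fun t _ => Polynomial.monic_X_sub_C _
  have h3 : n * (n - 1) * (n - 2) / 6 = ∑ j : Fin n, j.val.choose 2 := by
    rw [Fin.sum_univ_eq_sum_range (fun j => j.choose 2), show n * (n - 1) * (n - 2) / 6 = n.choose 3 by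
      simp [Nat.choose_eq_descFactorial_div_factorial, Nat.descFactorial, Nat.factorial, mul_comm, mul_assoc]]
    clear * -
    induction n with
    | zero => simp
    | succ n ih => rw [sum_range_succ, ← ih, Nat.choose_succ_succ' n 2, add_comm]
  rw [det_vandermonde, ← det_transpose, det_apply'] at h
  simp only [filter_lt_eq_Ioi, h, unipotentCharacterGL, sum_mul, mul_sum, h3]
  refine sum_congr rfl fun κ _ => ?_
  simp only [transpose_apply, of_apply, Polynomial.eval_prod, Polynomial.eval_sub, Polynomial.eval_X, Polynomial.eval_C, ← qfac q _ _ hq0,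
    prod_mul_distrib, prod_pow_eq_pow_sum, Equiv.sum_comp κ fun j => j.val.choose 2]
  split_ifs with h1
  · have := congrArg (Nat.cast : ℕ → ℂ) (index_parabolic (F := F) (sum_sub hν h1))
    rw [hq] at this
    push_cast at this
    rw [prod_congr rfl fun i _ => if_pos (h1 i), ← this, prod_inv_distrib, fixedPointCharacter, MulAction.fixedBy_one_eq_univ, Nat.card_univ]
    have : ∏ i, ∏ j ∈ range (ν i + i - κ i), (qi q (j + 1) : ℂ) ≠ 0 := prod_ne_zero_iff.2 fun i _ => prod_ne_zero_iff.2 fun t _ => by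
      simp [qi, sum_range_succ', -Nat.cast_add]
    field_simp
  · obtain ⟨i, hi⟩ := not_forall.1 h1
    rw [prod_eq_zero (f := fun i : Fin n => ite ((κ i).val ≤ ν i + i) _ _) (mem_univ i) (if_neg hi)]; simp

theorem isIrr_uni [Fintype F] {ν : Fin n → ℕ} (hm : Monotone ν) (hν : ∑ i, ν i = n) : IsIrrCharacter _ (unipotentCharacterGL n F ν) := by
  classical
  refine H6.isIrr_of_norm_one_of_nonneg (isGen_uni ν) ((inner_uni hm hν hm hν).trans (if_pos rfl)) ?_
  have h := uni_one (F := F) hν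
  have hq : 0 < Fintype.card F := Fintype.card_pos
  generalize Fintype.card F = q at *
  obtain ⟨d, hd⟩ := H6.isGen_degree (isGen_uni (F := F) ν)
  have p : ∀ j, (0 : ℤ) < qi q (j + 1) := fun j => by simp [qi, sum_range_succ']; positivity
  rw [hd] at h ⊢
  norm_cast at h ⊢
  push_cast at h
  rw [mul_assoc] at h
  refine nonneg_of_mul_nonneg_left (h ▸ mul_nonneg (prod_nonneg fun j _ => (p j).le) (prod_nonneg fun i _ => prod_nonneg fun j hj => ?_))
    (mul_pos (by positivity) (prod_pos fun i _ => prod_pos fun j _ => p j))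
  have : qi q (ν i + i) ≤ qi q (ν j + j) := sum_le_sum_of_subset (range_subset_range.2 (strictMono_add hm (mem_filter.1 hj).2).le)
  simp [Int.subNatNat_eq_coe, this]

end Cfsg.Agent.H28.Par
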