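import Mathlib
import Cfsg.Prelude.Def_Perm
import Cfsg.Agent.H6.Square
import Cfsg.Agent.H6.Column
import Cfsg.Agent.S0669

/-! The centraliser ring of a representation; permutation characters. -/

set_option autoImplicit false
set_option linter.style.haveILetI false
set_option linter.unusedSectionVars false

namespace Cfsg.Agent.H28

open Cfsg Module Cfsg.Agent.H6
open scoped ComplexConjugate

universe u v w
variable {G : Type u} [Group G] [Fintype G] {V : Type v} [AddCommGroup V] [Module ℂ V] [FiniteDimensional ℂ V]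
  {W : Type w} [AddCommGroup W] [Module ℂ W] [FiniteDimensional ℂ W] {ρ : Representation ℂ G V} {σ : Representation ℂ G W}
  {χ ψ : G → ℂ} {M : End ℂ V}

theorem mem_hom {f : W →ₗ[ℂ] V} : f ∈ (σ.linHom ρ).invariants ↔ ∀ g, f ∘ₗ σ g = ρ g ∘ₗ f :=
  forall_congr' fun g => ⟨fun h => LinearMap.ext fun w => by simpa using (DFunLike.congr_fun h (σ g w)).symm,
    fun h => LinearMap.ext fun w => by simpa using (DFunLike.congr_fun h (σ g⁻¹ w)).symm⟩

theorem finrank_hom (σ : Representation ℂ G W) (ρ : Representation ℂ G V) :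
    (finrank ℂ (σ.linHom ρ).invariants : ℂ) = classInner ρ.character σ.character := by
  rw [← classInner_character_one, classInner_def, classInner_def]
  congr 1
  exact Finset.sum_congr rfl fun g _ => by rw [Representation.char_linHom, character_inv, map_one, mul_one, mul_comm]

/-- the central idempotent of an irreducible character -/
noncomputable def idem (ρ : Representation ℂ G V) (χ : G → ℂ) : End ℂ V := (χ 1 / Nat.card G) • ∑ g, conj (χ g) • ρ g

/-- the twisted character -/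
noncomputable def twc (ρ : Representation ℂ G V) (M : End ℂ V) (g : G) : ℂ := LinearMap.trace ℂ V (M * ρ g)

theorem twc_one : twc ρ 1 = ρ.character := funext fun g => by rw [twc, one_mul]; rfl

theorem trace_mul_idem (M : End ℂ V) (χ : G → ℂ) : LinearMap.trace ℂ V (M * idem ρ χ) = χ 1 * classInner (twc ρ M) χ := by
  simp only [idem, mul_smul_comm, Finset.mul_sum, map_smul, map_sum, classInner_def, twc, smul_eq_mul]
  exact Finset.sum_congr rfl fun g _ => by ring

theorem trace_idem (χ : G → ℂ) : LinearMap.trace ℂ V (idem ρ χ) = χ 1 * classInner ρ.character χ := by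
  rw [← twc_one, ← trace_mul_idem, one_mul]

theorem twc_class (h : ∀ g, M * ρ g = ρ g * M) : IsClassFunction G (twc ρ M) := fun g x => by
  rw [twc, twc, map_mul ρ, map_mul ρ, ← mul_assoc, ← mul_assoc, h, LinearMap.trace_mul_comm, ← mul_assoc, ← mul_assoc, ← map_mul ρ,
    inv_mul_cancel, map_one, one_mul]

theorem idem_comm (hχ : IsIrrCharacter G χ) (g : G) : idem ρ χ * ρ g = ρ g * idem ρ χ := by
  rw [idem, smul_mul_assoc, mul_smul_comm, sum_smul_rep_comm ρ (isClassFunction_map conj (isClassFunction_of_irr hχ))]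

theorem idem_mul (hχ : IsIrrCharacter G χ) (hψ : IsIrrCharacter G ψ) : idem ρ χ * idem ρ ψ = classInner χ ψ • idem ρ χ := by
  have h0 := card_ne_zero_complex G
  have key : ∀ k, ∑ g, conj (χ g) * conj (ψ (g⁻¹ * k)) = Nat.card G * classInner χ ψ * conj (ψ k) / ψ 1 := fun k => by
    have := congrArg conj (sum_conj_mul_irr_mul (isClassFunction_of_irr hχ) hψ k)
    rw [map_div₀, map_mul, map_mul, conj_classInner, isCharacter_conj_one (isCharacter_of_irr hψ), map_natCast, map_sum] at this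
    rw [← this]
    exact Fintype.sum_equiv (Equiv.inv G) _ _ fun g => by simp [isIrr_inv hχ]
  have e : (∑ g, conj (χ g) • ρ g) * ∑ g, conj (ψ g) • ρ g = (Nat.card G * classInner χ ψ / ψ 1) • ∑ g, conj (ψ g) • ρ g := by
    rw [Finset.sum_mul_sum, Finset.smul_sum]
    calc _ = ∑ g, ∑ k, (conj (χ g) * conj (ψ (g⁻¹ * k))) • ρ k := Finset.sum_congr rfl fun g _ =>
          Fintype.sum_equiv (Equiv.mulLeft g) _ _ fun k => by simp [smul_smul, mul_comm]
      _ = _ := by
        rw [Finset.sum_comm]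
        exact Finset.sum_congr rfl fun k _ => by rw [← Finset.sum_smul, key, smul_smul]; congr 1; ring
  rw [idem, idem, smul_mul_smul_comm, e, smul_smul, smul_smul]
  by_cases h : χ = ψ
  · subst h; congr 1; field_simp [isIrr_one_ne_zero hχ]
  · simp [classInner_irr_of_ne hχ hψ h]

theorem idem_mul_self (hχ : IsIrrCharacter G χ) : idem ρ χ * idem ρ χ = idem ρ χ := by
  rw [idem_mul hχ hχ, classInner_irr_self hχ, one_smul]

theorem idem_mul_ne (hχ : IsIrrCharacter G χ) (hψ : IsIrrCharacter G ψ) (h : χ ≠ ψ) : idem ρ χ * idem ρ ψ = 0 := by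
  rw [idem_mul hχ hψ, classInner_irr_of_ne hχ hψ h, zero_smul]

theorem idem_eq_zero (hχ : IsIrrCharacter G χ) : idem ρ χ = 0 ↔ classInner ρ.character χ = 0 := by
  rw [← LinearMap.IsIdempotentElem.trace_eq_zero_iff (idem_mul_self hχ), trace_idem, mul_eq_zero, or_iff_right (isIrr_one_ne_zero hχ)]

theorem inner_twc_eq_zero (hχ : IsIrrCharacter G χ) (h : classInner ρ.character χ = 0) : classInner (twc ρ M) χ = 0 := by
  have := trace_mul_idem (ρ := ρ) M χ
  rwa [(idem_eq_zero hχ).2 h, mul_zero, map_zero, eq_comm, mul_eq_zero, or_iff_right (isIrr_one_ne_zero hχ)] at this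

/-- multiplicity free: the centraliser ring is spanned by the idempotents -/
theorem exists_eq_sum_idem (h : ∀ χ, IsIrrCharacter G χ → classInner ρ.character χ = 0 ∨ classInner ρ.character χ = 1)
    (hM : ∀ g, M * ρ g = ρ g * M) : ∃ c : IrrCharacter G → ℂ, M = ∑ χ, c χ • idem ρ χ := by
  classical
  let S := {χ : IrrCharacter G // classInner ρ.character χ = 1}
  let b : S → (ρ.linHom ρ).invariants := fun χ => ⟨idem ρ χ.1, mem_hom.2 (idem_comm χ.1.2)⟩
  have h1 : LinearIndependent ℂ b := Fintype.linearIndependent_iff.2 fun c e χ => by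
    have e' := congrArg (fun x : (ρ.linHom ρ).invariants => (x : End ℂ V) * idem ρ χ.1) e
    simp only [AddSubmonoidClass.coe_finsetSum, SetLike.val_smul, Finset.sum_mul, smul_mul_assoc, b, ZeroMemClass.coe_zero, zero_mul] at e'
    rw [Finset.sum_eq_single χ (fun ψ _ hne => by
      rw [idem_mul_ne ψ.1.2 χ.1.2 fun e => hne (Subtype.ext (Subtype.ext e)), smul_zero]) (by simp), idem_mul_self χ.1.2,
      smul_eq_zero, idem_eq_zero χ.1.2, χ.2] at e'
    exact e'.resolve_right one_ne_zero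
  have h2 : Fintype.card S = finrank ℂ (ρ.linHom ρ).invariants := by
    rw [← Nat.cast_inj (R := ℂ), finrank_hom, classInner_eq_sum (isClassFunction_of_isCharacter (isCharacter_character ρ)),
      Fintype.card_subtype, Finset.card_filter, Nat.cast_sum]
    exact Finset.sum_congr rfl fun χ _ => by rcases h χ χ.2 with e | e <;> simp [e]
  obtain ⟨c, e⟩ := (Submodule.mem_span_range_iff_exists_fun ℂ).1
    (h1.span_eq_top_of_card_eq_finrank' h2 ▸ Submodule.mem_top (x := (⟨M, mem_hom.2 hM⟩ : (ρ.linHom ρ).invariants)))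
  refine ⟨fun χ => if hχ : classInner ρ.character χ = 1 then c ⟨χ, hχ⟩ else 0, ?_⟩
  have e' : ∑ χ : S, c χ • idem ρ χ.1 = M := by simpa [b] using congrArg Subtype.val e
  rw [← e', ← Finset.sum_subset (Finset.subset_univ (Finset.univ.filter fun χ : IrrCharacter G => classInner ρ.character χ = 1))
    (fun χ _ hχ => by simp only; rw [dif_neg (by simpa using hχ), zero_smul]), Finset.sum_subtype (p := fun χ : IrrCharacter G =>
      classInner ρ.character χ = 1) _ (by simp)]
  exact Finset.sum_congr rfl fun χ _ => by simp only; rw [dif_pos χ.2]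

theorem comm_of_mf (h : ∀ χ, IsIrrCharacter G χ → classInner ρ.character χ = 0 ∨ classInner ρ.character χ = 1) {N : End ℂ V}
    (hM : ∀ g, M * ρ g = ρ g * M) (hN : ∀ g, N * ρ g = ρ g * N) : M * N = N * M := by
  obtain ⟨c, rfl⟩ := exists_eq_sum_idem h hM
  simp only [idem, Finset.sum_mul, Finset.mul_sum, smul_mul_assoc, mul_smul_comm, hN]

theorem mf_of_comm (h : ∀ M N : End ℂ V, (∀ g, M * ρ g = ρ g * M) → (∀ g, N * ρ g = ρ g * N) → M * N = N * M)
    (hχ : IsIrrCharacter G χ) : classInner ρ.character χ = 0 ∨ classInner ρ.character χ = 1 := by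
  obtain ⟨n, σ, hσ, rfl⟩ := hχ
  rw [← finrank_hom, Nat.cast_eq_zero, Nat.cast_eq_one, ← Nat.le_one_iff_eq_zero_or_eq_one]
  by_cases h0 : (σ.linHom ρ).invariants = ⊥
  · rw [h0, finrank_bot]; exact zero_le_one
  obtain ⟨i, hi, hi0⟩ := Submodule.exists_mem_ne_zero_of_ne_bot h0
  obtain ⟨r₀, hr₀⟩ := i.exists_leftInverse_of_injective (LinearMap.ker_eq_bot.2
    ((Representation.IsIrreducible.injective_or_eq_zero (⟨i, mem_hom.1 hi⟩ : σ.IntertwiningMap ρ)).resolve_right
      fun e => hi0 (congrArg Representation.IntertwiningMap.toLinearMap e)))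
  let r : V →ₗ[ℂ] (Fin n → ℂ) := (Nat.card G : ℂ)⁻¹ • ∑ g, (ρ.linHom σ) g r₀
  have hr : ∀ g, r ∘ₗ ρ g = σ g ∘ₗ r := mem_hom.1 (Submodule.smul_mem _ _ fun g => by
    rw [map_sum]; exact Fintype.sum_equiv (Equiv.mulLeft g) _ _ fun x => by simp)
  have hri : ∀ w, r (i w) = w := fun w => by
    have : ∀ g, σ g (r₀ (ρ g⁻¹ (i w))) = w := fun g => by
      rw [← LinearMap.comp_apply (ρ g⁻¹), ← mem_hom.1 hi, LinearMap.comp_apply, ← LinearMap.comp_apply r₀, hr₀]; simp
    simp [r, this, ← Nat.cast_smul_eq_nsmul ℂ]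
  have hc : ∀ f ∈ (σ.linHom ρ).invariants, ∀ g, (f ∘ₗ r) * ρ g = ρ g * (f ∘ₗ r) := fun f hf g => by
    rw [End.mul_eq_comp, End.mul_eq_comp, LinearMap.comp_assoc, hr, ← LinearMap.comp_assoc, mem_hom.1 hf, LinearMap.comp_assoc]
  refine finrank_le_one ⟨i, hi⟩ fun ⟨f, hf⟩ => ?_
  obtain ⟨c, e⟩ := exists_scalar_of_comm σ (r ∘ₗ f) fun g => by
    rw [End.mul_eq_comp, End.mul_eq_comp, LinearMap.comp_assoc, mem_hom.1 hf, ← LinearMap.comp_assoc, hr, LinearMap.comp_assoc]
  refine ⟨c, Subtype.ext (LinearMap.ext fun w => ?_)⟩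
  have h1 := DFunLike.congr_fun (h _ _ (hc f hf) (hc i hi)) (i w)
  have h2 := DFunLike.congr_fun e w
  simp only [End.mul_apply, LinearMap.comp_apply, hri] at h1 h2
  change c • i w = f w
  rw [h1, h2, ← map_smul]; rfl

/-- the multiplicities in a twisted character are algebraic integers -/
theorem isIntegral_twc (hχ : IsIrrCharacter G χ) (n : ℕ) : ∀ {V : Type v} [AddCommGroup V] [Module ℂ V] [FiniteDimensional ℂ V]
    (ρ : Representation ℂ G V) (M : End ℂ V), finrank ℂ V = n → (∀ g, M * ρ g = ρ g * M) →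
    (∀ μ, M.HasEigenvalue μ → IsIntegral ℤ μ) → IsIntegral ℤ (classInner (twc ρ M) χ) := by
  induction n using Nat.strong_induction_on with | _ n ih =>
  intro V _ _ _ ρ M hn hM hi
  rcases subsingleton_or_nontrivial V with hV | hV
  · rw [show twc ρ M = 0 from funext fun g => by rw [twc, Subsingleton.elim (M * ρ g) 0, map_zero]; rfl, classInner_zero_left]
    exact isIntegral_zero
  obtain ⟨μ, hμ⟩ := M.exists_eigenvalue
  set N := M - μ • (1 : End ℂ V) with hN
  have hc : ∀ g, N * ρ g = ρ g * N := fun g => by simp [hN, sub_mul, mul_sub, hM]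
  let U : Subrepresentation ρ := ⟨LinearMap.range N, by
    rintro g _ ⟨v, rfl⟩; exact ⟨ρ g v, DFunLike.congr_fun (hc g) v⟩⟩
  have hU : ∀ v ∈ LinearMap.range N, N v ∈ LinearMap.range N := fun v _ => ⟨v, rfl⟩
  have e : twc ρ M = μ • ρ.character + twc U.toRepresentation (N.restrict hU) := funext fun g => by
    have h1 : ∀ v, (N * ρ g) v ∈ LinearMap.range N := fun v => ⟨_, rfl⟩
    have h2 : twc U.toRepresentation (N.restrict hU) g = _ := LinearMap.trace_restrict_eq_of_forall_mem _ _ h1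
    rw [Pi.add_apply, h2, twc, hN, sub_mul, map_sub, smul_mul_assoc, one_mul, map_smul]
    exact (add_sub_cancel _ _).symm
  obtain ⟨k, hk⟩ := classInner_nat (isCharacter_character ρ) (isCharacter_of_irr hχ)
  rw [e, classInner_add_left, classInner_smul_left, hk]
  refine ((hi μ hμ).mul (isIntegral_natCast k)).add (ih _ ?_ _ _ rfl (fun g => LinearMap.ext fun v =>
    Subtype.ext (DFunLike.congr_fun (hc g) v.1)) fun ν hν => ?_)
  · obtain ⟨v, hv⟩ := hμ.exists_hasEigenvector
    rw [← hn, ← N.finrank_range_add_finrank_ker]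
    exact lt_add_of_pos_right _ (finrank_pos_iff_exists_ne_zero.2 ⟨⟨v, by simp [hN, hv.apply_eq_smul]⟩, by simpa using hv.2⟩)
  · obtain ⟨v, hv⟩ := hν.exists_hasEigenvector
    have h1 : N v = ν • (v : V) := congrArg Subtype.val hv.apply_eq_smul
    simpa using (hi (ν + μ) (End.hasEigenvalue_of_hasEigenvector (x := v) ⟨End.mem_eigenspace_iff.2 (by
      rw [add_smul, ← h1]; simp [hN]), by simpa using hv.2⟩)).sub (hi μ hμ)

section Perm
open MulAction Matrix
variable {Ω : Type w} [Fintype Ω] [DecidableEq Ω] [MulAction G Ω] {M : End ℂ (Ω → ℂ)}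

theorem trace_eq_sum (M : End ℂ (Ω → ℂ)) : LinearMap.trace ℂ _ M = ∑ x, LinearMap.toMatrix' M x x := by
  rw [← toLin'_toMatrix' M, trace_toLin'_eq, LinearMap.toMatrix'_toLin']; rfl

theorem toMatrix'_permRep (g : G) (x y : Ω) : LinearMap.toMatrix' (permRep ℂ G Ω g) x y = if x = g • y then 1 else 0 := by
  simp [permRep, Pi.single_apply, inv_smul_eq_iff]

theorem character_permRep : (permRep ℂ G Ω).character = fun g => (Nat.card (fixedBy Ω g) : ℂ) := funext fun g => by
  rw [Representation.character, trace_eq_sum]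
  simp only [toMatrix'_permRep]
  simp [Fintype.card_subtype, eq_comm]

theorem comm_perm_iff : (∀ g, M * permRep ℂ G Ω g = permRep ℂ G Ω g * M) ↔
    ∀ (g : G) x y, LinearMap.toMatrix' M (g • x) (g • y) = LinearMap.toMatrix' M x y := by
  have e : ∀ g : G, M * permRep ℂ G Ω g = permRep ℂ G Ω g * M ↔
      ∀ x y, LinearMap.toMatrix' M x (g • y) = LinearMap.toMatrix' M (g⁻¹ • x) y := fun g => by
    rw [← LinearMap.toMatrix'.injective.eq_iff, LinearMap.toMatrix'_mul, LinearMap.toMatrix'_mul, ← Matrix.ext_iff]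
    simp only [mul_apply, toMatrix'_permRep, mul_ite, ite_mul, mul_one, mul_zero, one_mul, zero_mul, Finset.sum_ite_eq',
      Finset.mem_univ, if_true]
    simp only [← inv_smul_eq_iff (g := g), Finset.sum_ite_eq, Finset.mem_univ, if_true]
  exact forall_congr' fun g => (e g).trans ⟨fun h x y => by rw [h, inv_smul_smul], fun h x y => by rw [← h (g⁻¹ • x), smul_inv_smul]⟩

theorem toMatrix'_idem_conj (hχ : IsIrrCharacter G χ) :
    LinearMap.toMatrix' (idem (permRep ℂ G Ω) fun g => conj (χ g)) = (LinearMap.toMatrix' (idem (permRep ℂ G Ω) χ))ᵀ := by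
  ext x y
  simp only [idem, map_smul, map_sum, transpose_apply, Matrix.smul_apply, Matrix.sum_apply, toMatrix'_permRep,
    isCharacter_conj_one (isCharacter_of_irr hχ)]
  congr 1
  exact Fintype.sum_equiv (Equiv.inv G) _ _ fun g => by simp [isIrr_inv hχ, eq_inv_smul_iff, eq_comm]

open Classical in
/-- the orbital matrix -/
noncomputable def orb (G : Type u) [Group G] [MulAction G Ω] (a b : Ω) : End ℂ (Ω → ℂ) :=
  toLin' (of fun x y => if ∃ g : G, g • a = x ∧ g • b = y then 1 else 0)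

open Classical in
theorem toMatrix'_orb (a b x y : Ω) : LinearMap.toMatrix' (orb G a b) x y = if ∃ g : G, g • a = x ∧ g • b = y then 1 else 0 := by
  rw [orb, LinearMap.toMatrix'_toLin', of_apply]; congr

theorem orb_comm (a b : Ω) : ∀ g, orb G a b * permRep ℂ G Ω g = permRep ℂ G Ω g * orb G a b := comm_perm_iff.2 fun g x y => by
  rw [toMatrix'_orb, toMatrix'_orb]
  exact if_congr ⟨fun ⟨h, h1, h2⟩ => ⟨g⁻¹ * h, by rw [mul_smul, h1, inv_smul_smul], by rw [mul_smul, h2, inv_smul_smul]⟩,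
    fun ⟨h, h1, h2⟩ => ⟨g * h, by rw [mul_smul, h1], by rw [mul_smul, h2]⟩⟩ rfl rfl

theorem isIntegral_eigen_orb (a b : Ω) (μ : ℂ) (h : (orb G a b).HasEigenvalue μ) : IsIntegral ℤ μ := by
  classical
  obtain ⟨p, hp, e⟩ := Matrix.isIntegral (of fun x y => if ∃ g : G, g • a = x ∧ g • b = y then (1 : ℤ) else 0)
  obtain ⟨v, hv⟩ := h.exists_hasEigenvector
  let f : Matrix Ω Ω ℤ →+* End ℂ (Ω → ℂ) := (toLinAlgEquiv' : _ ≃ₐ[ℂ] _).toRingEquiv.toRingHom.comp (Int.castRingHom ℂ).mapMatrix
  have h1 : f (of fun x y => if ∃ g : G, g • a = x ∧ g • b = y then (1 : ℤ) else 0) = orb G a b :=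
    congrArg toLin' (Matrix.ext fun x y => by simp)
  have h2 := congrArg f e
  rw [Polynomial.hom_eval₂, h1, map_zero, show f.comp (algebraMap ℤ _) = (algebraMap ℂ _).comp (algebraMap ℤ ℂ) from
    Subsingleton.elim _ _, ← Polynomial.eval₂_map, ← Polynomial.aeval_def] at h2
  have h3 := End.aeval_apply_of_hasEigenvector (p := p.map (algebraMap ℤ ℂ)) hv
  rw [h2, LinearMap.zero_apply, eq_comm, smul_eq_zero, or_iff_left hv.2, Polynomial.eval_map] at h3
  exact ⟨p, hp, h3⟩

theorem trace_orb [IsPretransitive G Ω] {a b : Ω} (h : b ≠ a) : LinearMap.trace ℂ _ (orb G a b) = 0 := by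
  rw [trace_eq_sum]
  exact Finset.sum_eq_zero fun x _ => by
    rw [toMatrix'_orb, if_neg]; rintro ⟨g, h1, h2⟩; exact h (smul_left_cancel g (h2.trans h1.symm))

theorem sum_orb [IsPretransitive G Ω] (a b x : Ω) :
    ∑ y, LinearMap.toMatrix' (orb G a b) x y = Nat.card (orbit (stabilizer G a) b) := by
  classical
  obtain ⟨g, rfl⟩ := exists_smul_eq G a x
  rw [← Equiv.sum_comp (MulAction.toPerm g)]
  simp only [toPerm_apply, comm_perm_iff.1 (orb_comm a b), toMatrix'_orb, Finset.sum_boole, Nat.card_eq_fintype_card,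
    Fintype.card_subtype]
  congr 2
  exact Finset.filter_congr fun y _ => ⟨fun ⟨h, h1, h2⟩ => ⟨⟨h, h1⟩, h2⟩, fun ⟨h, h2⟩ => ⟨h, h.2, h2⟩⟩

theorem inner_perm_one [IsPretransitive G Ω] [Nonempty Ω] : classInner (permRep ℂ G Ω).character (fun _ => 1) = 1 := by
  rw [character_permRep, classInner_perm_one, (card_orbits_eq_one_iff Ω).2 ‹_›, Nat.cast_one]

theorem orb_mul_idem_one [IsPretransitive G Ω] (a b : Ω) : orb G a b * idem (permRep ℂ G Ω) (fun _ => 1) =
    (Nat.card (orbit (stabilizer G a) b) : ℂ) • idem (permRep ℂ G Ω) (fun _ => 1) := by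
  refine LinearMap.toMatrix'.injective (Matrix.ext fun x y => ?_)
  have : ∀ z, LinearMap.toMatrix' (idem (permRep ℂ G Ω) fun _ => 1) z y =
      LinearMap.toMatrix' (idem (permRep ℂ G Ω) fun _ => 1) x y := fun z => by
    obtain ⟨g, rfl⟩ := exists_smul_eq G x z
    simp only [idem, map_smul, map_sum, Matrix.smul_apply, Matrix.sum_apply, toMatrix'_permRep]
    congr 1
    exact Fintype.sum_equiv (Equiv.mulLeft g⁻¹) _ _ fun h => by simp [mul_smul, eq_inv_smul_iff]
  rw [LinearMap.toMatrix'_mul, mul_apply, map_smul, Matrix.smul_apply, ← sum_orb a b x, smul_eq_mul, Finset.sum_mul]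
  exact Finset.sum_congr rfl fun z _ => by rw [this]

theorem inner_twc_orb_one [IsPretransitive G Ω] (a b : Ω) :
    classInner (twc (permRep ℂ G Ω) (orb G a b)) (fun _ => 1) = Nat.card (orbit (stabilizer G a) b) := by
  haveI : Nonempty Ω := ⟨a⟩
  have := trace_mul_idem (ρ := permRep ℂ G Ω) (orb G a b) (fun _ => 1)
  rwa [orb_mul_idem_one, map_smul, trace_idem, inner_perm_one, one_mul, one_mul, smul_eq_mul, mul_one, eq_comm] at this

theorem dvd_subdegree [IsPretransitive G Ω] {f : ℕ} (hf : ∀ χ : G → ℂ, IsIrrCharacter G χ → χ ≠ (fun _ => 1) →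
    classInner (permRep ℂ G Ω).character χ ≠ 0 → ∃ m : ℕ, χ 1 = (f : ℂ) * m) {a b : Ω} (hab : b ≠ a) :
    f ∣ Nat.card (orbit (stabilizer G a) b) := by
  classical
  have h1 := apply_eq_sum_classInner_mul (twc_class (orb_comm (G := G) a b)) 1
  rw [twc, map_one, mul_one, trace_orb hab, ← Finset.add_sum_erase _ _ (Finset.mem_univ (trivIrr G)), trivIrr_coe,
    inner_twc_orb_one, mul_one] at h1
  obtain ⟨z, hz, e⟩ : ∃ z : ℂ, IsIntegral ℤ z ∧ ∑ χ ∈ Finset.univ.erase (trivIrr G),
      classInner (twc (permRep ℂ G Ω) (orb G a b)) χ * (χ : G → ℂ) 1 = f * z := by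
    refine Finset.sum_induction _ (fun t => ∃ z : ℂ, IsIntegral ℤ z ∧ t = f * z) ?_ ⟨0, isIntegral_zero, by simp⟩ fun χ hχ => ?_
    · rintro _ _ ⟨x, hx, rfl⟩ ⟨y, hy, rfl⟩; exact ⟨_, hx.add hy, (mul_add _ _ _).symm⟩
    by_cases h : classInner (permRep ℂ G Ω).character χ = 0
    · exact ⟨0, isIntegral_zero, by simp [inner_twc_eq_zero χ.2 h]⟩
    obtain ⟨m, hm⟩ := hf χ χ.2 (fun e => Finset.ne_of_mem_erase hχ (Subtype.ext e)) h
    exact ⟨_, (isIntegral_twc χ.2 _ _ _ rfl (orb_comm a b) (isIntegral_eigen_orb a b)).mul (isIntegral_natCast m), by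
      rw [hm]; ring⟩
  rw [e, eq_comm, add_eq_zero_iff_eq_neg] at h1
  rcases eq_or_ne f 0 with rfl | h0
  · simpa using h1
  · exact nat_dvd_of_isIntegral_div h0 (by rw [h1, neg_div, mul_div_cancel_left₀ _ (Nat.cast_ne_zero.2 h0)]; exact hz.neg)

theorem inner_perm_self [IsPretransitive G Ω] (a : Ω) : classInner (permRep ℂ G Ω).character (permRep ℂ G Ω).character =
    Nat.card (orbitRel.Quotient (stabilizer G a) Ω) := by
  rw [character_permRep, classInner_perm_perm, S0669.result a]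

theorem sum_suborbit (a : Ω) [Fintype (orbitRel.Quotient (stabilizer G a) Ω)] [DecidableEq (orbitRel.Quotient (stabilizer G a) Ω)] :
    1 + ∑ ω ∈ Finset.univ.erase (Quotient.mk'' a : orbitRel.Quotient (stabilizer G a) Ω), Nat.card (orbitRel.Quotient.orbit ω) = Fintype.card Ω := by
  rw [← Nat.card_eq_fintype_card, Nat.card_congr (selfEquivSigmaOrbits' (stabilizer G a) Ω), Nat.card_sigma,
    ← Finset.add_sum_erase _ _ (Finset.mem_univ (Quotient.mk'' a)), orbitRel.Quotient.orbit_mk,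
    show orbit (stabilizer G a) a = {a} from Set.eq_singleton_iff_unique_mem.2 ⟨mem_orbit_self a, fun _ ⟨g, hg⟩ => hg ▸ g.2⟩]
  simp

theorem mk_ne_iff {a b : Ω} : (Quotient.mk'' b : orbitRel.Quotient (stabilizer G a) Ω) ≠ Quotient.mk'' a ↔ b ≠ a :=
  not_congr ⟨fun h => let ⟨g, hg⟩ := Quotient.exact' h; hg ▸ g.2, fun h => h ▸ rfl⟩

theorem same_degree [IsPretransitive G Ω] (a : Ω) {f : ℕ} (hf : ∀ χ : G → ℂ, IsIrrCharacter G χ → χ ≠ (fun _ => 1) →
    classInner (permRep ℂ G Ω).character χ ≠ 0 → χ 1 = f) :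
    (∀ χ, IsIrrCharacter G χ → classInner (permRep ℂ G Ω).character χ = 0 ∨ classInner (permRep ℂ G Ω).character χ = 1) ∧
      ∀ b, b ≠ a → Nat.card (orbit (stabilizer G a) b) = f := by
  classical
  haveI : Nonempty Ω := ⟨a⟩
  haveI := Fintype.ofFinite (orbitRel.Quotient (stabilizer G a) Ω)
  obtain ⟨m, hm, e⟩ := isCharacter_exists_mult (isCharacter_character (permRep ℂ G Ω))
  have h0 : m (trivIrr G) = 1 := Nat.cast_eq_one.1 ((hm (trivIrr G)).symm.trans inner_perm_one)
  have h1 : Fintype.card Ω = 1 + f * ∑ χ ∈ Finset.univ.erase (trivIrr G), m χ := by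
    have := congrFun e 1
    rw [Representation.char_one, finrank_fintype_fun_eq_card, Finset.sum_apply, ← Finset.add_sum_erase _ _ (Finset.mem_univ (trivIrr G)),
      h0, Finset.sum_congr rfl (g := fun χ => ((f * m χ : ℕ) : ℂ)) fun χ hχ => by
        by_cases h : m χ = 0
        · simp [h]
        · simp [hf χ χ.2 (fun e => Finset.ne_of_mem_erase hχ (Subtype.ext e)) (by simpa [hm]), mul_comm]] at this
    rw [Finset.mul_sum]; simp only [Pi.smul_apply, trivIrr_apply, smul_eq_mul] at this; exact_mod_cast this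
  have h2 : Fintype.card (orbitRel.Quotient (stabilizer G a) Ω) = 1 + ∑ χ ∈ Finset.univ.erase (trivIrr G), m χ * m χ := by
    have := inner_perm_self (G := G) a
    rw [classInner_eq_sum (isClassFunction_of_isCharacter (isCharacter_character _)), Nat.card_eq_fintype_card,
      ← Finset.add_sum_erase _ _ (Finset.mem_univ (trivIrr G))] at this
    simp only [hm, h0, map_natCast] at this; exact_mod_cast this.symm
  have h3 := sum_suborbit (G := G) a
  have h4 : ∀ ω ∈ Finset.univ.erase (Quotient.mk'' a : orbitRel.Quotient (stabilizer G a) Ω), f ≤ Nat.card (orbitRel.Quotient.orbit ω) := fun ω hω => by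
    induction ω using Quotient.inductionOn' with | h b =>
    rw [orbitRel.Quotient.orbit_mk]
    haveI : Nonempty (orbit (stabilizer G a) b) := ⟨⟨b, mem_orbit_self b⟩⟩
    exact Nat.le_of_dvd Nat.card_pos (dvd_subdegree (fun χ h1 h2 h3 => ⟨1, by simp [hf χ h1 h2 h3]⟩)
      (mk_ne_iff.1 (Finset.ne_of_mem_erase hω)))
  have h5 := Finset.sum_le_sum h4
  have h6 : ∀ χ ∈ Finset.univ.erase (trivIrr G), m χ ≤ m χ * m χ := fun χ _ => Nat.le_mul_self _
  have h7 := Nat.mul_le_mul_left f (Finset.sum_le_sum h6)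
  have h8 : ∑ _ω ∈ Finset.univ.erase (Quotient.mk'' a : orbitRel.Quotient (stabilizer G a) Ω), f =
      f * ∑ χ ∈ Finset.univ.erase (trivIrr G), m χ * m χ := by
    rw [Finset.sum_const, Finset.card_erase_of_mem (Finset.mem_univ _), Finset.card_univ, h2]; simp [mul_comm]
  refine ⟨fun χ hχ => ?_, fun b hb => ?_⟩
  · by_cases h : χ = fun _ => 1
    · exact Or.inr (h ▸ inner_perm_one)
    refine or_iff_not_imp_left.2 fun h9 => ?_
    have hf0 : 0 < f := Nat.pos_of_ne_zero fun e => isIrr_one_ne_zero hχ (by simp [hf χ hχ h h9, e])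
    have := (Finset.sum_eq_sum_iff_of_le h6).1 (Nat.eq_of_mul_eq_mul_left hf0 (by omega)) ⟨χ, hχ⟩
      (Finset.mem_erase.2 ⟨fun e => h (congrArg Subtype.val e), Finset.mem_univ _⟩)
    rw [hm ⟨χ, hχ⟩] at h9 ⊢
    exact_mod_cast (Nat.mul_eq_left (by exact_mod_cast h9)).1 this.symm
  · exact ((Finset.sum_eq_sum_iff_of_le h4).1 (by omega) (Quotient.mk'' b)
      (Finset.mem_erase.2 ⟨mk_ne_iff.2 hb, Finset.mem_univ _⟩)).symm

end Perm

end Cfsg.Agent.H28
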