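import Mathlib
import Cfsg.Agent.H28.CRing
import Cfsg.Agent.H6.Galois

/-! The centraliser ring, continued: eigenvalues on multiplicity-one constituents. -/

set_option autoImplicit false
set_option linter.style.haveILetI false
set_option linter.unusedSectionVars false

namespace Cfsg.Agent.H28

open Cfsg Module Cfsg.Agent.H6
open scoped ComplexConjugate

universe u v w
variable {G : Type u} [Group G] [Fintype G] {V : Type v} [AddCommGroup V] [Module ℂ V] [FiniteDimensional ℂ V]
  {ρ : Representation ℂ G V} {χ ψ : G → ℂ} {M N : End ℂ V}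

theorem mul_eq_sum_idem (hN : N * N = N) (hc : ∀ g, N * ρ g = ρ g * N)
    (h : ∀ χ, IsIrrCharacter G χ → classInner (twc ρ N) χ = 0 ∨ classInner (twc ρ N) χ = 1)
    (hM : ∀ g, M * ρ g = ρ g * M) (hMN : M * N = N * M) : ∃ c : IrrCharacter G → ℂ, M * N = ∑ χ, c χ • (idem ρ χ * N) := by
  let U : Subrepresentation ρ := ⟨LinearMap.range N, by
    rintro g _ ⟨v, rfl⟩; exact ⟨ρ g v, DFunLike.congr_fun (hc g) v⟩⟩
  have hU : ∀ v ∈ LinearMap.range N, M v ∈ LinearMap.range N := by
    rintro _ ⟨v, rfl⟩; exact ⟨M v, (DFunLike.congr_fun hMN v).symm⟩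
  have e : U.toRepresentation.character = twc ρ N := funext fun g => by
    have h1 : ∀ v, (N * ρ g) v ∈ LinearMap.range N := fun v => ⟨_, rfl⟩
    rw [twc, ← LinearMap.trace_restrict_eq_of_forall_mem _ _ h1]
    refine congrArg _ (LinearMap.ext ?_)
    rintro ⟨_, v, rfl⟩
    exact Subtype.ext (by
      change ρ g (N v) = (N * ρ g) (N v)
      rw [hc, End.mul_apply, ← End.mul_apply N N, hN])
  obtain ⟨c, hc⟩ := exists_eq_sum_idem (ρ := U.toRepresentation) (M := M.restrict hU) (e ▸ h) fun g => LinearMap.ext fun v =>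
    Subtype.ext (DFunLike.congr_fun (hM g) v.1)
  refine ⟨c, LinearMap.ext fun v => ?_⟩
  have := congrArg Subtype.val (DFunLike.congr_fun hc ⟨N v, v, rfl⟩)
  simpa [idem, Subrepresentation.toRepresentation] using this

theorem twc_idem (hχ : IsIrrCharacter G χ) : twc ρ (idem ρ χ) = classInner ρ.character χ • χ :=
  eq_of_classInner_irr (twc_class (idem_comm hχ)) (isClassFunction_smul _ (isClassFunction_of_irr hχ)) fun ψ hψ => by
    refine mul_left_cancel₀ (isIrr_one_ne_zero hψ) ?_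
    rw [← trace_mul_idem, idem_mul hχ hψ, map_smul, trace_idem, classInner_smul_left, smul_eq_mul]
    by_cases h : χ = ψ
    · subst h; ring
    · simp [classInner_irr_of_ne hχ hψ h]

theorem comm_idem (hM : ∀ g, M * ρ g = ρ g * M) (χ : G → ℂ) : M * idem ρ χ = idem ρ χ * M := by
  simp only [idem, Finset.sum_mul, Finset.mul_sum, smul_mul_assoc, mul_smul_comm, hM]

theorem mul_idem (hχ : IsIrrCharacter G χ) (h1 : classInner ρ.character χ = 1) (hM : ∀ g, M * ρ g = ρ g * M) :
    M * idem ρ χ = classInner (twc ρ M) χ • idem ρ χ := by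
  obtain ⟨c, e⟩ := mul_eq_sum_idem (idem_mul_self hχ) (idem_comm hχ) (fun ψ hψ => by
    rw [twc_idem hχ, h1, one_smul]
    by_cases h : χ = ψ
    · exact Or.inr (h ▸ classInner_irr_self hχ)
    · exact Or.inl (classInner_irr_of_ne hχ hψ h)) hM (comm_idem hM χ)
  rw [Finset.sum_eq_single ⟨χ, hχ⟩ (fun ψ _ hne => by
    rw [idem_mul_ne ψ.2 hχ fun e => hne (Subtype.ext e), smul_zero]) (by simp), idem_mul_self hχ] at e
  have := trace_mul_idem (ρ := ρ) M χ
  rw [e, map_smul, trace_idem, h1, mul_one, smul_eq_mul, mul_comm, mul_right_inj' (isIrr_one_ne_zero hχ)] at this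
  rw [e, this]

theorem inner_twc_mul (hχ : IsIrrCharacter G χ) (h1 : classInner ρ.character χ = 1) (hN : ∀ g, N * ρ g = ρ g * N) :
    classInner (twc ρ (M * N)) χ = classInner (twc ρ M) χ * classInner (twc ρ N) χ := by
  refine mul_left_cancel₀ (isIrr_one_ne_zero hχ) ?_
  rw [← trace_mul_idem, mul_assoc, mul_idem hχ h1 hN, mul_smul_comm, map_smul, trace_mul_idem, smul_eq_mul]; ring

open Classical in
/-- on a copy of the regular representation of an abelian group -/
theorem trace_mul_reg (hG : ∀ a b : G, a * b = b * a) (hN : N * N = N) (hc : ∀ g, N * ρ g = ρ g * N)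
    (h : ∀ g, twc ρ N g = if g = 1 then (Nat.card G : ℂ) else 0) (hM : ∀ g, M * ρ g = ρ g * M) (hMN : M * N = N * M) :
    M * N = ∑ g, (twc ρ (M * N) g⁻¹ / Nat.card G) • (ρ g * N) := by
  have h0 := card_ne_zero_complex G
  obtain ⟨c, e⟩ := mul_eq_sum_idem hN hc (fun ψ hψ => Or.inr (by
    simp [classInner_def, h, isIrr_degree_one_of_comm hG hψ])) hM hMN
  obtain ⟨a, ha⟩ : ∃ a : G → ℂ, M * N = ∑ g, a g • (ρ g * N) := ⟨fun g => ∑ χ, c χ * ((χ : G → ℂ) 1 / Nat.card G * conj ((χ : G → ℂ) g)), by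
    simp only [e, idem, Finset.sum_mul, Finset.smul_sum, smul_mul_assoc, smul_smul, Finset.sum_smul]
    exact Finset.sum_comm⟩
  rw [ha]
  refine Finset.sum_congr rfl fun g _ => congrArg (· • _) ?_
  have : ∀ k, LinearMap.trace ℂ V (ρ k * N * ρ g⁻¹) = if k = g then (Nat.card G : ℂ) else 0 := fun k => by
    rw [← hc, mul_assoc, ← map_mul, ← twc, h, mul_inv_eq_one]
  simp [twc, Finset.sum_mul, this]

section Perm
open MulAction Matrix
variable {Ω : Type w} [Fintype Ω] [DecidableEq Ω] [MulAction G Ω] {M N : End ℂ (Ω → ℂ)}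

theorem twc_perm (M : End ℂ (Ω → ℂ)) (g : G) : twc (permRep ℂ G Ω) M g = ∑ x, LinearMap.toMatrix' M x (g • x) := by
  simp only [twc, trace_eq_sum, LinearMap.toMatrix'_mul, mul_apply, toMatrix'_permRep]; simp

theorem trace_mul_eq (M N : End ℂ (Ω → ℂ)) :
    LinearMap.trace ℂ _ (M * N) = ∑ x, ∑ y, LinearMap.toMatrix' M x y * LinearMap.toMatrix' N y x := by
  simp only [trace_eq_sum, LinearMap.toMatrix'_mul, mul_apply]

theorem exists_int_inner_orb (hχ : IsIrrCharacter G χ) (h : ∀ τ : ℂ ≃+* ℂ, ∀ g, τ (χ g) = χ g) (a b : Ω) :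
    ∃ n : ℤ, classInner (twc (permRep ℂ G Ω) (orb G a b)) χ = n :=
  exists_int_of_fixed (isIntegral_twc hχ _ _ _ rfl (orb_comm a b) (isIntegral_eigen_orb a b)) fun τ => by
    have := classInner_map τ.toRingHom (twc (permRep ℂ G Ω) (orb G a b)) (isGen_of_isCharacter (isCharacter_of_irr hχ))
    refine this.symm.trans ?_
    congr 1
    · funext g; simp [twc_perm, toMatrix'_orb, -LinearMap.toMatrix'_apply]
    · exact funext (h τ)

theorem subdeg_one [IsPreprimitive G Ω] {a b : Ω} (hab : b ≠ a) (h : Nat.card (orbit (stabilizer G a) b) = 1) (g : G)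
    (hg : g • a = a) (c : Ω) : g • c = c := by
  haveI : Nontrivial Ω := ⟨b, a, hab⟩
  have h1 : ∀ k : G, k • a = a → k • b = b := fun k hk =>
    congrArg Subtype.val ((Nat.card_eq_one_iff_unique.1 h).1.elim (⟨k • b, ⟨k, hk⟩, rfl⟩ : orbit (stabilizer G a) b) ⟨b, mem_orbit_self b⟩)
  have h2 := IsPreprimitive.isCoatom_stabilizer_of_isPreprimitive G a
  have h3 : stabilizer G a = stabilizer G b :=
    (h2.le_iff.1 (show stabilizer G a ≤ stabilizer G b from h1)).resolve_left (IsPreprimitive.isCoatom_stabilizer_of_isPreprimitive G b).1 |>.symm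
  obtain ⟨t, rfl⟩ := exists_smul_eq G a b
  have h4 : Subgroup.normalizer (stabilizer G a : Set G) = ⊤ := (h2.le_iff.1 Subgroup.le_normalizer).resolve_right fun e => hab (by
    rw [← mem_stabilizer_iff, ← e, Subgroup.mem_normalizer_iff'']
    intro k
    rw [h3, mem_stabilizer_iff, ← h3, mem_stabilizer_iff, mul_smul, mul_smul, inv_smul_eq_iff])
  obtain ⟨s, rfl⟩ := exists_smul_eq G a c
  have := (Subgroup.normalizer_eq_top_iff.1 h4).conj_mem' g hg s
  rwa [mem_stabilizer_iff, mul_smul, mul_smul, inv_smul_eq_iff] at this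

end Perm

end Cfsg.Agent.H28
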