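import Mathlib
import Cfsg.Agent.H28.CRing2
import Cfsg.Agent.S0157

/-! Wielandt's theorem on primitive groups of degree `2p`: the character-theoretic part. -/

set_option autoImplicit false
set_option linter.style.haveILetI false
set_option linter.unusedSectionVars false

namespace Cfsg.Agent.H28

open Cfsg Module Cfsg.Agent.H6 MulAction
open scoped ComplexConjugate

universe u v w

theorem dvd_of_sum_roots {p : ℕ} (hp : p.Prime) {ι : Type*} (s : Finset ι) (f : ι → ℂ) (hf : ∀ i, f i ^ p = 1)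
    (h : ∑ i ∈ s, f i = 0) : p ∣ s.card := by
  classical
  obtain ⟨F, hF⟩ : ∃ F : ι → integralClosure ℤ ℂ, ∀ i, F i = f i :=
    ⟨fun i => ⟨f i, isIntegral_of_pow_eq_one hp.ne_zero (hf i)⟩, fun _ => rfl⟩
  have key : ∀ s : Finset ι, ∃ r : integralClosure ℤ ℂ, (∑ i ∈ s, F i) ^ p = s.card + p * r := fun s => by
    induction s using Finset.induction_on with
    | empty => exact ⟨0, by simp [hp.ne_zero]⟩
    | insert i s hi ih =>
      obtain ⟨r, hr⟩ := ih
      obtain ⟨t, ht⟩ := exists_add_pow_prime_eq hp (F i) (∑ i ∈ s, F i)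
      rw [Finset.sum_insert hi, ht, hr, show F i ^ p = 1 from Subtype.ext (by simp [hF, hf]), Finset.card_insert_of_notMem hi]
      exact ⟨r + F i * (∑ i ∈ s, F i) * t, by push_cast; ring⟩
  obtain ⟨r, hr⟩ := key s
  have e := congrArg Subtype.val hr
  simp only [SubmonoidClass.coe_pow, AddSubmonoidClass.coe_finsetSum, hF, h, zero_pow hp.ne_zero, Subalgebra.coe_add, MulMemClass.coe_mul,
    SubringClass.coe_natCast] at e
  refine nat_dvd_of_isIntegral_div hp.ne_zero ?_
  rw [show (s.card : ℂ) / p = -r by field_simp [hp.ne_zero]; linear_combination -e]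
  exact r.2.neg

variable {G : Type u} [Group G] [Fintype G] {χ : G → ℂ}

theorem conv_eq_zero (hG : ∀ a b : G, a * b = b * a) {p : ℕ} (hp : p.Prime) (hexp : ∀ g : G, g ^ p = 1) (X : Finset G)
    (hX : ¬ p ∣ X.card) (f : G → ℂ) (h : ∀ k, ∑ g ∈ X, f (g * k) = 0) : f = 0 :=
  eq_zero_of_classInner_irr (fun g x => by rw [hG x, mul_inv_cancel_right]) fun ω hω => by
    obtain ⟨l, rfl⟩ := exists_linear_of_comm hG hω
    have h1 : ∀ g, conj (l g : ℂ) * l g = 1 := fun g => by
      rw [← isIrr_inv hω, ← Units.val_mul, ← map_mul, inv_mul_cancel, map_one, Units.val_one]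
    have h2 : (∑ g ∈ X, (l g : ℂ)) * ∑ k, f k * conj (l k : ℂ) = ∑ k, (∑ g ∈ X, f (g * k)) * conj (l k : ℂ) := by
      simp only [Finset.sum_mul]
      rw [Finset.sum_comm]
      refine Finset.sum_congr rfl fun g _ => ?_
      rw [Finset.mul_sum]
      exact (Fintype.sum_equiv (Equiv.mulLeft g) _ _ fun k => by
        simp only [Equiv.coe_mulLeft, map_mul, Units.val_mul]; linear_combination (-f (g * k) * conj (l k : ℂ)) * h1 g).symm
    simp only [h, zero_mul, Finset.sum_const_zero, mul_eq_zero] at h2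
    rw [classInner_def, h2.resolve_left fun e => hX (dvd_of_sum_roots hp X _ (fun g => by
      rw [← Units.val_pow_eq_pow_val, ← map_pow, hexp, map_one, Units.val_one]) e), mul_zero]

variable {Ω : Type w} [Fintype Ω] [DecidableEq Ω] [MulAction G Ω]

theorem eq_one_of_ker [IsPreprimitive G Ω] (hχ : IsIrrCharacter G χ) (h1 : classInner (permRep ℂ G Ω).character χ = 1) {x : G} {y : Ω}
    (hx : x • y ≠ y) (h : χ x = χ 1) : χ = fun _ => 1 := by
  haveI := charKer_normal (isClassFunction_of_irr hχ)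
  haveI : IsPretransitive (charKer χ) Ω := IsQuasiPreprimitive.isPretransitive_of_normal fun e =>
    hx ((e ▸ Set.mem_univ y : y ∈ fixedPoints (charKer χ) Ω) ⟨x, (mem_charKer_iff_irr hχ).2 h⟩)
  have e : ∀ g, χ g = ∑ y, LinearMap.toMatrix' (idem (permRep ℂ G Ω) χ) y (g • y) := fun g => by
    rw [← twc_perm, twc_idem hχ, h1, one_smul]
  refine irr_eq_one_of_charKer_eq_top hχ (top_le_iff.1 fun g _ => (mem_charKer_iff_irr hχ).2 ?_)
  rw [e, e]
  refine Finset.sum_congr rfl fun y _ => ?_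
  obtain ⟨k, hk⟩ := exists_smul_eq (charKer χ) y (g • y)
  simp only [← hk, idem, map_smul, map_sum, Matrix.smul_apply, Matrix.sum_apply, toMatrix'_permRep]
  congr 1
  exact Fintype.sum_equiv (Equiv.mulRight k.1) _ _ fun h => by
    simp [mul_smul, apply_mul_of_mem_charKer' (isClassFunction_of_irr hχ) k.2, Subgroup.smul_def]

theorem perm_apply_of_free {p : ℕ} (hΩ : Fintype.card Ω = 2 * p) {P : Subgroup G} (hfp : ∀ g ∈ P, g ≠ 1 → ∀ y : Ω, g • y ≠ y) (g : P)
    [Decidable (g = 1)] : (permRep ℂ G Ω).character g = if g = 1 then 2 * (p : ℂ) else 0 := by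
  split_ifs with h
  · simp [h, Representation.char_one, hΩ]
  · haveI : IsEmpty (fixedBy Ω (g : G)) := ⟨fun y => hfp g g.2 (by simpa using h) y y.2⟩
    simp [character_permRep]

theorem exists_wielandt_char [IsPreprimitive G Ω] {p : ℕ} (hp : p.Prime) (hΩ : Fintype.card Ω = 2 * p) {P : Subgroup G}
    (hP : Nat.card P = p) (hfp : ∀ g ∈ P, g ≠ 1 → ∀ y : Ω, g • y ≠ y) (h2 : ¬ IsMultiplyPretransitive G Ω 2) :
    ∃ χ, IsIrrCharacter G χ ∧ χ ≠ (fun _ => 1) ∧ classInner (permRep ℂ G Ω).character χ = 1 ∧ (∀ τ : ℂ →+* ℂ, ∀ g, τ (χ g) = χ g) ∧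
      χ 1 = p ∧ ∀ g ∈ P, g ≠ 1 → χ g = 0 := by
  classical
  have hp0 : (p : ℂ) ≠ 0 := Nat.cast_ne_zero.2 hp.ne_zero
  haveI : Nonempty Ω := Fintype.card_pos_iff.1 (by have := hp.pos; omega)
  obtain ⟨m, hm, e⟩ := isCharacter_exists_mult (isCharacter_character (permRep ℂ G Ω))
  choose d hd using fun ψ : IrrCharacter G => classInner_nat (isCharacter_restrict P (isCharacter_of_irr ψ.2)) isCharacter_one
  have h0 : m (trivIrr G) = 1 := Nat.cast_eq_one.1 ((hm (trivIrr G)).symm.trans inner_perm_one)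
  have h0' : d (trivIrr G) = 1 := Nat.cast_eq_one.1 ((hd (trivIrr G)).symm.trans classInner_one_one)
  have h1 : ∑ ψ ∈ Finset.univ.erase (trivIrr G), m ψ * d ψ = 1 := by
    have : classInner (fun g : P => (permRep ℂ G Ω).character g) (fun _ => 1) = 2 := by
      simp [classInner_one_right, perm_apply_of_free hΩ hfp, ← Nat.card_eq_fintype_card, hP]; field_simp
    rw [e, show (fun g : P => (∑ ψ : IrrCharacter G, (m ψ : ℂ) • (ψ : G → ℂ)) g) = ∑ ψ : IrrCharacter G, (m ψ : ℂ) • fun g : P => (ψ : G → ℂ) g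
      from funext fun g => by simp, classInner_sum_left, ← Finset.add_sum_erase _ _ (Finset.mem_univ (trivIrr G))] at this
    simp only [classInner_smul_left, hd, h0, h0'] at this
    have h : (1 * 1 + ∑ ψ ∈ Finset.univ.erase (trivIrr G), m ψ * d ψ : ℕ) = 2 := by exact_mod_cast this
    omega
  obtain ⟨χ, hχ, hne⟩ := Finset.exists_ne_zero_of_sum_ne_zero (h1.trans_ne one_ne_zero)
  rw [← Finset.add_sum_erase _ _ hχ] at h1
  have h3 : m χ * d χ = 1 := by omega
  have h4 := Finset.sum_eq_zero_iff.1 (show ∑ ψ ∈ (Finset.univ.erase (trivIrr G)).erase χ, m ψ * d ψ = 0 by omega)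
  have n1 : (χ : G → ℂ) ≠ fun _ => 1 := fun e => Finset.ne_of_mem_erase hχ (Subtype.ext e)
  have j1 : classInner (permRep ℂ G Ω).character χ = 1 := by rw [hm, Nat.eq_one_of_mul_eq_one_right h3, Nat.cast_one]
  have j2 : classInner (fun g : P => (χ : G → ℂ) g) (fun _ => 1) = 1 := by rw [hd, Nat.eq_one_of_mul_eq_one_left h3, Nat.cast_one]
  have gal : ∀ τ : ℂ →+* ℂ, ∀ g, τ ((χ : G → ℂ) g) = (χ : G → ℂ) g := fun τ => congrFun (congrArg Subtype.val (by_contra fun hn :
      (⟨_, isIrr_map τ χ.2⟩ : IrrCharacter G) ≠ χ => by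
    have a1 := classInner_map τ (permRep ℂ G Ω).character (isGen_of_irr χ.2)
    have a2 := classInner_map τ (fun g : P => (χ : G → ℂ) g) isGen_one
    rw [j1, map_one, character_permRep] at a1
    rw [j2, map_one] at a2
    simp only [map_natCast, map_one] at a1 a2
    have a3 := h4 _ (Finset.mem_erase.2 ⟨hn, Finset.mem_erase.2 ⟨fun e => n1 (funext fun g => τ.injective
      ((congrFun (congrArg Subtype.val e) g).trans (map_one τ).symm)), Finset.mem_univ _⟩⟩)
    rw [← Nat.cast_inj (R := ℂ), Nat.cast_mul, ← hm, ← hd, character_permRep, a1, a2] at a3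
    simp at a3))
  haveI : Nontrivial P := Finite.one_lt_card_iff_nontrivial.1 (hP ▸ hp.one_lt)
  haveI := Fact.mk hp
  obtain ⟨x, hx⟩ := exists_ne (1 : P)
  have h5 : ∀ g : P, g ≠ 1 → (χ : G → ℂ) g = (χ : G → ℂ) x := fun g hg => by
    obtain ⟨k, rfl⟩ := mem_powers_of_prime_card hP hx (g' := g)
    have ho : orderOf (x : G) = p := by rw [Subgroup.orderOf_coe, orderOf_eq_prime (hP ▸ pow_card_eq_one') hx]
    obtain ⟨τ, hτ⟩ := exists_ringEquiv_map_isGen_elt (x : G) (m := k) (ho ▸ ((Nat.Prime.coprime_iff_not_dvd hp).2 fun hk =>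
      hg (Subtype.ext (orderOf_dvd_iff_pow_eq_one.1 (ho ▸ hk)))).symm)
    exact (hτ _ (isGen_of_irr χ.2)).symm.trans (gal τ.toRingHom x)
  obtain ⟨c, hc⟩ := exists_int_of_fixed (isCharacter_isIntegral (isCharacter_of_irr χ.2) x) fun τ => gal τ.toRingHom x
  obtain ⟨f, hf0, hf⟩ := isIrr_degree χ.2
  have h6 : (f : ℤ) + (p - 1) * c = p := by
    rw [classInner_one_right, ← Finset.add_sum_erase _ _ (Finset.mem_univ 1), Finset.sum_congr rfl fun g hg =>
      (h5 g (Finset.ne_of_mem_erase hg)).trans hc, Finset.sum_const, Finset.card_erase_of_mem (Finset.mem_univ _), Finset.card_univ,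
      ← Nat.card_eq_fintype_card, hP, inv_mul_eq_one₀ hp0, OneMemClass.coe_one, hf, nsmul_eq_mul, Nat.cast_sub hp.one_le] at j2
    exact_mod_cast j2.symm
  have h7 : IsCharacter G ((permRep ℂ G Ω).character - (fun _ => 1) - (χ : G → ℂ)) :=
    isCharacter_sub_irr (isCharacter_sub_irr (isCharacter_character _) isIrr_one (by rw [inner_perm_one]; exact one_ne_zero)) χ.2 (by
      rw [classInner_sub_left, j1, classInner_irr_of_ne isIrr_one χ.2 n1.symm]; simp)
  obtain ⟨n, hn⟩ := isCharacter_degree h7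
  have h8 : 2 * (p : ℤ) - 1 - f = n := by
    simp only [Pi.sub_apply, Representation.char_one, finrank_fintype_fun_eq_card, hΩ, hf] at hn; exact_mod_cast hn
  have h9 : n ≠ 0 := fun e => h2 ((S0157.result Ω (by rw [Nat.card_eq_fintype_card]; have := hp.pos; omega)).1 (by
    have := isCharacter_eq_zero_of_degree h7 (by rw [hn, e, Nat.cast_zero])
    rw [sub_eq_zero, character_permRep] at this
    have h : IsIrrCharacter G χ := χ.2
    rw [← this] at h; exact h))
  have h10 : c ≠ 1 := fun e => n1 (eq_one_of_ker χ.2 j1 (hfp x x.2 (by simpa using hx) (Classical.arbitrary Ω)) (by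
    rw [hc, hf, e]; subst e; exact_mod_cast (by linarith : (1 : ℤ) = f)))
  have h11 : c = 0 := by
    have := hp.two_le
    rcases lt_trichotomy c 0 with h | h | h
    · nlinarith [Int.natCast_pos.2 (Nat.pos_of_ne_zero h9)]
    · exact h
    · nlinarith [Int.natCast_pos.2 hf0, (by omega : 2 ≤ c)]
  subst h11
  exact ⟨χ, χ.2, n1, j1, gal, by rw [hf]; exact_mod_cast (by linarith : (f : ℤ) = p),
    fun g hg h => (h5 ⟨g, hg⟩ (by simpa using h)).trans (by simpa using hc)⟩

local notation "ϱ" => permRep ℂ G Ω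

open Classical in
/-- the number of `y` with `(y, g y)` in the orbital of `(a, b)` -/
noncomputable def tc (a b : Ω) (g : G) : ℕ := (Finset.univ.filter fun y => ∃ h : G, h • a = y ∧ h • b = g • y).card

theorem twc_orb (a b : Ω) (g : G) : twc ϱ (orb G a b) g = tc a b g := by
  simp [tc, twc_perm, toMatrix'_orb, -LinearMap.toMatrix'_apply]

theorem orb_swap (a b x y : Ω) : LinearMap.toMatrix' (orb G b a) x y = LinearMap.toMatrix' (orb G a b) y x := by
  simp only [toMatrix'_orb, and_comm]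

theorem twc_orb' (a b : Ω) (g : G) : twc ϱ (orb G b a) g = tc a b g⁻¹ := by
  rw [← twc_orb, twc_perm, twc_perm, ← Equiv.sum_comp (MulAction.toPerm g⁻¹)]; simp [orb_swap a b, -LinearMap.toMatrix'_apply]

theorem inner_orb_swap (hχ : IsIrrCharacter G χ) (hr : ∀ g, conj (χ g) = χ g) (a b : Ω) :
    classInner (twc ϱ (orb G b a)) χ = classInner (twc ϱ (orb G a b)) χ := by
  rw [← classInner_comp_equiv (Equiv.inv G)]
  congr 1 <;> funext g
  · rw [twc_orb', twc_orb]; simp
  · exact (isIrr_inv hχ g).trans (hr g)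

theorem tc_ne_zero {a b : Ω} {g : G} : tc a b g ≠ 0 ↔ ∃ y, ∃ h : G, h • a = y ∧ h • b = g • y := by
  simp [tc]

theorem tc_one {a b : Ω} (hb : b ≠ a) : tc a b (1 : G) = 0 := by_contra fun h =>
  let ⟨_, h, h1, h2⟩ := tc_ne_zero.1 h; hb (smul_left_cancel h (by rw [h2, h1, one_smul]))

theorem card_orbit_ne_zero (a b : Ω) : (Nat.card (orbit (stabilizer G a) b) : ℂ) ≠ 0 := by
  haveI : Nonempty (orbit (stabilizer G a) b) := ⟨⟨b, mem_orbit_self b⟩⟩
  exact card_ne_zero_complex _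

theorem trace_idem_mul (hχ : IsIrrCharacter G χ) (j1 : classInner (ϱ).character χ = 1) (g : G) :
    LinearMap.trace ℂ _ (idem ϱ χ * ϱ g) = χ g := by rw [← twc, twc_idem hχ, j1, one_smul]

theorem twc_compl (hχ : IsIrrCharacter G χ) (j1 : classInner (ϱ).character χ = 1) {M : End ℂ (Ω → ℂ)} (hM : ∀ g, M * ϱ g = ϱ g * M) (g : G) :
    twc ϱ (M * (1 - idem ϱ χ)) g = twc ϱ M g - classInner (twc ϱ M) χ * χ g := by
  rw [twc, twc, mul_sub, mul_one, sub_mul, map_sub, mul_idem hχ j1 hM, smul_mul_assoc, map_smul, trace_idem_mul hχ j1]; rfl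

section
variable {p : ℕ} (hp : p.Prime) (hΩ : Fintype.card Ω = 2 * p) {P : Subgroup G} [Fintype P] [DecidableEq P]
    (hP : Nat.card P = p) (hfp : ∀ g ∈ P, g ≠ 1 → ∀ y : Ω, g • y ≠ y) (hχ : IsIrrCharacter G χ)
    (j1 : classInner (permRep ℂ G Ω).character χ = 1) (hχP : ∀ g : P, χ g = if g = 1 then (p : ℂ) else 0)
include hp hΩ hP hfp hχ j1 hχP

theorem w_reg {M : End ℂ (Ω → ℂ)} (hM : ∀ g, M * ϱ g = ϱ g * M) : M * (1 - idem ϱ χ) =
    ∑ g : P, ((twc ϱ M (g⁻¹ : P) - classInner (twc ϱ M) χ * χ (g⁻¹ : P)) / p) • (ϱ g * (1 - idem ϱ χ)) := by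
  haveI := Fact.mk hp
  haveI := isCyclic_of_prime_card hP
  have := trace_mul_reg (ρ := MonoidHom.comp ϱ P.subtype) (M := M) (N := 1 - idem ϱ χ) (fun g h => mul_comm' g h)
    (by simp [mul_sub, sub_mul, idem_mul_self hχ]) (fun g => by
      change (1 - idem ϱ χ) * ϱ g = ϱ g * (1 - idem ϱ χ); simp [mul_sub, sub_mul, idem_comm hχ]) (fun g => by
      have := twc_compl hχ j1 (M := 1) (by simp) g
      rw [one_mul, twc_one, j1, perm_apply_of_free hΩ hfp, hχP] at this
      refine this.trans ?_; rw [hP]; split_ifs <;> ring) (fun g => hM g) (by simp [mul_sub, sub_mul, comm_idem hM])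
  exact this.trans (Finset.sum_congr rfl fun g _ => by rw [← twc_compl hχ j1 hM, hP]; rfl)

theorem w_main (hr : ∀ g, conj (χ g) = χ g) {a b c : Ω} (hb : b ≠ a) (hc : c ≠ a) {l l' : ℤ} (hl : classInner (twc ϱ (orb G a b)) χ = l)
    (hl' : classInner (twc ϱ (orb G a c)) χ = l') :
    p * ∑ x, ∑ y, LinearMap.toMatrix' (orb G a b) x y * LinearMap.toMatrix' (orb G a c) x y =
      ((2 * p ^ 2 * (l * l') + ∑ g : P, (tc a b (g⁻¹ : P).1 : ℤ) * (tc a c (g⁻¹ : P).1 : ℤ) : ℤ) : ℂ) := by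
  have hp0 : (p : ℂ) ≠ 0 := Nat.cast_ne_zero.2 hp.ne_zero
  rw [← inner_orb_swap hχ hr] at hl'
  have e1 : orb G a b * orb G c a = orb G a b * idem ϱ χ * orb G c a + orb G a b * (1 - idem ϱ χ) * orb G c a := by simp [mul_sub, sub_mul]
  have e2 : ∀ g : P, LinearMap.trace ℂ _ (ϱ g * (1 - idem ϱ χ) * orb G c a) = tc a c (g⁻¹ : P).1 - l' * χ g := fun g => by
    rw [mul_assoc, LinearMap.trace_mul_comm, show (1 - idem ϱ χ) * orb G c a = orb G c a * (1 - idem ϱ χ) by
      simp [mul_sub, sub_mul, comm_idem (orb_comm c a)]]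
    exact (twc_compl hχ j1 (orb_comm c a) g).trans (by rw [twc_orb', hl']; rfl)
  have e3 := trace_mul_eq (orb G a b) (orb G c a)
  rw [e1, map_add, mul_idem hχ j1 (orb_comm a b), w_reg hp hΩ hP hfp hχ j1 hχP (orb_comm a b), smul_mul_assoc, map_smul,
    LinearMap.trace_mul_comm, trace_mul_idem, hl', Finset.sum_mul, map_sum] at e3
  have d1 : χ 1 = p := by simpa using hχP 1
  simp only [orb_swap a c, smul_mul_assoc, map_smul, e2, twc_orb, hl, d1, hχP, smul_eq_mul, inv_eq_one] at e3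
  push_cast
  rw [← e3, ← Finset.add_sum_erase _ _ (Finset.mem_univ 1), ← Finset.add_sum_erase _ _ (Finset.mem_univ (1 : P)), mul_add, mul_add,
    Finset.mul_sum, Finset.sum_congr rfl fun g hg => by
      rw [if_neg (Finset.ne_of_mem_erase hg), mul_zero, mul_zero, sub_zero, sub_zero, ← mul_assoc, mul_div_cancel₀ _ hp0]]
  simp [tc_one hb, tc_one hc]; field_simp; ring

theorem w_eq0 (hr : ∀ g, conj (χ g) = χ g) {a b c : Ω} (hb : b ≠ a) (hc : c ≠ a) {l l' : ℤ} (hl : classInner (twc ϱ (orb G a b)) χ = l)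
    (hl' : classInner (twc ϱ (orb G a c)) χ = l') (h : c ∉ orbit (stabilizer G a) b) :
    (2 * p ^ 2 * (l * l') + ∑ g : P, (tc a b (g⁻¹ : P).1 : ℤ) * (tc a c (g⁻¹ : P).1 : ℤ) : ℤ) = 0 := by
  rw [← Int.cast_inj (α := ℂ), ← w_main hp hΩ hP hfp hχ j1 hχP hr hb hc hl hl',
    Finset.sum_eq_zero fun x _ => Finset.sum_eq_zero fun y _ => ?_, mul_zero, Int.cast_zero]
  simp only [toMatrix'_orb]
  split_ifs with h1 h2 <;> try simp
  obtain ⟨g, h1, h3⟩ := h1
  obtain ⟨k, h2, h4⟩ := h2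
  exact h ⟨⟨k⁻¹ * g, by rw [mem_stabilizer_iff, mul_smul, h1, ← h2, inv_smul_smul]⟩, by
    change (k⁻¹ * g) • b = c; rw [mul_smul, h3, ← h4, inv_smul_smul]⟩

theorem w_diag [IsPretransitive G Ω] (gal : ∀ τ : ℂ →+* ℂ, ∀ g, τ (χ g) = χ g) {a j : Ω} (hj : j ≠ a)
    (hlj : classInner (twc ϱ (orb G a j)) χ = 0) (y : Ω) (k : P) :
    LinearMap.toMatrix' (idem ϱ χ) y (k.1 • y) = if k = 1 then 1 / 2 else 0 := by
  classical
  have hp0 : (p : ℂ) ≠ 0 := Nat.cast_ne_zero.2 hp.ne_zero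
  haveI := Fact.mk hp
  haveI := isCyclic_of_prime_card hP
  have hlj' : classInner (twc ϱ (orb G a j)) χ = (0 : ℤ) := by rw [hlj, Int.cast_zero]
  have hX : ∀ g : P, tc a j (g⁻¹ : P).1 ≠ 0 → ∀ y, ∃ h : G, h • a = y ∧ h • j = (g⁻¹ : P).1 • y := fun g hg y => by
    obtain ⟨h, rfl⟩ := exists_smul_eq G a y
    have hc : h⁻¹ • (g⁻¹ : P).1 • h • a ≠ a := fun e => hfp _ (g⁻¹).2 (fun e => hg (e ▸ tc_one hj)) _ (inv_smul_eq_iff.1 e)
    by_cases hm : h⁻¹ • (g⁻¹ : P).1 • h • a ∈ orbit (stabilizer G a) j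
    · obtain ⟨⟨k, hk⟩, e⟩ := hm
      exact ⟨h * k, by rw [mul_smul, mem_stabilizer_iff.1 hk], by rw [mul_smul, show k • j = _ from e, smul_inv_smul]⟩
    obtain ⟨l, hl⟩ := exists_int_inner_orb hχ (fun τ => gal τ.toRingHom) a (h⁻¹ • (g⁻¹ : P).1 • h • a)
    have := w_eq0 hp hΩ hP hfp hχ j1 hχP (gal conj) hj hc hlj' hl hm
    rw [zero_mul, mul_zero, zero_add, Finset.sum_eq_zero_iff_of_nonneg fun _ _ => by positivity] at this
    exact absurd (this g (Finset.mem_univ _)) (mul_ne_zero (Nat.cast_ne_zero.2 hg) (Nat.cast_ne_zero.2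
      (tc_ne_zero.2 ⟨h • a, h, rfl, smul_inv_smul _ _⟩)))
  obtain ⟨X, hXd⟩ : ∃ X, X = Finset.univ.filter fun g : P => tc a j (g⁻¹ : P).1 ≠ 0 := ⟨_, rfl⟩
  have hXp : ¬ p ∣ X.card := fun h => by
    have h1 : X.card < p := by
      rw [← hP, Nat.card_eq_fintype_card, hXd]
      exact Finset.card_lt_card (Finset.filter_ssubset.2 ⟨1, Finset.mem_univ _, by simp [tc_one hj]⟩)
    have h2 := Finset.filter_eq_empty_iff.1 (hXd ▸ Finset.card_eq_zero.1 (Nat.eq_zero_of_dvd_of_lt h h1))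
    have h3 := w_main hp hΩ hP hfp hχ j1 hχP (gal conj) hj hj hlj' hlj'
    rw [Finset.sum_congr rfl fun x _ => (Finset.sum_congr rfl fun y _ => by rw [toMatrix'_orb]; split_ifs <;> simp).trans (sum_orb a j x),
      Finset.sum_eq_zero (s := (Finset.univ : Finset P)) fun g hg => by rw [not_not.1 (h2 hg), Nat.cast_zero, zero_mul]] at h3
    rw [Finset.sum_const, Finset.card_univ, hΩ, nsmul_eq_mul, mul_zero, mul_zero, add_zero, Int.cast_zero] at h3
    exact mul_ne_zero hp0 (mul_ne_zero (Nat.cast_ne_zero.2 (mul_ne_zero two_ne_zero hp.ne_zero)) (card_orbit_ne_zero a j)) h3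
  have hO : orb G a j = ∑ g ∈ X, (2 : ℂ) • (ϱ g - idem ϱ χ * ϱ g) := by
    have := w_reg hp hΩ hP hfp hχ j1 hχP (orb_comm a j)
    rw [mul_sub, mul_idem hχ j1 (orb_comm a j), hlj, zero_smul, sub_zero, mul_one] at this
    rw [this, hXd, Finset.sum_filter]
    refine Finset.sum_congr rfl fun g _ => ?_
    rw [twc_orb, zero_mul, sub_zero, mul_sub, mul_one, idem_comm hχ]
    split_ifs with h
    · rw [show tc a j (g⁻¹ : P).1 = 2 * p from hΩ ▸ congrArg Finset.card (Finset.filter_true_of_mem fun y _ => hX g h y)]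
      congr 1; push_cast; field_simp
    · rw [not_not.1 h, Nat.cast_zero, zero_div, zero_smul]
  have tE := trace_idem_mul hχ j1 k
  generalize idem ϱ χ = E at hO tE ⊢
  have e : ∀ y (h : P), ∑ g ∈ X, LinearMap.toMatrix' E y ((g * h).1 • y) =
      ∑ g ∈ X, (if g * h = 1 then 1 else 0) - (if tc a j h.1 ≠ 0 then 1 else 0) / 2 := fun y h => by
    have := congrArg (fun M => LinearMap.toMatrix' M y (h.1 • y)) hO
    simp only [map_sum, map_smul, map_sub, Matrix.sum_apply, Matrix.smul_apply, Matrix.sub_apply, LinearMap.toMatrix'_mul,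
      Matrix.mul_apply, toMatrix'_permRep, toMatrix'_orb, mul_ite, mul_one, mul_zero, Finset.sum_ite_eq', Finset.mem_univ,
      if_true, ← mul_smul, smul_eq_mul, ← Finset.mul_sum, Finset.sum_sub_distrib] at this
    rw [if_congr (show _ ↔ tc a j h.1 ≠ 0 from ⟨fun hy => tc_ne_zero.2 ⟨y, hy⟩,
      fun hy => by simpa using hX h⁻¹ (by simpa using hy) y⟩) rfl rfl, Finset.sum_congr rfl fun g _ => if_congr
        (show _ ↔ g * h = 1 from ⟨fun e => by_contra fun hn => hfp _ (g * h).2 (fun e => hn (Subtype.ext e)) y e.symm,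
          fun e => by rw [← Subgroup.coe_mul, e, OneMemClass.coe_one, one_smul]⟩) rfl rfl] at this
    simp only [Subgroup.coe_mul]
    linear_combination this / 2
  have hu : ∀ y', LinearMap.toMatrix' E y' (k.1 • y') = LinearMap.toMatrix' E y (k.1 • y) := fun y' =>
    sub_eq_zero.1 (congrFun (conv_eq_zero (fun g h => mul_comm' g h) hp (fun g => hP ▸ pow_card_eq_one') X hXp
      (fun k => LinearMap.toMatrix' E y' (k.1 • y') - LinearMap.toMatrix' E y (k.1 • y)) fun h => by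
        rw [Finset.sum_sub_distrib, e, e, sub_self]) k)
  rw [← twc, twc_perm, Finset.sum_congr rfl fun x _ => hu x, Finset.sum_const, Finset.card_univ, hΩ, hχP, nsmul_eq_mul] at tE
  refine mul_left_cancel₀ (mul_ne_zero two_ne_zero hp0) ?_
  push_cast at tE
  rw [tE]; split_ifs <;> ring

theorem w_subdeg [IsPretransitive G Ω] (n1 : χ ≠ fun _ => 1) (gal : ∀ τ : ℂ →+* ℂ, ∀ g, τ (χ g) = χ g) (a : Ω)
    (hu' : ∀ (y : Ω) (k : P), LinearMap.toMatrix' (idem ϱ χ) y (k.1 • y) = if k = 1 then 1 / 2 else 0) :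
    ∃ b, b ≠ a ∧ Nat.card (orbit (stabilizer G a) b) = 1 := by
  classical
  choose l hl using fun b => exists_int_inner_orb hχ (fun τ => gal τ.toRingHom) a b
  have hc := comm_perm_iff.1 (idem_comm (ρ := ϱ) hχ)
  have row : ∑ y, LinearMap.toMatrix' (idem ϱ χ) a y = 0 := by
    have := classInner_irr_of_ne isIrr_one hχ n1.symm
    simp only [classInner_def, one_mul, mul_eq_zero, inv_eq_zero, card_ne_zero_complex, false_or] at this
    simp only [idem, map_smul, map_sum, Matrix.smul_apply, Matrix.sum_apply, toMatrix'_permRep, smul_eq_mul, ← Finset.mul_sum]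
    rw [Finset.sum_comm]
    simp [← inv_smul_eq_iff, this]
  have s3 := congrArg (fun M => LinearMap.toMatrix' M a a) (idem_mul_self (ρ := ϱ) hχ)
  have s4 := toMatrix'_idem_conj (Ω := Ω) hχ
  rw [funext (gal conj)] at s4
  have tr := fun b => trace_mul_idem (ρ := ϱ) (orb G b a) χ
  generalize idem ϱ χ = E at hu' hc row s3 s4 tr
  have hlE : ∀ b, LinearMap.toMatrix' E a b ≠ 0 → l b ≠ 0 := fun b h e => by
    have := tr b
    rw [inner_orb_swap hχ (gal conj), hl, e, trace_mul_eq, Finset.sum_comm, Finset.sum_congr rfl fun x _ => (Finset.sum_congr rfl fun y _ => by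
      rw [orb_swap, toMatrix'_orb]; split_ifs with h
      · obtain ⟨g, rfl, rfl⟩ := h; rw [hc]
      · simp).trans ((Finset.sum_mul _ _ _).symm.trans (congrArg (· * LinearMap.toMatrix' E a b) (sum_orb a b x)))] at this
    rw [Finset.sum_const, Finset.card_univ, hΩ, nsmul_eq_mul, Int.cast_zero, mul_zero] at this
    exact mul_ne_zero (Nat.cast_ne_zero.2 (mul_ne_zero two_ne_zero hp.ne_zero)) (mul_ne_zero (card_orbit_ne_zero a b) h) this
  have huniq : ∀ b c, b ≠ a → c ≠ a → LinearMap.toMatrix' E a b ≠ 0 → LinearMap.toMatrix' E a c ≠ 0 → c ∈ orbit (stabilizer G a) b :=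
    fun b c hb hc' h1 h2 => by_contra fun h => by
      have := w_eq0 hp hΩ hP hfp hχ j1 hχP (gal conj) hb hc' (hl b) (hl c) h
      rw [Finset.sum_eq_zero fun g _ => by
        rw [show tc a b (g⁻¹ : P).1 = 0 from by_contra fun h => let ⟨y, k, e1, e2⟩ := tc_ne_zero.1 h; h1 (by
          rw [← hc k, e1, e2, hu', if_neg]
          exact fun e => hb (smul_left_cancel k (by rw [e2, e1, e, OneMemClass.coe_one, one_smul]))), Nat.cast_zero, zero_mul]] at this
      simp [hp.ne_zero, hlE b h1, hlE c h2] at this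
  have haa : LinearMap.toMatrix' E a a = 1 / 2 := by simpa using hu' a 1
  obtain ⟨b, hb, hb0⟩ : ∃ b, b ≠ a ∧ LinearMap.toMatrix' E a b ≠ 0 := by
    by_contra! h
    rw [Finset.sum_eq_single a (fun b _ => h b) (by simp), haa] at row; norm_num at row
  have sumF : ∀ F : ℂ → ℂ, F 0 = 0 → ∑ y, F (LinearMap.toMatrix' E a y) =
      F (1 / 2) + Nat.card (orbit (stabilizer G a) b) * F (LinearMap.toMatrix' E a b) := fun F hF => by
    rw [← Finset.add_sum_erase _ _ (Finset.mem_univ a), haa, ← sum_orb a b a, Finset.sum_mul, ← Finset.sum_erase (a := a) Finset.univ (by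
      rw [toMatrix'_orb, if_neg, zero_mul]; rintro ⟨g, h1, h2⟩; exact hb (smul_left_cancel g (h2.trans h1.symm)))]
    refine congrArg _ (Finset.sum_congr rfl fun y hy => ?_)
    rw [toMatrix'_orb]; split_ifs with h
    · obtain ⟨g, h, rfl⟩ := h; rw [one_mul, ← hc g a b, h]
    · rw [zero_mul, show LinearMap.toMatrix' E a y = 0 from by_contra fun h' =>
        let ⟨g, hg⟩ := huniq b y hb (Finset.ne_of_mem_erase hy) hb0 h'; h ⟨g, g.2, hg⟩, hF]
  have s1 := sumF id rfl
  have s2 := sumF (fun z => z * z) (by simp)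
  simp only [LinearMap.toMatrix'_mul, Matrix.mul_apply, haa, show ∀ y, LinearMap.toMatrix' E y a = LinearMap.toMatrix' E a y from
    fun y => congrFun (congrFun s4 y) a] at s3
  simp only [id, row, s3] at s1 s2
  refine ⟨b, hb, Nat.cast_eq_one (R := ℂ).1 ?_⟩
  linear_combination (4 * Nat.card (orbit (stabilizer G a) b)) * s2 -
    4 * (Nat.card (orbit (stabilizer G a) b) * LinearMap.toMatrix' E a b - 1 / 2) * s1

theorem rank_le_three [IsPretransitive G Ω] (n1 : χ ≠ fun _ => 1) (gal : ∀ τ : ℂ →+* ℂ, ∀ g, τ (χ g) = χ g) (a : Ω)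
    (hsub : ∀ b, b ≠ a → Nat.card (orbit (stabilizer G a) b) ≠ 1) : Nat.card (orbitRel.Quotient (stabilizer G a) Ω) ≤ 3 := by
  classical
  choose l hl using fun b => exists_int_inner_orb hχ (fun τ => gal τ.toRingHom) a b
  by_contra! hr
  obtain ⟨j, hj, hlj⟩ : ∃ j, j ≠ a ∧ l j = 0 := by
    haveI := Fintype.ofFinite (orbitRel.Quotient (stabilizer G a) Ω)
    obtain ⟨u, v, w, hu, hv, hw, huv, huw, hvw⟩ := Finset.two_lt_card_iff.1 (show 2 < (Finset.univ.erase
      (Quotient.mk'' a : orbitRel.Quotient (stabilizer G a) Ω)).card by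
        rw [Finset.card_erase_of_mem (Finset.mem_univ _), Finset.card_univ, ← Nat.card_eq_fintype_card]; exact Nat.lt_sub_of_add_lt hr)
    induction u using Quotient.inductionOn' with | h u =>
    induction v using Quotient.inductionOn' with | h v =>
    induction w using Quotient.inductionOn' with | h w =>
    replace hu := mk_ne_iff.1 (Finset.ne_of_mem_erase hu)
    replace hv := mk_ne_iff.1 (Finset.ne_of_mem_erase hv)
    replace hw := mk_ne_iff.1 (Finset.ne_of_mem_erase hw)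
    have key : ∀ b c, b ≠ a → c ≠ a → (Quotient.mk'' b : orbitRel.Quotient (stabilizer G a) Ω) ≠ Quotient.mk'' c → l b * l c ≤ 0 :=
      fun b c hb hc h => by
        have := w_eq0 hp hΩ hP hfp hχ j1 hχP (gal conj) hb hc (hl b) (hl c) fun h' => h (Quotient.sound' h').symm
        have h2 : 0 ≤ (∑ g : P, (tc a b (g⁻¹ : P).1 : ℤ) * (tc a c (g⁻¹ : P).1 : ℤ) : ℤ) := by positivity
        nlinarith [sq_pos_of_pos (Int.natCast_pos.2 hp.pos)]
    have h1 := key u v hu hv huv
    have h2 := key u w hu hw huw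
    have h3 := key v w hv hw hvw
    have : l u * l v * l w = 0 := by nlinarith [mul_nonneg_of_nonpos_of_nonpos h1 h2, sq_nonneg (l u * l v * l w)]
    simp only [mul_eq_zero] at this
    rcases this with (h | h) | h
    exacts [⟨u, hu, h⟩, ⟨v, hv, h⟩, ⟨w, hw, h⟩]
  obtain ⟨b, hb, h⟩ := w_subdeg hp hΩ hP hfp hχ j1 hχP n1 gal a
    (w_diag hp hΩ hP hfp hχ j1 hχP gal hj (by rw [hl, hlj, Int.cast_zero]))
  exact hsub b hb h

end

end Cfsg.Agent.H28
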