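import Mathlib

/-! The Feit–Higman theorem (Kilmoyer–Solomon proof): the Hecke algebra part. -/

set_option autoImplicit false
set_option linter.style.haveILetI false
set_option linter.unusedSectionVars false

namespace Cfsg.Agent.H28.FH

open Matrix Finset Real

/-- alternating product `x y x ⋯` of length `k` -/
def alt {M : Type*} [Monoid M] : M → M → ℕ → M
  | _, _, 0 => 1
  | x, y, k + 1 => x * alt y x k

section
variable {M M' : Type*} [Monoid M] [Monoid M']

@[simp] theorem alt_zero (x y : M) : alt x y 0 = 1 := rfl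
theorem alt_succ (x y : M) (k : ℕ) : alt x y (k + 1) = x * alt y x k := rfl

theorem map_alt {F : Type*} [FunLike F M M'] [MonoidHomClass F M M'] (f : F) (x y : M) (k : ℕ) : f (alt x y k) = alt (f x) (f y) k := by
  induction k generalizing x y with
  | zero => simp
  | succ k ih => simp [alt_succ, ih]

theorem alt_even (x y : M) (n : ℕ) : alt x y (2 * n) = (x * y) ^ n := by
  induction n with
  | zero => simp
  | succ n ih => rw [mul_add, mul_one, alt_succ, alt_succ, ih, pow_succ', mul_assoc]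

theorem alt_odd (x y : M) (n : ℕ) : alt x y (2 * n + 1) = (x * y) ^ n * x := by
  induction n with
  | zero => simp [alt_succ]
  | succ n ih => rw [mul_add, mul_one, alt_succ, alt_succ, ih, pow_succ', mul_assoc, mul_assoc]

theorem alt_mem {S : Type*} [SetLike S M] [SubmonoidClass S M] {A : S} {x y : M} (hx : x ∈ A) (hy : y ∈ A) (k : ℕ) : alt x y k ∈ A := by
  induction k generalizing x y with
  | zero => exact one_mem _
  | succ k ih => exact mul_mem hx (ih hy hx)

/-- the `2 m` reduced words -/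
def tw (x y : M) (m k : ℕ) : M := if k ≤ m then alt x y k else alt y x (2 * m - k)

end

section Alg
variable {R : Type*} [Ring R] [Algebra ℝ R] {x y : R} {α β : ℝ} {m : ℕ}

theorem mul_mem_span (hm : 0 < m) (hx : x * x = α • x + 1) (hb : alt x y m = alt y x m) {S : Submodule ℝ R}
    (hS : S = Submodule.span ℝ {u | ∃ k ≤ m, u = alt x y k ∨ u = alt y x k}) : ∀ v ∈ S, x * v ∈ S := by
  have h0 : ∀ k ≤ m, alt x y k ∈ S ∧ alt y x k ∈ S := fun k hk =>
    hS ▸ ⟨Submodule.subset_span ⟨k, hk, .inl rfl⟩, Submodule.subset_span ⟨k, hk, .inr rfl⟩⟩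
  have h1 : ∀ k ≤ m, x * alt x y k ∈ S := by
    rintro (_ | k) hk
    · exact (h0 1 hm).1
    · rw [alt_succ, ← mul_assoc, hx, add_mul, smul_mul_assoc, one_mul]
      exact add_mem (S.smul_mem _ (h0 (k + 1) hk).1) (h0 k (by omega)).2
  intro v hv
  rw [hS] at hv
  induction hv using Submodule.span_induction with
  | mem u hu =>
    obtain ⟨k, hk, rfl | rfl⟩ := hu
    · exact h1 k hk
    · rcases hk.eq_or_lt with rfl | hk
      · exact hb ▸ h1 k le_rfl
      · exact (h0 (k + 1) hk).1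
  | zero => simp
  | add u v _ _ hu hv => rw [mul_add]; exact add_mem hu hv
  | smul c u _ hu => rw [mul_smul_comm]; exact S.smul_mem c hu

theorem mem_span_tw (hm : 0 < m) (hx : x * x = α • x + 1) (hy : y * y = β • y + 1) (hb : alt x y m = alt y x m) {h : R}
    (hh : h ∈ Algebra.adjoin ℝ {x, y}) : h ∈ Submodule.span ℝ (tw x y m '' {k | k < 2 * m}) := by
  obtain ⟨S, hS⟩ : ∃ S, S = Submodule.span ℝ {u | ∃ k ≤ m, u = alt x y k ∨ u = alt y x k} := ⟨_, rfl⟩
  have h1 : ∀ v ∈ S, h * v ∈ S := by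
    induction hh using Algebra.adjoin_induction with
    | mem u hu =>
      rcases hu with rfl | rfl
      · exact mul_mem_span hm hx hb hS
      · exact mul_mem_span hm hy hb.symm (by simp only [hS, or_comm])
    | algebraMap c => exact fun v hv => by rw [← Algebra.smul_def]; exact S.smul_mem c hv
    | add u v _ _ hu hv => exact fun w hw => by rw [add_mul]; exact add_mem (hu w hw) (hv w hw)
    | mul u v _ _ hu hv => exact fun w hw => by rw [mul_assoc]; exact hu _ (hv w hw)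
  have h2 := h1 1 (hS ▸ Submodule.subset_span ⟨0, hm.le, .inl rfl⟩)
  rw [mul_one, hS] at h2
  refine Submodule.span_mono ?_ h2
  rintro _ ⟨k, hk, rfl | rfl⟩
  · exact ⟨k, show k < _ by omega, if_pos hk⟩
  · rcases hk.eq_or_lt with rfl | hk
    · exact ⟨k, show k < _ by omega, (if_pos le_rfl).trans hb⟩
    · rcases k with _ | k
      · exact ⟨0, show 0 < _ by omega, if_pos hm.le⟩
      · exact ⟨2 * m - (k + 1), show _ < 2 * m by omega, (if_neg (by omega)).trans (by congr 1; omega)⟩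

theorem alt_formula {c : ℝ} (S : ℕ → ℝ) (S0 : S 0 = 0) (S1 : S 1 = 1) (S2 : ∀ k, S (k + 2) = 2 * c * S (k + 1) - S k)
    (hx : x * x = α • x + 1) (hy : y * y = β • y + 1) (hz : x * y + y * x = α • y + β • x + (2 * c - α * β) • 1) (k : ℕ) :
    alt x y (2 * k + 1) = S (k + 1) • x - S k • y + (β * S k) • 1 ∧ alt x y (2 * k + 2) = S (k + 1) • (x * y) - S k • 1 := by
  induction k generalizing x y α β with
  | zero => simp [S0, S1, alt_succ]
  | succ k ih =>
    have key : ∀ {x y : R} {α β : ℝ}, x * x = α • x + 1 → y * y = β • y + 1 → x * y + y * x = α • y + β • x + (2 * c - α * β) • 1 →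
        alt x y (2 * (k + 1) + 1) = S (k + 1 + 1) • x - S (k + 1) • y + (β * S (k + 1)) • 1 := fun {x y α β} hx hy hz => by
      have h3 : x * (y * x) = (2 * c) • x - y + β • 1 := by
        have := congrArg (x * ·) hz
        simp only [mul_add, ← mul_assoc, hx, add_mul, smul_mul_assoc, mul_smul_comm, one_mul, mul_one] at this
        rw [← mul_assoc]; linear_combination (norm := module) this
      rw [alt_succ, show 2 * (k + 1) = 2 * k + 2 by ring, (ih hy hx (by rw [add_comm, hz, mul_comm β]; module)).2, mul_sub,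
        mul_smul_comm, mul_smul_comm, h3, S2, mul_one]; module
    refine ⟨key hx hy hz, ?_⟩
    rw [alt_succ, key hy hx (by rw [add_comm, hz, mul_comm β]; module), mul_add, mul_sub, mul_smul_comm, mul_smul_comm, mul_smul_comm, hx, mul_one]
    module

end Alg

theorem exists_rep (α β c : ℝ) (hc : c ^ 2 < 1) : ∃ x y : Matrix (Fin 2) (Fin 2) ℝ, star x = x ∧ star y = y ∧ x * x = α • x + 1 ∧
    y * y = β • y + 1 ∧ x * y + y * x = α • y + β • x + (2 * c - α * β) • 1 ∧ x.trace = α ∧ y.trace = β ∧ (x * y).trace = 2 * c ∧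
    ∀ Z, Z * x = x * Z → Z * y = y * Z → ∃ e : ℝ, Z = e • 1 := by
  obtain ⟨A, hA, hA2⟩ : ∃ A : ℝ, 0 < A ∧ A ^ 2 = α ^ 2 / 4 + 1 := ⟨√_, by positivity, sq_sqrt (by positivity)⟩
  obtain ⟨p, hp⟩ : ∃ p : ℝ, p * A = c - α * β / 4 := ⟨_, div_mul_cancel₀ _ hA.ne'⟩
  have h1 : 0 < β ^ 2 / 4 + 1 - p ^ 2 := by
    refine (mul_pos_iff_of_pos_right (pow_pos hA 2)).1 ?_
    rw [sub_mul, ← mul_pow, hp, hA2]
    nlinarith [sq_nonneg (α + c * β), mul_nonneg (sq_nonneg β) (sub_pos.2 hc).le]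
  obtain ⟨r, hr, hr2⟩ : ∃ r : ℝ, 0 < r ∧ r ^ 2 = β ^ 2 / 4 + 1 - p ^ 2 := ⟨√_, by positivity, sq_sqrt h1.le⟩
  refine ⟨!![α / 2 + A, 0; 0, α / 2 - A], !![β / 2 + p, r; r, β / 2 - p], ?_, ?_, ?_, ?_, ?_, by simp, by simp, by simp; linarith,
    fun Z h1 h2 => ⟨Z 0 0, ?_⟩⟩
  iterate 5 ext i j; fin_cases i <;> fin_cases j <;> simp <;> nlinarith
  have e1 := congrFun₂ h1 0 1
  have e2 := congrFun₂ h1 1 0
  have e3 := congrFun₂ h2 0 1
  simp [mul_apply] at e1 e2 e3
  have f1 : Z 0 1 = 0 := mul_left_cancel₀ hA.ne' (by linarith)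
  have f2 : Z 1 0 = 0 := mul_left_cancel₀ hA.ne' (by linarith)
  have f3 : Z 1 1 = Z 0 0 := mul_left_cancel₀ hr.ne' (by rw [f1] at e3; linarith)
  ext i j; fin_cases i <;> fin_cases j <;> simp [f1, f2, f3]

/-- rationality of the Schur element -/
theorem schur_rat {X : Type*} [Fintype X] [DecidableEq X] [Nonempty X] {a b : Matrix X X ℝ} {x y : Matrix (Fin 2) (Fin 2) ℝ} {α β : ℝ} {m : ℕ}
    (hm : 0 < m) (sa : star a = a) (sb : star b = b) (sx : star x = x) (sy : star y = y) (ha : a * a = α • a + 1) (hb : b * b = β • b + 1)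
    (hx : x * x = α • x + 1) (hy : y * y = β • y + 1) (h1 : alt a b m = alt b a m) (h2 : alt x y m = alt y x m)
    (hZ : ∀ Z, Z * x = x * Z → Z * y = y * Z → ∃ e : ℝ, Z = e • 1)
    (orth : ∀ k < 2 * m, ∀ l < 2 * m, (star (tw a b m k) * tw a b m l).trace = if k = l then (Fintype.card X : ℝ) else 0) :
    ∃ r : ℚ, ∑ k ∈ range (2 * m), (tw x y m k).trace ^ 2 = r := by
  obtain ⟨A, hA⟩ : ∃ A, A = Algebra.adjoin ℝ {(a, x), (b, y)} := ⟨_, rfl⟩
  have tw1 : ∀ k, (tw (a, x) (b, y) m k).1 = tw a b m k := fun k => by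
    unfold tw; split_ifs <;> exact map_alt (MonoidHom.fst _ _) _ _ _
  have tw2 : ∀ k, (tw (a, x) (b, y) m k).2 = tw x y m k := fun k => by
    unfold tw; split_ifs <;> exact map_alt (MonoidHom.snd _ _) _ _ _
  have ma : (a, x) ∈ A := hA ▸ Algebra.subset_adjoin (by simp)
  have mb : (b, y) ∈ A := hA ▸ Algebra.subset_adjoin (by simp)
  have hs : ∀ u ∈ A, star u ∈ A := fun u hu => by
    rw [hA] at hu
    induction hu using Algebra.adjoin_induction with
    | mem u hu => rcases hu with rfl | rfl <;> simpa [Prod.star_def, sa, sb, sx, sy]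
    | algebraMap c => simpa [Algebra.algebraMap_eq_smul_one] using A.smul_mem (one_mem A) c
    | add u v _ _ hu hv => rw [star_add]; exact add_mem hu hv
    | mul u v _ _ hu hv => rw [star_mul]; exact mul_mem hv hu
  obtain ⟨E, hE⟩ : ∃ E, E = ∑ k ∈ range (2 * m), (tw x y m k).trace • star (tw (a, x) (b, y) m k) := ⟨_, rfl⟩
  have mE : E ∈ A := hE ▸ sum_mem fun k _ => A.smul_mem (hs _ (by unfold tw; split_ifs; exacts [alt_mem ma mb _, alt_mem mb ma _])) _
  have key : ∀ h ∈ A, (E.1 * h.1).trace = Fintype.card X * h.2.trace := fun h hh => by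
    have := mem_span_tw (α := α) (β := β) hm (Prod.ext ha hx) (Prod.ext hb hy)
      (Prod.ext ((map_alt (MonoidHom.fst _ _) (a, x) (b, y) _).trans (h1.trans (map_alt (MonoidHom.fst _ _) (b, y) (a, x) _).symm))
        ((map_alt (MonoidHom.snd _ _) (a, x) (b, y) _).trans (h2.trans (map_alt (MonoidHom.snd _ _) (b, y) (a, x) _).symm))) (hA ▸ hh)
    clear hh
    induction this using Submodule.span_induction with
    | mem u hu =>
      obtain ⟨l, hl, rfl⟩ := hu
      simp only [hE, Prod.fst_sum, Prod.smul_fst, Prod.fst_star, tw1, tw2, Finset.sum_mul, smul_mul_assoc, trace_sum, trace_smul]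
      rw [sum_congr rfl fun k hk => by rw [orth k (mem_range.1 hk) l hl]]
      simp [show l < 2 * m from hl, mul_comm (Fintype.card X : ℝ)]
    | zero => simp
    | add u v _ _ hu hv => simp [mul_add, hu, hv]
    | smul c u _ hu => simp [hu, mul_left_comm]
  have hN : (Fintype.card X : ℝ) ≠ 0 := by simp
  have nd : ∀ u ∈ A, (∀ h ∈ A, (u.1 * h.1).trace = 0) → u = 0 := fun u hu h => by
    have e : u.1 = 0 := trace_mul_conjTranspose_self_eq_zero_iff.1 (h _ (hs u hu))
    have := key _ (mul_mem hu (hs u hu))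
    rw [Prod.fst_mul, e, zero_mul, mul_zero, trace_zero, eq_comm, mul_eq_zero] at this
    exact Prod.ext e (trace_mul_conjTranspose_self_eq_zero_iff.1 (this.resolve_left hN))
  have cen : ∀ g ∈ A, E.2 * g.2 = g.2 * E.2 := fun g hg => sub_eq_zero.1 (congrArg Prod.snd
    (nd (E * g - g * E) (sub_mem (mul_mem mE hg) (mul_mem hg mE)) fun h hh => by
      have e1 := key _ (mul_mem hg hh)
      have e2 := key _ (mul_mem hh hg)
      simp only [Prod.fst_mul, Prod.snd_mul, Prod.fst_sub, sub_mul, trace_sub, mul_assoc] at *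
      rw [e1, trace_mul_comm g.1, mul_assoc, e2, trace_mul_comm, sub_self]))
  obtain ⟨c, hc⟩ := hZ E.2 (cen _ ma) (cen _ mb)
  have idem : E.1 * E.1 = c • E.1 := sub_eq_zero.1 (congrArg Prod.fst
    (nd (E * E - c • E) (sub_mem (mul_mem mE mE) (A.smul_mem mE c)) fun h hh => by
      have e1 := key _ (mul_mem mE hh)
      simp only [Prod.fst_mul, Prod.snd_mul, Prod.fst_sub, Prod.smul_fst, sub_mul, trace_sub, mul_assoc, smul_mul_assoc, trace_smul] at *
      rw [e1, key h hh, hc]; simp [mul_left_comm]))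
  have tr : ∑ k ∈ range (2 * m), (tw x y m k).trace ^ 2 = 2 * c := by
    have := congrArg trace hc
    simp only [hE, Prod.snd_sum, Prod.smul_snd, Prod.snd_star, tw2, trace_sum, trace_smul, star_eq_conjTranspose, trace_conjTranspose] at this
    simpa [sq, mul_comm] using this
  rw [tr]
  by_cases h0 : c = 0
  · exact ⟨0, by simp [h0]⟩
  have e : IsIdempotentElem (toLin' (c⁻¹ • E.1)) := by
    rw [IsIdempotentElem, Module.End.mul_eq_comp, ← toLin'_mul, smul_mul_smul_comm, idem, smul_smul, mul_assoc, inv_mul_cancel₀ h0, mul_one]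
  have e2 := (LinearMap.IsIdempotentElem.isProj_range _ e).trace
  have e3 := key 1 (one_mem _)
  generalize Module.finrank ℝ (LinearMap.range (toLin' (c⁻¹ • E.1))) = n at e2
  rw [trace_toLin'_eq, trace_smul, ← mul_one E.1, ← Prod.fst_one (N := Matrix (Fin 2) (Fin 2) ℝ), e3] at e2
  have hn : (n : ℝ) ≠ 0 := by rw [← e2]; simp [h0]
  refine ⟨4 * Fintype.card X / n, ?_⟩
  push_cast
  rw [← e2]; simp; field_simp; norm_num

theorem sum_cos {θ : ℝ} {m j : ℕ} (hθ : m * θ = j * (2 * π)) (hs : sin θ ≠ 0) (φ : ℝ) : ∑ k ∈ range m, cos (2 * k * θ + φ) = 0 := by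
  refine mul_left_cancel₀ (mul_ne_zero two_ne_zero hs) ?_
  rw [mul_sum, sum_congr rfl (g := fun k : ℕ => sin (2 * (k + 1 : ℕ) * θ + φ - θ) - sin (2 * k * θ + φ - θ)) fun k _ => by
    rw [show 2 * ((k + 1 : ℕ) : ℝ) * θ + φ - θ = 2 * k * θ + φ + θ by push_cast; ring, sin_add _ θ, sin_sub]; ring,
    sum_range_sub fun k : ℕ => sin (2 * k * θ + φ - θ), show 2 * (m : ℝ) * θ + φ - θ = φ - θ + (2 * j : ℕ) * (2 * π) by
      push_cast; linear_combination 2 * hθ, sin_add_nat_mul_two_pi]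
  simp

theorem core {X : Type*} [Fintype X] [DecidableEq X] [Nonempty X] {a b : Matrix X X ℝ} {α β : ℝ} {m : ℕ}
    (hm : 0 < m) (sa : star a = a) (sb : star b = b) (ha : a * a = α • a + 1) (hb : b * b = β • b + 1)
    (h1 : alt a b m = alt b a m) (hodd : Odd m → α = β)
    (orth : ∀ k < 2 * m, ∀ l < 2 * m, (star (tw a b m k) * tw a b m l).trace = if k = l then (Fintype.card X : ℝ) else 0)
    {θ : ℝ} {j : ℕ} (hθ : m * θ = j * (2 * π)) (hs : sin θ ≠ 0) : ∃ r : ℚ, α ^ 2 + β ^ 2 + 2 * α * β * cos θ = r * sin θ ^ 2 := by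
  obtain ⟨x, y, sx, sy, hx, hy, hz, tx, ty, txy, hZ⟩ := exists_rep α β (cos θ) (by have := sin_sq_add_cos_sq θ; have := sq_pos_iff.2 hs; linarith)
  have hz' : y * x + x * y = β • x + α • y + (2 * cos θ - β * α) • 1 := by rw [add_comm, hz, mul_comm β]; module
  obtain ⟨S, hS⟩ : ∃ S : ℕ → ℝ, ∀ k, S k = sin (k * θ) / sin θ := ⟨_, fun _ => rfl⟩
  have S0 : S 0 = 0 := by simp [hS]
  have S1 : S 1 = 1 := by simp [hS, hs]
  have S2 : ∀ k, S (k + 2) = 2 * cos θ * S (k + 1) - S k := fun k => by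
    simp only [hS]; push_cast
    rw [show (k + 2) * θ = (k + 1) * θ + θ by ring, show k * θ = (k + 1) * θ - θ by ring, sin_add, sin_sub]; field_simp; ring
  have S3 : ∀ k l, k + l = m → S k = -S l := fun k l h => by
    rw [hS, hS, show k * θ = j * (2 * π) - l * θ by rw [← hθ, ← h]; push_cast; ring, sin_nat_mul_two_pi_sub, neg_div]
  have F := alt_formula S S0 S1 S2 hx hy hz
  have F' := alt_formula S S0 S1 S2 hy hx hz'
  have tev : ∀ {x y : Matrix (Fin 2) (Fin 2) ℝ}, (x * y).trace = 2 * cos θ → (∀ k, alt x y (2 * k + 2) = S (k + 1) • (x * y) - S k • 1) →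
      ∀ k : ℕ, (alt x y (2 * k)).trace = 2 * cos (k * θ) := fun {x y} h F k => by
    rcases k with _ | k
    · simp
    · rw [mul_add, F, trace_sub, trace_smul, trace_smul, h, hS, hS, show k * θ = (k + 1 : ℕ) * θ - θ by push_cast; ring, sin_sub]
      simp; field_simp; ring
  have te := tev txy fun k => (F k).2
  have te' := tev ((trace_mul_comm _ _).trans txy) fun k => (F' k).2
  have to1 : ∀ k, (alt x y (2 * k + 1)).trace = α * S (k + 1) + β * S k := fun k => by simp [(F k).1, tx, ty]; ring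
  have to2 : ∀ k, (alt y x (2 * k + 1)).trace = β * S (k + 1) + α * S k := fun k => by simp [(F' k).1, tx, ty]; ring
  obtain ⟨r, hr⟩ := schur_rat hm sa sb sx sy ha hb hx hy h1 (by
    obtain ⟨n, rfl | rfl⟩ := m.even_or_odd'
    · obtain ⟨n, rfl⟩ := Nat.exists_eq_add_of_le' (show 1 ≤ n by omega)
      have : S (n + 1) = 0 := by have := S3 (n + 1) (n + 1) (by ring); linarith
      rw [mul_add, (F n).2, (F' n).2, this]; simp
    · rw [(F n).1, (F' n).1, S3 (n + 1) n (by ring), hodd ⟨n, rfl⟩]; module) hZ orth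
  have e : ∀ k ∈ range (2 * m), (tw x y m k).trace ^ 2 = (alt x y k).trace ^ 2 := fun k hk => by
    have hk := mem_range.1 hk
    unfold tw; split_ifs with h
    · rfl
    obtain ⟨i, rfl | rfl⟩ := k.even_or_odd'
    · rw [← Nat.mul_sub, te, te', Nat.cast_sub (by omega), sub_mul, hθ, cos_nat_mul_two_pi_sub]
    · rw [show 2 * m - (2 * i + 1) = 2 * (m - i - 1) + 1 by omega, to1, to2, S3 (m - i - 1 + 1) i (by omega),
        S3 (m - i - 1) (i + 1) (by omega)]; ring
  have e2 : ∀ n, ∑ k ∈ range (2 * n), (alt x y k).trace ^ 2 = ∑ k ∈ range n, (2 + (α ^ 2 + β ^ 2 + 2 * α * β * cos θ) / (2 * sin θ ^ 2) +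
      (2 * cos (2 * k * θ + 0) - (α ^ 2 * cos (2 * k * θ + 2 * θ) + β ^ 2 * cos (2 * k * θ + 0) + 2 * α * β * cos (2 * k * θ + θ)) /
        (2 * sin θ ^ 2))) := fun n => by
    induction n with
    | zero => simp
    | succ n ih =>
      rw [mul_add, sum_range_succ, sum_range_succ, sum_range_succ, ih, te, to1, hS, hS, add_assoc]
      congr 1
      push_cast
      rw [add_zero, add_mul, one_mul, mul_assoc 2 (n : ℝ)]
      generalize n * θ = φ
      have c1 : cos φ ^ 2 = 1 / 2 + cos (2 * φ) / 2 := cos_sq φ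
      have c2 : sin φ ^ 2 = 1 / 2 - cos (2 * φ) / 2 := sin_sq_eq_half_sub φ
      have c3 : sin (φ + θ) ^ 2 = 1 / 2 - cos (2 * φ + 2 * θ) / 2 := by rw [← mul_add]; exact sin_sq_eq_half_sub _
      have c4 : 2 * sin (φ + θ) * sin φ = cos θ - cos (2 * φ + θ) := by
        rw [two_mul_sin_mul_sin, add_sub_cancel_left]; congr 2; ring
      generalize cos (2 * φ + 2 * θ) = z at *
      field_simp
      linear_combination 8 * sin θ ^ 2 * c1 + 2 * α ^ 2 * c3 + 2 * β ^ 2 * c2 + 2 * α * β * c4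
  rw [sum_congr rfl e, e2] at hr
  simp only [sum_add_distrib, sum_sub_distrib, ← mul_sum, ← sum_div, sum_cos hθ hs, sum_const, card_range, nsmul_eq_mul] at hr
  refine ⟨2 * (r - 2 * m) / m, ?_⟩
  push_cast
  rw [← hr]; field_simp; ring

theorem arith {α β : ℝ} {m : ℕ} (hm : 2 ≤ m) (hα : 0 < α) (hβ : 0 < β) (qa : ∃ r : ℚ, α ^ 2 = r) (qb : ∃ r : ℚ, β ^ 2 = r) (hodd : Odd m → α = β)
    (h : ∀ (θ : ℝ) (j : ℕ), m * θ = j * (2 * π) → sin θ ≠ 0 → ∃ r : ℚ, α ^ 2 + β ^ 2 + 2 * α * β * cos θ = r * sin θ ^ 2) :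
    m = 2 ∨ m = 3 ∨ m = 4 ∨ m = 6 ∨ m = 8 := by
  obtain ⟨ra, ha⟩ := qa
  obtain ⟨rb, hb⟩ := qb
  have niv : ∀ n : ℕ, 1 ≤ n → (∃ q : ℚ, cos (2 * π / n) = q) → n = 1 ∨ n = 2 ∨ n = 3 ∨ n = 4 ∨ n = 6 := fun n hn hq => by
    by_contra hne
    have h5 : (5 : ℚ) ≤ n := by norm_cast; omega
    have h6 : (n : ℚ) ≠ 6 := by norm_cast; omega
    have := niven_angle_div_pi_eq (r := 2 / n) (by simpa [div_mul_eq_mul_div] using hq) ⟨by positivity, by rw [div_le_one (by linarith)]; linarith⟩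
    have h0 : (n : ℚ) ≠ 0 := by linarith
    simp only [Set.mem_insert_iff, Set.mem_singleton_iff] at this
    rcases this with h | h | h | h | h <;> field_simp at h <;> first | linarith | exact h6 (by linarith)
  rcases hm.eq_or_lt with rfl | hm
  · simp
  have hm' : (2 : ℝ) < m := by exact_mod_cast hm
  have hs : 0 < sin (2 * π / m) := sin_pos_of_pos_of_lt_pi (by positivity) (by rw [div_lt_iff₀ (by linarith)]; nlinarith [pi_pos])
  obtain ⟨r, hr⟩ := h (2 * π / m) 1 (by field_simp; simp) hs.ne'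
  have c1 := sin_sq_add_cos_sq (2 * π / m)
  have c2 := pow_pos hs 2
  obtain ⟨n, rfl | rfl⟩ := m.even_or_odd'
  · obtain ⟨r', hr'⟩ := h (π - 2 * π / (2 * n : ℕ)) (n - 1) (by rw [Nat.cast_sub (by omega)]; field_simp; push_cast; ring) (by rw [sin_pi_sub]; exact hs.ne')
    rw [sin_pi_sub, cos_pi_sub] at hr'
    have h0 : (r + r' : ℝ) ≠ 0 := fun e => by
      have : α ^ 2 + β ^ 2 = 0 := by linear_combination (hr + hr' + sin (2 * π / (2 * n : ℕ)) ^ 2 * e) / 2
      nlinarith
    have h1 : sin (2 * π / (2 * n : ℕ)) ^ 2 = (2 * (ra + rb) / (r + r') : ℚ) := by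
      push_cast at *; rw [eq_div_iff h0]; linear_combination 2 * ha + 2 * hb - hr - hr'
    have := niv n (by omega) ⟨1 - 2 * (2 * (ra + rb) / (r + r')), by
      rw [Rat.cast_sub, Rat.cast_mul, ← h1, show 2 * π / n = 2 * (2 * π / (2 * n : ℕ)) by push_cast; field_simp, cos_two_mul]
      push_cast at *; linarith⟩
    by_cases h6 : n = 6
    · subst h6
      obtain ⟨r2, hr2⟩ := h (π / 3) 2 (by push_cast; ring) (by rw [sin_pi_div_three]; positivity)
      rw [show 2 * π / (2 * 6 : ℕ) = π / 6 by push_cast; ring, cos_pi_div_six, sin_pi_div_six] at hr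
      rw [cos_pi_div_three, sin_pi_div_three, div_pow, sq_sqrt (by norm_num)] at hr2
      have e : α * β = (r2 * 3 / 4 - ra - rb : ℚ) := by push_cast; linarith
      refine absurd ⟨(r / 4 - ra - rb) / (r2 * 3 / 4 - ra - rb), ?_⟩ (Nat.Prime.irrational_sqrt Nat.prime_three)
      rw [Rat.cast_div, ← e, div_eq_iff (mul_pos hα hβ).ne']
      push_cast; linarith
    · omega
  · obtain rfl := hodd ⟨n, rfl⟩
    have h0 : 0 < 1 + cos (2 * π / (2 * n + 1 : ℕ)) := by nlinarith [neg_one_le_cos (2 * π / (2 * n + 1 : ℕ))]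
    have h1 : 2 * α ^ 2 = r * (1 - cos (2 * π / (2 * n + 1 : ℕ))) := mul_left_cancel₀ h0.ne' (by linear_combination hr + r * c1)
    have h2 : (r : ℝ) ≠ 0 := fun e => by rw [e] at h1; nlinarith
    have := niv (2 * n + 1) (by omega) ⟨1 - 2 * ra / r, by
      rw [Rat.cast_sub, Rat.cast_div, Rat.cast_mul, ← ha]; field_simp; push_cast at *; linarith⟩
    omega

end Cfsg.Agent.H28.FH
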