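import Mathlib
import Cfsg.Agent.H28.FH
import Cfsg.Agent.H12.BN

/-! The Feit–Higman theorem for (B,N)-pairs of rank 2. -/

set_option autoImplicit false
set_option linter.style.haveILetI false
set_option linter.unusedSectionVars false

namespace Cfsg.Agent.H28.FH

open Cfsg Matrix Finset Real Cfsg.Agent.H12

section Dihedral
variable {W : Type*} [Group W] {x y : W}

theorem alt_eq_one_iff (hx : x * x = 1) (hy : y * y = 1) (x1 : x ≠ 1) (y1 : y ≠ 1) (n : ℕ) : alt x y n = 1 ↔ 2 * orderOf (x * y) ∣ n := by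
  obtain ⟨n, rfl | rfl⟩ := n.even_or_odd'
  · rw [alt_even, Nat.mul_dvd_mul_iff_left two_pos, orderOf_dvd_iff_pow_eq_one]
  · refine iff_of_false ?_ fun h => by have := Dvd.dvd.trans (Dvd.intro _ rfl) h; omega
    induction n generalizing x y with
    | zero => simpa [alt_succ]
    | succ n ih =>
      refine fun h => ih hy hx y1 x1 ?_
      rw [alt_succ, alt_even, pow_succ, ← mul_assoc (_ ^ n), ← alt_odd, mul_eq_one_iff_eq_inv, _root_.mul_inv_rev, inv_eq_of_mul_eq_one_left hx] at h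
      simpa using h

theorem inv_alt_mul (hx : x * x = 1) (hy : y * y = 1) (l k : ℕ) :
    (alt y x l)⁻¹ * alt x y k = alt x y (k + l) ∨ (alt y x l)⁻¹ * alt x y k = alt y x (k + l) := by
  induction l generalizing x y k with
  | zero => simp
  | succ l ih =>
    rw [alt_succ, _root_.mul_inv_rev, inv_eq_of_mul_eq_one_left hy, mul_assoc, ← alt_succ, show k + (l + 1) = k + 1 + l by ring]
    exact (ih hy hx _).symm

theorem inv_alt_mul' (x y : W) (l d : ℕ) : (alt x y l)⁻¹ * alt x y (d + l) = alt x y d ∨ (alt x y l)⁻¹ * alt x y (d + l) = alt y x d := by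
  induction l generalizing x y with
  | zero => simp
  | succ l ih =>
    rw [← add_assoc, alt_succ, alt_succ, _root_.mul_inv_rev, mul_assoc, inv_mul_cancel_left]
    exact (ih y x).symm

theorem orderOf_swap (x y : W) : orderOf (y * x) = orderOf (x * y) :=
  SemiconjBy.orderOf_eq x (show x * (y * x) = x * y * x from (mul_assoc _ _ _).symm)

theorem alt_eq_iff (hx : x * x = 1) (hy : y * y = 1) (x1 : x ≠ 1) (y1 : y ≠ 1) (k l : ℕ) :
    alt y x l = alt x y k ↔ 2 * orderOf (x * y) ∣ k + l := by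
  rw [← inv_mul_eq_one]
  rcases inv_alt_mul hx hy l k with h | h <;> rw [h]
  · exact alt_eq_one_iff hx hy x1 y1 _
  · rw [alt_eq_one_iff hy hx y1 x1, orderOf_swap]

theorem alt_eq_iff' (hx : x * x = 1) (hy : y * y = 1) (x1 : x ≠ 1) (y1 : y ≠ 1) (l d : ℕ) :
    alt x y l = alt x y (d + l) ↔ 2 * orderOf (x * y) ∣ d := by
  rw [← inv_mul_eq_one]
  rcases inv_alt_mul' x y l d with h | h <;> rw [h]
  · exact alt_eq_one_iff hx hy x1 y1 _
  · rw [alt_eq_one_iff hy hx y1 x1, orderOf_swap]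

theorem alt_inj (hx : x * x = 1) (hy : y * y = 1) (x1 : x ≠ 1) (y1 : y ≠ 1) {k l : ℕ} (hk : k < 2 * orderOf (x * y))
    (hl : l < 2 * orderOf (x * y)) (h : alt x y k = alt x y l) : k = l := by
  wlog e : k ≤ l generalizing k l
  · exact (this hl hk h.symm (by omega)).symm
  obtain ⟨d, rfl⟩ := Nat.exists_eq_add_of_le' e
  have := Nat.eq_zero_of_dvd_of_lt ((alt_eq_iff' hx hy x1 y1 _ _).1 h) (by omega)
  omega

theorem word_eq {B : Type*} {s : B → W} (hs : ∀ i, s i * s i = 1) {i j : B} (hB : ∀ k, k = i ∨ k = j) (a : List B) :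
    ∃ l ≤ a.length, wprod s a = alt (s i) (s j) l ∨ wprod s a = alt (s j) (s i) l := by
  induction a with
  | nil => exact ⟨0, le_rfl, .inl rfl⟩
  | cons k a ih =>
    obtain ⟨l, hl, h⟩ := ih
    have key : ∀ i j, ∃ l' ≤ l + 1, s i * alt (s i) (s j) l = alt (s i) (s j) l' ∨ s i * alt (s i) (s j) l = alt (s j) (s i) l' := fun i j => by
      rcases l with _ | l
      · exact ⟨1, le_rfl, .inl rfl⟩
      · exact ⟨l, by omega, .inr (by rw [alt_succ, ← mul_assoc, hs, one_mul])⟩
    rw [wprod_cons, List.length_cons]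
    rcases hB k with rfl | rfl <;> rcases h with h | h <;> rw [h]
    · obtain ⟨l', h1, h2⟩ := key k j; exact ⟨l', by omega, h2⟩
    · exact ⟨l + 1, by omega, .inl rfl⟩
    · exact ⟨l + 1, by omega, .inr rfl⟩
    · obtain ⟨l', h1, h2⟩ := key k i; exact ⟨l', by omega, h2.symm⟩

theorem le_glen {B : Type*} {s : B → W} (hs : InvGen s) (h1 : ∀ i, s i ≠ 1) {i j : B} (hB : ∀ k, k = i ∨ k = j) {k : ℕ}
    (hk : k ≤ orderOf (s i * s j)) : k ≤ glen s (alt (s i) (s j) k) := by
  obtain ⟨a, ha, e⟩ := hs.exists_reduced (alt (s i) (s j) k)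
  obtain ⟨l, hl, h⟩ := word_eq hs.sq hB a
  by_contra hlt
  rcases h with h | h
  · have := alt_inj (hs.sq i) (hs.sq j) (h1 i) (h1 j) (k := k) (l := l) (by omega) (by omega) (e.symm.trans h)
    omega
  · have := Nat.eq_zero_of_dvd_of_lt ((alt_eq_iff (hs.sq i) (hs.sq j) (h1 i) (h1 j) k l).1 (h.symm.trans e)) (by omega)
    omega

theorem glen_alt_le {B : Type*} {s : B → W} (hs : InvGen s) (i j : B) (k : ℕ) : glen s (alt (s i) (s j) k) ≤ k := by
  induction k generalizing i j with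
  | zero => exact (InvGen.glen_one (s := s)).le
  | succ k ih => exact (hs.glen_simple_mul_le _ _).trans (Nat.succ_le_succ (ih j i))

theorem card_eq [Finite W] {B : Type*} {s : B → W} (hs : InvGen s) (h1 : ∀ i, s i ≠ 1) {i j : B} (hB : ∀ k, k = i ∨ k = j) :
    Nat.card W = 2 * orderOf (s i * s j) := by
  have hm : 0 < 2 * orderOf (s i * s j) := mul_pos two_pos (orderOf_pos _)
  have key : ∀ k, ∃ l : Fin (2 * orderOf (s i * s j)), alt (s i) (s j) l = alt (s i) (s j) k := fun k =>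
    ⟨⟨_, Nat.mod_lt k hm⟩, by
      conv_rhs => rw [← Nat.div_add_mod k (2 * orderOf (s i * s j))]
      exact (alt_eq_iff' (hs.sq i) (hs.sq j) (h1 i) (h1 j) _ _).2 (Dvd.intro _ rfl)⟩
  rw [← Nat.card_eq_of_bijective (fun l : Fin (2 * orderOf (s i * s j)) => alt (s i) (s j) l)
    ⟨fun k l h => Fin.ext (alt_inj (hs.sq i) (hs.sq j) (h1 i) (h1 j) k.2 l.2 h), fun w => ?_⟩, Nat.card_fin]
  obtain ⟨a, rfl⟩ := hs.exists_word w
  obtain ⟨l, -, h | h⟩ := word_eq hs.sq hB a <;> rw [h]
  · exact key l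
  · rw [(alt_eq_iff (hs.sq i) (hs.sq j) (h1 i) (h1 j) ((2 * orderOf (s i * s j) - 1) * l) l).2
      ⟨l, by rw [← Nat.succ_mul, Nat.succ_eq_add_one, Nat.sub_add_cancel hm]⟩]
    exact key _

end Dihedral

variable {G : Type*} [Group G] (P : BNPair G)

/-- the `W`-valued distance -/
def dst (w : bnW P) (x y : G ⧸ P.B) : Prop := x.out⁻¹ * y.out ∈ bnCell P w

variable {P}

theorem dst_mk {w : bnW P} {g h : G} : dst P w g h ↔ g⁻¹ * h ∈ bnCell P w := by
  obtain ⟨p, hp⟩ := QuotientGroup.mk_out_eq_mul P.B g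
  obtain ⟨q, hq⟩ := QuotientGroup.mk_out_eq_mul P.B h
  rw [dst, hp, hq]
  exact ⟨fun e => by simpa [mul_assoc] using mul_mem_bnCell' (inv_mem q.2) (mul_mem_bnCell p.2 e),
    fun e => by simpa [mul_assoc] using mul_mem_bnCell' q.2 (mul_mem_bnCell (inv_mem p.2) e)⟩

theorem dst_one {x y : G ⧸ P.B} : dst P 1 x y ↔ x = y := by
  rw [dst, mem_bnCell_one, ← QuotientGroup.eq, QuotientGroup.out_eq', QuotientGroup.out_eq']

theorem dst_symm {s : P.S} {x y : G ⧸ P.B} (h : dst P (bns P s) x y) : dst P (bns P s) y x := by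
  simpa [dst, bns_inv] using inv_mem_bnCell h

theorem dst_ss {s : P.S} {x y z : G ⧸ P.B} (h : dst P (bns P s) x y) (h' : dst P (bns P s) y z) : x = z ∨ dst P (bns P s) x z := by
  simpa [dst, bns_mul_self, ← dst_one] using bn_mul_mem s h h'

theorem dst_lt {s : P.S} {w : bnW P} (hw : glen (bns P) w < glen (bns P) (bns P s * w)) {x y z : G ⧸ P.B} (h : dst P (bns P s) x y)
    (h' : dst P w y z) : dst P (bns P s * w) x z := by
  simpa [dst] using bn_mul_mem_of_lt hw h h'

variable [Fintype (G ⧸ P.B)] [DecidableEq (G ⧸ P.B)]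

open Classical in
variable (P) in
/-- the adjacency matrix of a cell -/
noncomputable def adj (w : bnW P) : Matrix (G ⧸ P.B) (G ⧸ P.B) ℝ := of fun x y => if dst P w x y then 1 else 0

theorem adj_one : adj P 1 = 1 := by ext x y; simp [adj, dst_one, one_apply]

theorem adj_star (s : P.S) : star (adj P (bns P s)) = adj P (bns P s) := by
  ext x y; simp only [adj, star_apply, of_apply, star_trivial]; congr 1; exact propext ⟨dst_symm, dst_symm⟩

theorem adj_mul {s : P.S} {w : bnW P} (hw : glen (bns P) w < glen (bns P) (bns P s * w)) : adj P (bns P s) * adj P w = adj P (bns P s * w) := by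
  ext x y
  simp only [adj, mul_apply, of_apply, ite_zero_mul_ite_zero, mul_one]
  split_ifs with h
  · obtain ⟨n, rfl⟩ := QuotientGroup.mk_surjective w
    obtain ⟨b, hb, c, hc, e⟩ := mem_bnCell_mk.1 (show _ ∈ bnCell P ((⟨s, P.subset s.2⟩ * n : P.N) : bnW P) from h)
    have h1 : dst P (bns P s) x (x.out * b * s : G) := by
      rw [← QuotientGroup.out_eq' x, dst_mk]; simpa [mul_assoc] using mul_mem_bnCell hb (simple_mem_bnCell s)
    have h2 : dst P n (x.out * b * s : G) y := by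
      rw [← QuotientGroup.out_eq' y, dst_mk, show (x.out * b * s)⁻¹ * y.out = n * c by
        rw [inv_mul_eq_iff_eq_mul] at e; simp [e, mul_assoc]]
      exact mul_mem_bnCell' hc (self_mem_bnCell n)
    rw [sum_eq_single ((x.out * b * s : G) : G ⧸ P.B) (fun z _ hz => if_neg fun h3 => ?_) (by simp), if_pos ⟨h1, h2⟩]
    exact bns_ne_one s (by simpa using eq_of_mem_bnCell (dst_lt hw ((dst_ss (dst_symm h3.1) h1).resolve_left hz) h2) h3.2)
  · exact sum_eq_zero fun z _ => if_neg fun h3 => h (dst_lt hw h3.1 h3.2)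

theorem exists_q (s : P.S) : ∃ q : ℕ, 2 ≤ q ∧ adj P (bns P s) *ᵥ 1 = (q : ℝ) • 1 ∧
    adj P (bns P s) * adj P (bns P s) = (q - 1 : ℝ) • adj P (bns P s) + (q : ℝ) • 1 := by
  classical
  obtain ⟨q, hq⟩ : ∃ q, q = #{z | dst P (bns P s) ((1 : G) : G ⧸ P.B) z} := ⟨_, rfl⟩
  have h1 : ∀ x, #{z | dst P (bns P s) x z} = q := fun x => by
    obtain ⟨g, rfl⟩ := QuotientGroup.mk_surjective x
    refine hq ▸ (card_equiv (MulAction.toPerm g) fun z => ?_).symm
    obtain ⟨k, rfl⟩ := QuotientGroup.mk_surjective z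
    simp [dst_mk]
  have h2 : ∀ x, ¬ dst P (bns P s) x x := fun x h => bns_ne_one s (eq_of_mem_bnCell h (dst_one.2 rfl))
  refine ⟨q, ?_, funext fun x => by simp [adj, mulVec, dotProduct, h1], Matrix.ext fun x y => ?_⟩
  · obtain ⟨b, hb, h⟩ := bn_exists_conj_mem s
    refine hq ▸ one_lt_card.2 ⟨(s : G), by simpa [dst_mk] using simple_mem_bnCell s, (s * b * s : G), by simpa [dst_mk] using h, fun e => ?_⟩
    rw [QuotientGroup.eq, mul_assoc, inv_mul_cancel_left, mul_mem_cancel_left hb] at e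
    exact bn_not_mem_B s.2 e
  · simp only [adj, mul_apply, of_apply, ite_zero_mul_ite_zero, mul_one, sum_boole, Matrix.add_apply, Matrix.smul_apply, one_apply]
    by_cases e : x = y
    · subst e
      rw [filter_congr fun z _ => and_iff_left_of_imp dst_symm, h1]; simp [h2]
    by_cases e' : dst P (bns P s) x y
    · rw [show univ.filter (fun z => dst P (bns P s) x z ∧ dst P (bns P s) z y) = (univ.filter fun z => dst P (bns P s) x z).erase y by
        ext z
        simp only [mem_filter, mem_univ, true_and, mem_erase]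
        exact ⟨fun h => ⟨fun e => h2 y (e ▸ h.2), h.1⟩, fun h => ⟨h.2, (dst_ss (dst_symm h.2) e').resolve_left h.1⟩⟩,
        cast_card_erase_of_mem (by simpa), h1]
      simp [e, e']
    · rw [filter_false_of_mem fun z _ h => (dst_ss h.1 h.2).elim e e']; simp [e, e']

theorem trace_adj (v w : bnW P) [Decidable (v = w)] {r : ℝ} (h : adj P w *ᵥ 1 = r • 1) :
    (star (adj P v) * adj P w).trace = if v = w then Fintype.card (G ⧸ P.B) * r else 0 := by
  simp only [trace, diag_apply, mul_apply, star_apply, star_trivial]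
  split_ifs with e
  · subst e
    rw [sum_comm, sum_congr rfl fun x _ => show _ = r from Eq.trans (sum_congr rfl fun y _ => by
      simp only [adj, of_apply]; split_ifs <;> simp) ((congrFun h x).trans (by simp))]; simp
  · exact sum_eq_zero fun x _ => sum_eq_zero fun y _ => by
      simp only [adj, of_apply, ite_zero_mul_ite_zero]; exact if_neg fun h => e (eq_of_mem_bnCell h.1 h.2)

theorem feit_higman [Finite G] (P : BNPair G) (h2 : P.rank = 2) : Nat.card (bnW P) ∈ ({4, 6, 8, 12, 16} : Set ℕ) := by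
  classical
  haveI := Fintype.ofFinite (G ⧸ P.B)
  obtain ⟨i, j, hij, hB⟩ := Nat.card_eq_two_iff.1 h2
  replace hB : ∀ k, k = i ∨ k = j := fun k => by simpa using hB.ge (Set.mem_univ k)
  choose q q2 q1 qq using exists_q (P := P)
  obtain ⟨m, hm⟩ : ∃ m, m = orderOf (bns P i * bns P j) := ⟨_, rfl⟩
  have sq := bns_mul_self (P := P)
  have n1 := bns_ne_one (P := P)
  have m2 : 2 ≤ m := by
    have : m ≠ 1 := fun e => hij (bns_injective (by
      rw [hm, orderOf_eq_one_iff, mul_eq_one_iff_eq_inv, bns_inv] at e; exact e))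
    have := hm ▸ orderOf_pos (bns P i * bns P j)
    omega
  obtain ⟨u, hu⟩ : ∃ u : P.S → ℝ, ∀ k, u k = (√(q k))⁻¹ := ⟨_, fun _ => rfl⟩
  have q0 : ∀ k, (2 : ℝ) ≤ q k := fun k => by exact_mod_cast q2 k
  have u0 : ∀ k, 0 < u k := fun k => by have := q0 k; rw [hu]; positivity
  have u2 : ∀ k, u k * u k * q k = 1 := fun k => by
    have := q0 k; rw [hu, ← mul_inv, mul_self_sqrt (by positivity), inv_mul_cancel₀ (by positivity)]
  obtain ⟨a, ha⟩ : ∃ a : P.S → Matrix _ _ ℝ, ∀ k, a k = u k • adj P (bns P k) := ⟨_, fun _ => rfl⟩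
  have key : ∀ k ≤ m, ∀ i' j', (i' = i ∧ j' = j ∨ i' = j ∧ j' = i) → ∃ r, alt (a i') (a j') k = alt (u i') (u j') k • adj P (alt (bns P i') (bns P j') k) ∧
      adj P (alt (bns P i') (bns P j') k) *ᵥ 1 = r • 1 ∧ alt (u i') (u j') k ^ 2 * r = 1 ∧ 0 < alt (u i') (u j') k := fun k => by
    induction k with
    | zero => exact fun _ _ _ _ => ⟨1, by simp [adj_one]⟩
    | succ k ih =>
      intro hk i' j' h
      obtain ⟨r, e1, e2, e3, e4⟩ := ih (by omega) j' i' (by tauto)
      have hl : glen (bns P) (alt (bns P j') (bns P i') k) < glen (bns P) (bns P i' * alt (bns P j') (bns P i') k) :=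
        (glen_alt_le bn_invGen _ _ _).trans_lt (le_glen (k := k + 1) bn_invGen n1 (fun l => by rcases h with ⟨rfl, rfl⟩ | ⟨rfl, rfl⟩; exacts [hB l, (hB l).symm]) (by
          rcases h with ⟨rfl, rfl⟩ | ⟨rfl, rfl⟩; exacts [hm ▸ hk, orderOf_swap (bns P j') _ ▸ hm ▸ hk]))
      refine ⟨r * q i', ?_, ?_, ?_, mul_pos (u0 _) e4⟩ <;> simp only [alt_succ]
      · rw [e1, ha, smul_mul_smul_comm, adj_mul hl]
      · rw [← adj_mul hl, ← mulVec_mulVec, e2, mulVec_smul, q1, smul_smul]
      · linear_combination alt (u j') (u i') k ^ 2 * r * u2 i' + e3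
  have br : alt (bns P j) (bns P i) m = alt (bns P i) (bns P j) m := (alt_eq_iff (sq i) (sq j) (n1 i) (n1 j) m m).2 (by rw [← hm, two_mul])
  have bu : alt (u i) (u j) m = alt (u j) (u i) m := by
    obtain ⟨r, -, e2, e3, e4⟩ := key m le_rfl i j (by simp)
    obtain ⟨r', -, e2', e3', e4'⟩ := key m le_rfl j i (by simp)
    obtain rfl : r = r' := by rw [br, e2] at e2'; simpa using congrFun e2' ((1 : G) : G ⧸ P.B)
    have : r ≠ 0 := by rintro rfl; simp at e3
    exact (pow_left_inj₀ e4.le e4'.le two_ne_zero).1 (mul_right_cancel₀ this (e3.trans e3'.symm))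
  have hodd : Odd m → (q i - 1) * u i = (q j - 1) * u j := by
    rintro ⟨n, rfl⟩
    rw [alt_odd, alt_odd, mul_comm (u j)] at bu
    have e := mul_left_cancel₀ (pow_pos (mul_pos (u0 i) (u0 j)) n).ne' bu
    rw [show (q i : ℝ) = q j from mul_left_cancel₀ (mul_pos (u0 j) (u0 j)).ne' ((e ▸ u2 i).trans (u2 j).symm), e]
  have qa : ∀ k, a k * a k = ((q k - 1) * u k) • a k + 1 := fun k => by
    rw [ha, smul_mul_smul_comm, qq, smul_add, smul_smul, smul_smul, smul_smul, u2, one_smul]; congr 2; ring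
  have sa : ∀ k, star (a k) = a k := fun k => by rw [ha, star_smul, adj_star, star_trivial]
  have ra : ∀ k, ∃ r : ℚ, ((q k - 1) * u k) ^ 2 = r := fun k => ⟨(q k - 1) ^ 2 / q k, by
    have := q0 k
    push_cast; rw [eq_div_iff (by positivity)]; linear_combination ((q k : ℝ) - 1) ^ 2 * u2 k⟩
  have pa : ∀ k, 0 < (q k - 1) * u k := fun k => mul_pos (by linarith [q0 k]) (u0 k)
  have twe : ∀ k < 2 * m, ∃ c r : ℝ, tw (a i) (a j) m k = c • adj P (alt (bns P i) (bns P j) k) ∧
      adj P (alt (bns P i) (bns P j) k) *ᵥ 1 = r • 1 ∧ c ^ 2 * r = 1 := fun k hk => by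
    unfold tw; split_ifs with h
    · obtain ⟨r, e1, e2, e3, -⟩ := key k h i j (by simp)
      exact ⟨_, r, e1, e2, e3⟩
    · obtain ⟨r, e1, e2, e3, -⟩ := key (2 * m - k) (by omega) j i (by simp)
      rw [(alt_eq_iff (sq i) (sq j) (n1 i) (n1 j) k _).2 (by rw [← hm, Nat.add_sub_cancel' hk.le])] at e1 e2
      exact ⟨_, r, e1, e2, e3⟩
  have := arith m2 (pa i) (pa j) (ra i) (ra j) hodd fun θ l => core (by omega) (sa i) (sa j) (qa i) (qa j) (by
    obtain ⟨r, e1, -⟩ := key m le_rfl i j (by simp)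
    obtain ⟨r', e1', -⟩ := key m le_rfl j i (by simp)
    rw [e1, e1', br, bu]) hodd fun k hk l hl => by
      obtain ⟨c, r, e1, -, -⟩ := twe k hk
      obtain ⟨c', r', e1', e2, e3⟩ := twe l hl
      by_cases e : k = l
      · subst e
        rw [e1', star_smul, smul_mul_smul_comm, trace_smul, trace_adj _ _ e2]
        simp only [if_true, star_trivial, smul_eq_mul]
        linear_combination (Fintype.card (G ⧸ P.B) : ℝ) * e3
      · rw [e1, e1', star_smul, smul_mul_smul_comm, trace_smul, trace_adj _ _ e2, if_neg e,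
          if_neg fun h => e (alt_inj (sq i) (sq j) (n1 i) (n1 j) (hm ▸ hk) (hm ▸ hl) h), smul_zero]
  rw [card_eq bn_invGen n1 hB, ← hm]
  rcases this with rfl | rfl | rfl | rfl | rfl <;> simp

end Cfsg.Agent.H28.FH
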