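import Mathlib
import Cfsg.Prelude.Def_AxialAlgebras

/-! Majorana axes: Sakuma's theorem. -/

set_option autoImplicit false
set_option linter.unusedSectionVars false

namespace Cfsg.Agent.H28.Maj

open Cfsg.Axial

variable {V : Type*} [AddCommGroup V] [Module ℝ V] {mul : V →ₗ[ℝ] V →ₗ[ℝ] V} {B : LinearMap.BilinForm ℝ V}
  {μ ν : V ≃ₗ[ℝ] V} {a b c d e s t u v : V} {l m : ℝ}

theorem mem_eigen {x : ℝ} : v ∈ eigen mul a x ↔ mul a v = x • v := Module.End.mem_eigenspace_iff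

theorem conj (h : IsMajoranaPair mul B μ a) (g : V ≃ₗ[ℝ] V) (hg : ∀ u v, g (mul u v) = mul (g u) (g v))
    (hB : ∀ u v, B (g u) (g v) = B u v) : IsMajoranaPair mul B (g * μ * g⁻¹) (g a) := by
  obtain ⟨h1, h2, ⟨⟨h3, h4, h5, h6⟩, h7⟩, h8, h9⟩ := h
  have hg' : ∀ u v, g.symm (mul u v) = mul (g.symm u) (g.symm v) := fun u v => g.injective (by simp [hg])
  have hB' : ∀ u v, B (g.symm u) (g.symm v) = B u v := fun u v => by rw [← hB]; simp
  have e : ∀ x, eigen mul (g a) x = (eigen mul a x).map (g : V →ₗ[ℝ] V) := fun x => Submodule.ext fun v => by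
    rw [Submodule.mem_map_equiv, mem_eigen, mem_eigen, ← g.symm.injective.eq_iff, hg']; simp
  have e' : ∀ S, eigenSum mul (g a) S = (eigenSum mul a S).map (g : V →ₗ[ℝ] V) := fun S => by
    simp only [eigenSum, e, Submodule.map_iSup]
  refine ⟨fun u v => by simp [hg', h1, hg], fun u v => by simp [hB, h2, hB'], ⟨⟨by simpa using h3, by rw [← hg, h4], by
    rw [e', h5]; simp, fun x hx y hy => ?_⟩, by rw [e, h7, Submodule.map_span, Set.image_singleton]; rfl⟩, ?_, ?_⟩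
  · rw [e, e, e']
    rintro _ ⟨u, hu, rfl⟩ _ ⟨v, hv, rfl⟩
    exact ⟨_, h6 x hx y hy u hu v hv, hg u v⟩
  · rw [e']; rintro _ ⟨v, hv, rfl⟩; simpa using h8 v hv
  · rw [e]; rintro _ ⟨v, hv, rfl⟩; simpa [← map_neg] using h9 v hv

theorem dec (h : IsMajoranaPair mul B μ a) (v : V) : ∃ (x : ℝ) (α β γ : V), v = x • a + α + β + γ ∧ mul a α = 0 ∧
    mul a β = (1 / 4 : ℝ) • β ∧ mul a γ = (1 / 32 : ℝ) • γ := by
  have hv : v ∈ eigenSum mul a majoranaSpectrum := h.2.2.1.1.2.2.1 ▸ Submodule.mem_top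
  simp only [eigenSum, majoranaSpectrum, iSup_insert, iSup_singleton, Submodule.mem_sup, h.2.2.1.2, Submodule.mem_span_singleton,
    mem_eigen] at hv
  obtain ⟨_, ⟨x, rfl⟩, _, ⟨α, h1, _, ⟨β, h2, γ, h3, rfl⟩, rfl⟩, rfl⟩ := hv
  exact ⟨x, α, β, γ, by abel, by simpa using h1, h2, h3⟩

theorem idem (h : IsMajoranaPair mul B μ a) : mul a a = a := h.2.2.1.1.2.1

theorem act (h : IsMajoranaPair mul B μ a) (x : ℝ) {α β γ : V} (h1 : mul a α = 0) (h2 : mul a β = (1 / 4 : ℝ) • β)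
    (h3 : mul a γ = (1 / 32 : ℝ) • γ) : μ (x • a + α + β + γ) = x • a + α + β - γ := by
  have e : ∀ y ∈ ({1, 0, 1 / 4} : Set ℝ), ∀ v, mul a v = y • v → μ v = v := fun y hy v hv =>
    h.2.2.2.1 v (Submodule.mem_iSup_of_mem y (Submodule.mem_iSup_of_mem hy (mem_eigen.2 hv)))
  rw [map_add, map_add, map_add, map_smul, e 1 (by simp) a (by simp [idem h]), e 0 (by simp) α (by simpa using h1), e _ (by simp) β h2,
    show μ γ = -γ from h.2.2.2.2 γ (mem_eigen.2 h3), sub_eq_add_neg]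

theorem fix (h : IsMajoranaPair mul B μ a) : μ a = a := by simpa using act h 1 (α := 0) (β := 0) (γ := 0) (by simp) (by simp) (by simp)

theorem sq (h : IsMajoranaPair mul B μ a) : μ * μ = 1 := LinearEquiv.ext fun v => by
  obtain ⟨x, α, β, γ, rfl, h1, h2, h3⟩ := dec h v
  rw [LinearEquiv.mul_apply, act h x h1 h2 h3, sub_eq_add_neg, act h x h1 h2 (by simp [h3])]; simp

theorem uniq (h : IsMajoranaPair mul B μ a) (h' : IsMajoranaPair mul B ν a) : μ = ν := LinearEquiv.ext fun v => by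
  obtain ⟨x, α, β, γ, rfl, h1, h2, h3⟩ := dec h v
  rw [act h x h1 h2 h3, act h' x h1 h2 h3]

theorem odd_part (h : IsMajoranaPair mul B μ a) (v : V) : mul a v - mul a (μ v) = (1 / 32 : ℝ) • (v - μ v) := by
  obtain ⟨x, α, β, γ, rfl, h1, h2, h3⟩ := dec h v
  simp only [act h x h1 h2 h3, map_add, map_sub, h3]; module

theorem f00 (h : IsMajoranaPair mul B μ a) (hu : mul a u = 0) (hv : mul a v = 0) : mul a (mul u v) = 0 := by
  have := h.2.2.1.1.2.2.2 0 (by simp [majoranaSpectrum]) 0 (by simp [majoranaSpectrum]) u (mem_eigen.2 (by simpa)) v (mem_eigen.2 (by simpa))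
  norm_num [monsterLaw, eigenSum, mem_eigen] at this
  exact this

theorem f04 (h : IsMajoranaPair mul B μ a) (hu : mul a u = 0) (hv : mul a v = (1 / 4 : ℝ) • v) :
    mul a (mul u v) = (1 / 4 : ℝ) • mul u v := by
  have := h.2.2.1.1.2.2.2 0 (by simp [majoranaSpectrum]) (1 / 4) (by simp [majoranaSpectrum]) u (mem_eigen.2 (by simpa)) v (mem_eigen.2 hv)
  norm_num [monsterLaw, eigenSum, mem_eigen] at this
  exact this

variable (hV : IsMajoranaAmbient mul B)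
include hV

theorem orth (h : IsMajoranaPair mul B μ a) {x : ℝ} (hx : x ≠ 1) (hv : mul a v = x • v) : B a v = 0 := by
  have := hV.2.2.2.1 a a v
  rw [hv, idem h, map_smul, smul_eq_mul] at this
  exact (mul_eq_zero.1 (by linarith : (x - 1) * B a v = 0)).resolve_left (sub_ne_zero.2 hx)

theorem f44 (h : IsMajoranaPair mul B μ a) (hn : B a a = 1) (hu : mul a u = (1 / 4 : ℝ) • u) (hv : mul a v = (1 / 4 : ℝ) • v) :
    mul a (mul u v) = (B u v / 4) • a := by
  have := h.2.2.1.1.2.2.2 _ (by simp [majoranaSpectrum]) (1 / 4) (by simp [majoranaSpectrum]) u (mem_eigen.2 hu) v (mem_eigen.2 hv)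
  norm_num [monsterLaw, eigenSum, iSup_or, iSup_sup_eq, Submodule.mem_sup, h.2.2.1.2, Submodule.mem_span_singleton, mem_eigen] at this
  obtain ⟨x, z, hz, e⟩ := this
  have h1 := hV.2.2.2.1 a u v
  rw [hu, ← e, map_add, orth hV h (v := z) zero_ne_one (by simpa using hz), map_smul, hn] at h1
  rw [← e, map_add, hz, map_smul, idem h, add_zero]; congr 1; simp at h1; linarith

theorem even_part (h : IsMajoranaPair mul B μ a) (hn : B a a = 1) (v : V) :
    mul a (mul a v) + mul a (mul a (μ v)) = (1 / 4 : ℝ) • (mul a v + mul a (μ v)) + (3 / 2 * B a v) • a := by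
  obtain ⟨x, α, β, γ, rfl, h1, h2, h3⟩ := dec h v
  have i1 := orth hV h (v := α) zero_ne_one (by simpa using h1)
  simp only [act h x h1 h2 h3, map_add, map_sub, map_smul, h1, h2, h3, idem h, hn, i1, map_zero,
    orth hV h (by norm_num) h2, orth hV h (by norm_num) h3, smul_eq_mul]
  module

theorem eq_of_inner (ha : B a a = 1) (hb : B b b = 1) (h : 1 ≤ B a b) : a = b := by_contra fun hn => by
  have := hV.2.2.1 _ (sub_ne_zero.2 hn)
  simp only [map_sub, LinearMap.sub_apply, ha, hb, hV.2.1 b a] at this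
  linarith

theorem mul_s (h : IsMajoranaPair mul B μ a) (hn : B a a = 1) (hc : μ b = c) (hl : B a b = l)
    (hab : mul a b = s + (1 / 32 : ℝ) • (a + b)) (hac : mul a c = s + (1 / 32 : ℝ) • (a + c)) :
    mul a s = (7 / 32 : ℝ) • s + (3 / 4 * l - 25 / 1024) • a + (7 / 2048 : ℝ) • (b + c) := by
  have := even_part hV h hn b
  simp only [hc, hl, hab, hac, map_add, map_smul, idem h] at this
  linear_combination (norm := module) (1 / 2 : ℝ) • this

theorem inner_s (ha : mul a a = a) (hn : B a a = 1) (hl : B a b = l) (hab : mul a b = s + (1 / 32 : ℝ) • (a + b)) :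
    B a s = l - (1 + l) / 32 := by
  have := hV.2.2.2.1 a a b
  simp only [ha, hab, map_add, map_smul, hn, hl, smul_eq_mul] at this
  linarith

theorem inner_ss (ha : mul a a = a) (hb : mul b b = b) (hn : B a a = 1) (hn' : B b b = 1) (hl : B a b = l) (hm : B b c = m)
    (hab : mul a b = s + (1 / 32 : ℝ) • (a + b))
    (has : mul a s = (7 / 32 : ℝ) • s + (3 / 4 * l - 25 / 1024) • a + (7 / 2048 : ℝ) • (b + c)) :
    B s s = -3 / 2048 + 65 / 512 * l + 3 / 4 * l ^ 2 + 7 / 2048 * m := by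
  have h1 := inner_s hV ha hn hl hab
  have h2 := inner_s hV hb hn' ((hV.2.1 _ _).trans hl) ((hV.1 _ _).trans (add_comm a b ▸ hab))
  have := hV.2.2.2.1 s a b
  simp only [hV.1 s a, hab, has, map_add, map_smul, LinearMap.add_apply, LinearMap.smul_apply, hV.2.1 s a, hV.2.1 s b, hV.2.1 c b, h1, h2,
    hn', hl, hm, smul_eq_mul] at this
  linarith

theorem core (h : IsMajoranaPair mul B μ a) (hn : B a a = 1) (hb : mul b b = b) (hc : mul c c = c) (hnb : B b b = 1) (hnc : B c c = 1)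
    (hl : B a b = l) (hl' : B a c = l) (hm : B b c = m)
    (hab : mul a b = s + (1 / 32 : ℝ) • (a + b)) (hac : mul a c = s + (1 / 32 : ℝ) • (a + c))
    (hbc : mul b c = u + (1 / 32 : ℝ) • (b + c)) (had : mul a d = t + (1 / 32 : ℝ) • (a + d)) (hae : mul a e = t + (1 / 32 : ℝ) • (a + e))
    (has : mul a s = (7 / 32 : ℝ) • s + (3 / 4 * l - 25 / 1024) • a + (7 / 2048 : ℝ) • (b + c))
    (hbs : mul b s = (7 / 32 : ℝ) • s + (3 / 4 * l - 25 / 1024) • b + (7 / 2048 : ℝ) • (d + a))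
    (hcs : mul c s = (7 / 32 : ℝ) • s + (3 / 4 * l - 25 / 1024) • c + (7 / 2048 : ℝ) • (a + e)) :
    mul s s = (49 / 196608 : ℝ) • (d + e) + (-245 / 196608 + 49 / 768 * l) • (b + c) +
      (-7 / 98304 - 7 / 384 * l + 7 / 6 * l ^ 2 + 7 / 1536 * m) • a + (-13 / 1536 - 5 / 12 * l) • s + (-7 / 1536 : ℝ) • t + (7 / 2048 : ℝ) • u ∧
    mul a u = (7 / 6144 : ℝ) • (d + e) + (-19 / 3072 + 1 / 6 * l) • (b + c) +
      (-127 / 3072 + 5 / 3 * l - 32 / 3 * l ^ 2 - 1 / 24 * m) • a + (-19 / 48 + 32 / 3 * l) • s + (7 / 96 : ℝ) • t := by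
  have ha := idem h
  have hα : mul a ((7 / 16 : ℝ) • b + (7 / 16 : ℝ) • c + (3 * l - 1 / 8) • a + (-4 : ℝ) • s) = 0 := by
    simp only [map_add, map_smul, ha, hab, hac, has]; module
  have hβ : mul a ((1 / 16 : ℝ) • b + (1 / 16 : ℝ) • c + (1 / 8 - 4 * l) • a + (4 : ℝ) • s) =
      (1 / 4 : ℝ) • ((1 / 16 : ℝ) • b + (1 / 16 : ℝ) • c + (1 / 8 - 4 * l) • a + (4 : ℝ) • s) := by
    simp only [map_add, map_smul, ha, hab, hac, has]; module
  have E1 := f00 h hα hα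
  have E2 := f44 hV h hn hβ hβ
  have E3 := f04 h hα hβ
  have i1 := inner_s hV ha hn hl hab
  have i2 := inner_s hV hb hnb ((hV.2.1 _ _).trans hl) ((hV.1 _ _).trans (add_comm a b ▸ hab))
  have i3 := inner_s hV hc hnc ((hV.2.1 _ _).trans hl') ((hV.1 _ _).trans (add_comm a c ▸ hac))
  have i4 := inner_ss hV ha hb hn hnb hl hm hab has
  simp only [map_add, map_smul, LinearMap.add_apply, LinearMap.smul_apply, hV.1 b a, hV.1 c a, hV.1 s a, hV.1 c b, hV.1 s b, hV.1 s c,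
    ha, hb, hc, hab, hac, hbc, had, hae, has, hbs, hcs, hV.2.1 b a, hV.2.1 c a, hV.2.1 s a, hV.2.1 c b, hV.2.1 s b, hV.2.1 s c,
    hn, hnb, hnc, hl, hl', hm, i1, i2, i3, i4, smul_eq_mul] at E1 E2 E3
  constructor
  · linear_combination (norm := module) (-1 / 24 : ℝ) • E1 + (7 / 24 : ℝ) • E2 + (1 / 4 : ℝ) • E3
  · linear_combination (norm := module) (8 / 3 : ℝ) • E1 - (8 / 3 : ℝ) • E2

/-- Sakuma's theorem for a sequence of axes -/
theorem seq {a : ℤ → V} {M : ℤ → V ≃ₗ[ℝ] V} (h : ∀ i, IsMajoranaPair mul B (M i) (a i)) (hn : ∀ i, B (a i) (a i) = 1)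
    (hM : ∀ i j, M i (a j) = a (2 * i - j)) : ∃ i j : ℤ, i < j ∧ j ≤ i + 6 ∧ a j = a i := by
  obtain ⟨σ, hσ⟩ : ∃ σ : ℤ → ℤ → V, ∀ k i j, j = i + k → mul (a i) (a j) = σ k i + (1 / 32 : ℝ) • (a i + a j) :=
    ⟨fun k i => mul (a i) (a (i + k)) - (1 / 32 : ℝ) • (a i + a (i + k)), by rintro k i _ rfl; simp⟩
  have hσ' : ∀ k i j, j = i - k → mul (a i) (a j) = σ k i + (1 / 32 : ℝ) • (a i + a j) := fun k i j e => by
    have := odd_part (h i) (a (i + k))
    rw [hM, hσ k i _ rfl, show 2 * i - (i + k) = j by omega] at this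
    linear_combination (norm := module) -this
  have per : ∀ k i j, j = i + k → σ k j = σ k i := fun k i j e => by
    have := hσ k i j e
    rw [hV.1, hσ' k j i (by omega)] at this
    linear_combination (norm := module) this
  have hB : ∀ k i j, B (a i) (a j) = B (a (2 * k - i)) (a (2 * k - j)) := fun k i j => by rw [← hM, ← hM, (h k).2.1]
  obtain ⟨l, hl⟩ : ∃ l, ∀ i j, j = i + 1 → B (a i) (a j) = l := ⟨B (a 0) (a 1), by
    rintro i _ rfl
    induction i with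
    | zero => rfl
    | succ i ih => rw [← ih, hB (i + 1), hV.2.1]; ring_nf
    | pred i ih => rw [← ih, hB (-i), hV.2.1]; ring_nf⟩
  obtain ⟨s, hs⟩ : ∃ s, ∀ i, σ 1 i = s := ⟨σ 1 0, fun i => by
    induction i with
    | zero => rfl
    | succ i ih => rw [← ih, per 1 i _ rfl]
    | pred i ih => rw [← ih, per 1 (-i - 1) (-i) (by ring)]⟩
  have p1 : ∀ i j, j = i + 1 → mul (a i) (a j) = s + (1 / 32 : ℝ) • (a i + a j) := fun i j e => hs i ▸ hσ 1 i j e
  have p1' : ∀ i j, j = i - 1 → mul (a i) (a j) = s + (1 / 32 : ℝ) • (a i + a j) := fun i j e => hs i ▸ hσ' 1 i j e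
  have hl' : ∀ i j, j = i - 1 → B (a i) (a j) = l := fun i j e => (hV.2.1 _ _).trans (hl j i (by omega))
  have ps : ∀ i j k, j = i + 1 → k = i - 1 → mul (a i) s = (7 / 32 : ℝ) • s + (3 / 4 * l - 25 / 1024) • a i + (7 / 2048 : ℝ) • (a j + a k) :=
    fun i j k e e' => mul_s hV (h i) (hn i) ((hM _ _).trans (congrArg a (by omega))) (hl i j e) (p1 i j e) (p1' i k e')
  obtain ⟨m, hm⟩ : ∃ m, ∀ i j, j = i - 2 → B (a i) (a j) = m :=
    ⟨(B s s - (-3 / 2048 + 65 / 512 * l + 3 / 4 * l ^ 2)) * (2048 / 7), fun i j e => by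
      rw [inner_ss hV (idem (h (i - 1))) (idem (h i)) (hn _) (hn _) (hl _ _ (by ring)) rfl (p1 _ _ (by ring)) (ps _ _ j (by ring) (by omega))]
      ring⟩
  have Q : ∀ i, mul s s = (49 / 196608 : ℝ) • (a (i + 2) + a (i - 2)) + (-245 / 196608 + 49 / 768 * l) • (a (i + 1) + a (i - 1)) +
      (-7 / 98304 - 7 / 384 * l + 7 / 6 * l ^ 2 + 7 / 1536 * m) • a i + (-13 / 1536 - 5 / 12 * l) • s + (-7 / 1536 : ℝ) • σ 2 i +
      (7 / 2048 : ℝ) • σ 2 (i + 1) := fun i =>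
    (core hV (h i) (hn i) (idem (h _)) (idem (h _)) (hn _) (hn _) (hl _ _ rfl) (hl' _ _ rfl) (hm _ _ (by ring)) (p1 _ _ rfl) (p1' _ _ rfl)
      (hσ' 2 _ _ (by ring)) (hσ 2 _ _ rfl) (hσ' 2 _ _ rfl) (ps _ _ _ rfl rfl) (ps _ _ _ (by ring) (by ring)) (ps _ _ _ (by ring) (by ring))).1
  obtain ⟨A, hA⟩ : ∃ A, A = 256 * l - 5 := ⟨_, rfl⟩
  obtain ⟨C, hC⟩ : ∃ C, C = -9 / 7 - 512 / 7 * l + 32768 / 7 * l ^ 2 + 128 / 7 * m := ⟨_, rfl⟩
  have R : ∀ i, a (i + 6) - a i + A • (a (i + 5) - a (i + 1)) + C • (a (i + 4) - a (i + 2)) = 0 := fun i => by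
    have h1 := Q (i + 4)
    have h2 := Q (i + 2)
    rw [per 2 (i + 2) (i + 4) (by ring), per 2 (i + 2 + 1) (i + 4 + 1) (by ring)] at h1
    ring_nf at h1 h2 ⊢
    rw [hA, hC]
    linear_combination (norm := module) (196608 / 49 : ℝ) • (h2 - h1)
  have m1 : ∀ i, (15 / 16 * C) • a i = σ 4 i + A • σ 3 i - A • s + (C - 1) • σ 2 i := fun i => by
    have h1 := R (i - 2)
    have h2 := congrArg (mul (a i)) h1
    simp only [map_add, map_sub, map_smul, map_zero] at h2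
    rw [hσ 4 _ _ (by ring), hσ' 2 _ (i - 2) rfl, hσ 3 _ _ (by ring), p1' _ _ (by ring), hσ 2 _ (i - 2 + 4) (by ring), sub_add_cancel,
      idem (h i)] at h2
    rw [sub_add_cancel] at h1
    linear_combination (norm := module) (1 / 32 : ℝ) • h1 - h2
  have m2 : ∀ i, (15 / 16 * A) • a i = σ 5 i + A • σ 4 i + C • σ 3 i - (1 + C) • s := fun i => by
    have h1 := R (i - 1)
    have h2 := congrArg (mul (a i)) h1
    simp only [map_add, map_sub, map_smul, map_zero] at h2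
    rw [hσ 5 _ _ (by ring), p1' _ (i - 1) rfl, hσ 4 _ _ (by ring), hσ 3 _ (i - 1 + 4) (by ring), p1 _ (i - 1 + 2) (by ring), sub_add_cancel,
      idem (h i)] at h2
    rw [sub_add_cancel] at h1
    linear_combination (norm := module) (1 / 32 : ℝ) • h1 - h2
  have m3 : ∀ i, (15 / 16 : ℝ) • a i = σ 6 i + A • σ 5 i - A • s + C • (σ 4 i - σ 2 i) := fun i => by
    have h1 := R i
    have h2 := congrArg (mul (a i)) h1
    simp only [map_add, map_sub, map_smul, map_zero] at h2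
    rw [hσ 6 _ _ rfl, hσ 5 _ _ rfl, p1 _ _ rfl, hσ 4 _ _ rfl, hσ 2 _ _ rfl, idem (h i)] at h2
    linear_combination (norm := module) (1 / 32 : ℝ) • h1 - h2
  have n3 : B (a 0) (a 3) = 33 / 7 - 2169 / 7 * l - 1920 / 7 * l * m + 36864 / 7 * l ^ 2 - 32768 / 7 * l ^ 3 - 33 / 7 * m := by
    have h1 := congrArg (B (a 0)) ((Q 0).symm.trans (Q 1))
    have h2 := inner_s hV (idem (h 0)) (hn 0) ((hV.2.1 _ _).trans (hm 2 0 rfl)) (hσ 2 0 2 rfl)
    have h3 := hV.2.2.2.1 (a 0) (a 1) (a (-1))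
    have h4 := inner_s hV (idem (h (-1))) (hn _) (hl _ 0 rfl) (p1 _ _ rfl)
    rw [per 2 0 (1 + 1) rfl] at h1
    rw [hσ' 2 1 (-1) rfl, p1 0 1 rfl] at h3
    norm_num [hV.2.1 s, h4, hl 0 1 rfl, hl' 0 (-1) rfl, hm 1 (-1) rfl, hm 0 (-2) rfl, hV.2.1 (a 0) (a 2), hm 2 0 rfl, hn, h2] at h1 h3
    linear_combination (-196608 / 49) * h1 + 32 * h3
  have n4 : B (a 0) (a 4) = m - A * (B (a 0) (a 3) - l) - C * (m - 1) := by
    have h1 := congrArg (B (a 0)) (R (-2))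
    norm_num [hl' 0 (-1) rfl, hm 0 (-2) rfl, hV.2.1 (a 0) (a 2), hm 2 0 rfl, hn] at h1
    linarith
  have n5 : B (a 0) (a 5) = l - A * (B (a 0) (a 4) - 1) - C * (B (a 0) (a 3) - l) := by
    have h1 := congrArg (B (a 0)) (R (-1))
    norm_num [hl' 0 (-1) rfl, hl 0 1 rfl, hn] at h1
    linarith
  have canc : ∀ {x : ℝ} {i j : ℤ}, x ≠ 0 → x • (a i - a j) = 0 → a i = a j := fun hx e => sub_eq_zero.1 ((smul_eq_zero.1 e).resolve_left hx)
  by_cases A1 : A = 1 ∧ (C = 0 ∨ C = 1)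
  · obtain rfl : l = 3 / 128 := by linarith [A1.1]
    obtain ⟨rfl, rfl | rfl⟩ := A1
    · obtain rfl : m = 3 / 128 := by linarith
      exact ⟨0, 5, by omega, by omega, (eq_of_inner hV (hn _) (hn _) (by rw [n5, n4, n3]; norm_num)).symm⟩
    · obtain rfl : m = 5 / 64 := by linarith
      exact ⟨0, 4, by omega, by omega, (eq_of_inner hV (hn _) (hn _) (by rw [n4, n3]; norm_num)).symm⟩
  by_cases C0 : C = 0
  · subst C0
    by_cases A0 : A = 0
    · subst A0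
      refine ⟨0, 6, by omega, by omega, canc (x := 15 / 16) (by norm_num) ?_⟩
      linear_combination (norm := module) m3 6 - m3 0 + per 6 0 6 rfl
    have z : ∀ i, A • σ 6 (i + 5) - A • σ 6 i = A • σ 4 (i + 1) - A • σ 4 i := fun i => by
      linear_combination (norm := module) A • m3 i - A • m3 (i + 5) + m2 (i + 5) - m2 i - (A * A - 1) • per 5 i _ rfl +
        A • per 4 (i + 1) (i + 5) (by ring)
    have z0 := z 0
    have z1 := z 1
    have z6 := z 6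
    have z7 := z 7
    have R0 := R 0
    refine ⟨1, 5, by omega, by omega, canc (x := 15 / 8 * A * (A - 1)) (by simpa [A0, sub_eq_zero] using A1) ?_⟩
    norm_num at z0 z1 z6 z7 R0
    rw [per 6 5 11 rfl, per 6 0 6 rfl, per 4 3 7 rfl, per 4 2 6 rfl] at z6
    rw [per 6 6 12 rfl, per 6 0 6 rfl, per 6 1 7 rfl, per 4 4 8 rfl, per 4 0 4 rfl, per 4 3 7 rfl] at z7
    rw [per 6 0 6 rfl] at z1
    linear_combination (norm := module) (15 / 8 * A) • R0 - (z6 - z0 + z7 - z1) - (2 : ℝ) •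
      (m2 6 + m2 5 - m2 1 - m2 0 + per 5 1 6 rfl + per 5 0 5 rfl + A • per 4 2 6 rfl + A • per 4 1 5 rfl)
  have ann : ∀ i, a (i + 6) + a (i + 5) + a (i + 4) - a (i + 2) - a (i + 1) - a i = 0 := fun i => by
    refine (smul_eq_zero.1 ?_).resolve_left (mul_ne_zero (by norm_num : (15 / 16 : ℝ) ≠ 0) C0)
    linear_combination (norm := module) m1 (i + 6) + m1 (i + 5) + m1 (i + 4) - m1 (i + 2) - m1 (i + 1) - m1 i +
      per 4 (i + 2) (i + 6) (by ring) + per 4 (i + 1) (i + 5) (by ring) + per 4 i (i + 4) rfl +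
      A • (per 3 (i + 3) (i + 6) (by ring) + per 3 i (i + 3) rfl + per 3 (i + 2) (i + 5) (by ring) + per 3 (i + 1) (i + 4) (by ring)) +
      (C - 1) • (per 2 (i + 4) (i + 6) (by ring) + (2 : ℝ) • per 2 (i + 2) (i + 4) (by ring) + per 2 i (i + 2) rfl +
        per 2 (i + 3) (i + 5) (by ring) + per 2 (i + 1) (i + 3) (by ring))
  have E : ∀ i, (A - 1) • (a (i + 5) - a (i + 1)) + (C - 1) • (a (i + 4) - a (i + 2)) = 0 := fun i => by
    linear_combination (norm := module) R i - ann i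
  have E0 := E 0
  have E1 := E 1
  have E2 := E (-1)
  have a0 := ann 0
  norm_num at E0 E1 E2 a0
  by_cases C1 : C = 1
  · exact ⟨1, 5, by omega, by omega, canc (x := A - 1) (by simpa [C1, sub_eq_zero] using A1) (by simpa [C1] using E0)⟩
  by_cases AC : A = C
  · refine ⟨0, 6, by omega, by omega, canc (sub_ne_zero.2 C1) ?_⟩
    subst AC
    linear_combination (norm := module) (A - 1) • a0 - E0
  by_cases A1' : A = 1
  · exact ⟨2, 4, by omega, by omega, canc (sub_ne_zero.2 C1) (by simpa [A1'] using E0)⟩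
  refine ⟨2, 4, by omega, by omega, canc (mul_ne_zero (sub_ne_zero.2 C1) (sub_ne_zero.2 AC)) ?_⟩
  linear_combination (norm := module) (A - 1) • (E1 + E2) + (A - C) • E0 - (A - 1) ^ 2 • a0

theorem dihedral {a₀ a₁ : V} (h₀ : IsMajoranaPair mul B μ a₀) (h₁ : IsMajoranaPair mul B ν a₁) (n₀ : B a₀ a₀ = 1) (n₁ : B a₁ a₁ = 1) :
    ∃ n : ℕ, 1 ≤ n ∧ n ≤ 6 ∧ (μ * ν) ^ n = 1 := by
  have s0 := sq h₀
  have s1 := sq h₁
  obtain ⟨ρ, hρ⟩ : ∃ ρ, ρ = ν * μ := ⟨_, rfl⟩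
  have e1 : ν = ρ * μ := by rw [hρ, mul_assoc, s0, mul_one]
  have e2 : ∀ k : ℤ, μ * ρ ^ k = ρ ^ (-k) * μ := fun k => by
    have : SemiconjBy μ ρ ρ⁻¹ := by
      rw [SemiconjBy, hρ, mul_inv_rev, inv_eq_of_mul_eq_one_right s0, inv_eq_of_mul_eq_one_right s1, mul_assoc]
    rw [(this.zpow_right k).eq, inv_zpow']
  have hρ' : ∀ k : ℤ, (∀ u v, (ρ ^ k) (mul u v) = mul ((ρ ^ k) u) ((ρ ^ k) v)) ∧ ∀ u v, B ((ρ ^ k) u) ((ρ ^ k) v) = B u v := fun k => by
    let S : Subgroup (V ≃ₗ[ℝ] V) :=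
      { carrier := {g | (∀ u v, g (mul u v) = mul (g u) (g v)) ∧ ∀ u v, B (g u) (g v) = B u v}
        mul_mem' := fun {g h} hg hh => ⟨fun u v => by simp [hg.1, hh.1], fun u v => by simp [hg.2, hh.2]⟩
        one_mem' := ⟨fun _ _ => rfl, fun _ _ => rfl⟩
        inv_mem' := fun {g} hg => ⟨fun u v => g.injective (by simp [hg.1]), fun u v => by rw [← hg.2]; simp⟩ }
    exact S.zpow_mem (hρ ▸ S.mul_mem ⟨h₁.1, h₁.2.1⟩ ⟨h₀.1, h₀.2.1⟩) k
  have hp : ∀ i : ℤ, IsMajoranaPair mul B (ρ ^ i * μ) ((ρ ^ (i / 2)) (if i % 2 = 0 then a₀ else a₁)) := fun i => by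
    split_ifs with h
    · convert conj h₀ _ (hρ' (i / 2)).1 (hρ' _).2 using 1
      rw [mul_assoc, ← zpow_neg, e2, ← mul_assoc, ← zpow_add]; congr 2; omega
    · convert conj h₁ _ (hρ' (i / 2)).1 (hρ' _).2 using 1
      rw [e1, mul_assoc, mul_assoc, ← zpow_neg, e2, ← mul_assoc, ← mul_assoc, ← zpow_add_one, ← zpow_add]; congr 2; omega
  obtain ⟨i, j, h1, h2, e⟩ := seq hV hp (fun i => by rw [(hρ' _).2]; split_ifs <;> assumption) fun i j => by
    rw [← LinearEquiv.mul_apply, mul_assoc, e2, ← mul_assoc, ← zpow_add, LinearEquiv.mul_apply]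
    by_cases h : j % 2 = 0
    · rw [if_pos h, if_pos (by omega), fix h₀]; congr 2; omega
    · rw [if_neg h, if_neg (by omega), show μ a₁ = ρ⁻¹ a₁ by conv_rhs => rw [← fix h₁, e1, ← LinearEquiv.mul_apply, inv_mul_cancel_left],
        ← LinearEquiv.mul_apply, ← zpow_sub_one]
      congr 2; omega
  have := mul_right_cancel (uniq (hp j) (e ▸ hp i))
  refine ⟨(j - i).toNat, by omega, by omega, ?_⟩
  rw [← inv_eq_one, ← inv_pow, mul_inv_rev, inv_eq_of_mul_eq_one_right s0, inv_eq_of_mul_eq_one_right s1, ← hρ, ← zpow_natCast,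
    Int.toNat_of_nonneg (by omega), zpow_sub, this, mul_inv_cancel]

end Cfsg.Agent.H28.Maj
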