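import Mathlib
import Cfsg.Agent.H28.Rep

/-! Numeric models of extensions that need not split. -/

set_option autoImplicit false

namespace Cfsg.Agent.H28
open H14 H15

variable {G : Type*} [Group G]

/-- tables for an extension -/
structure TC2 where
  nq : ℕ
  np : ℕ
  qm : ℕ → ℕ
  act : ℕ → ℕ
  pm : ℕ → ℕ
  co : ℕ → ℕ
  iv : ℕ → ℕ

namespace TC2
variable (T : TC2)

noncomputable def mul (a b : ℕ) : ℕ :=
  force (Nat.div a T.nq) fun π => force (Nat.add (Nat.mul π T.np) (Nat.div b T.nq)) fun j => Nat.add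
    (T.qm (Nat.add (Nat.mul (T.qm (Nat.add (Nat.mul (Nat.mod a T.nq) T.nq)
      (T.act (Nat.add (Nat.mul π T.nq) (Nat.mod b T.nq))))) T.nq) (T.co j)))
    (Nat.mul T.nq (T.pm j))

noncomputable def num : Num where
  mul := T.mul
  inv := T.iv
  one := 0
  all d p := Nat.rec (motive := fun _ => Bool) (allLt (Nat.mul T.nq T.np) p) (fun _ _ => allLt T.nq p) d

noncomputable def chk (N : Num) (e x y hash : ℕ → ℕ) (WX WY : List (List ℕ)) (c : ℕ → ℕ) (L : ℕ) : Bool :=
  band (band (band (allLt T.nq fun a => Nat.beq (x a) (N.wd e (nthW WX a)))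
    (allLt T.np fun a => Nat.beq (y a) (N.wd e (nthW WY a))))
    (band (band (Nat.beq (x 0) N.one) (Nat.beq (y 0) N.one)) (band (Nat.blt 0 T.nq) (Nat.blt 0 T.np))))
  (band (band (allLt T.nq fun a => force (x a) fun xa => allLt T.nq fun b =>
      force (T.qm (Nat.add (Nat.mul a T.nq) b)) fun k => force (x b) fun xb =>
        band (Nat.blt k T.nq) (Nat.beq (x k) (N.mul xa xb)))
    (allLt T.np fun a => force (y a) fun ya => band (allLt T.nq fun b =>
      force (T.act (Nat.add (Nat.mul a T.nq) b)) fun k => force (x b) fun xb => force (x k) fun xk =>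
        band (Nat.blt k T.nq) (Nat.beq (N.mul ya xb) (N.mul xk ya)))
      (allLt T.np fun b => force (T.pm (Nat.add (Nat.mul a T.np) b)) fun k => force (y b) fun yb =>
        force (T.co (Nat.add (Nat.mul a T.np) b)) fun j => force (x j) fun xj => force (y k) fun yk =>
        band (band (Nat.blt k T.np) (Nat.blt j T.nq)) (Nat.beq (N.mul xj yk) (N.mul ya yb)))))
    (band (band (allLt (Nat.mul T.nq T.np) fun a => force (T.iv a) fun b =>
        band (Nat.blt b (Nat.mul T.nq T.np)) (Nat.beq (T.mul a b) 0))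
      (distinctL (fun a => force (x (Nat.mod a T.nq)) fun u => force (y (Nat.div a T.nq)) fun v =>
        force (N.mul u v) hash) (List.range (Nat.mul T.nq T.np)) 0))
      (allLt L fun l => force (c l) fun a => band (Nat.blt a (Nat.mul T.nq T.np))
        (Nat.beq (N.mul (x (Nat.mod a T.nq)) (y (Nat.div a T.nq))) (e l)))))

theorem rep {N : Num} {S : ℕ → Set G} {R : Rep N S} {e : ℕ → ℕ} {E : ℕ → G} (h : R.Env e E) {L : ℕ}
    (hL : ∀ l, L ≤ l → E l = 1) {x y hash : ℕ → ℕ} {WX WY : List (List ℕ)} {c : ℕ → ℕ}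
    (hc : ∀ l, L ≤ l → c l = 0) (H : T.chk N e x y hash WX WY c L = true) :
    ∃ (X : Set G) (R' : Rep T.num fun d => Nat.rec (motive := fun _ => Set G) (gp E (sgl L)) (fun _ _ => X) d),
      R'.Env c E ∧ (∀ a, R'.dom 0 a ↔ a < T.nq * T.np) ∧
        (∀ a, R'.ok a → R'.val a ∈ gp E (sgl L)) ∧ X ⊆ gp E (sgl L) ∧
          T.nq * T.np ≤ Nat.card (gp E (sgl L)) := by
  simp only [chk, band_iff, allLt_iff, force_eq, nbeq_iff, Nat.blt_eq, Nat.mul_eq, Nat.add_eq,
    show ∀ a b : ℕ, Nat.mod a b = a % b from fun _ _ => rfl,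
    show ∀ a b : ℕ, Nat.div a b = a / b from fun _ _ => rfl] at H
  obtain ⟨⟨⟨hx, hy⟩, ⟨x0, y0⟩, q0, p0⟩, ⟨hq, hp⟩, ⟨hi, hd⟩, hl⟩ := H
  have ox : ∀ a < T.nq, R.ok (x a) := fun a ha => hx a ha ▸ (R.wd_spec h _).1
  have oy : ∀ a < T.np, R.ok (y a) := fun a ha => hy a ha ▸ (R.wd_spec h _).1
  have m1 : ∀ a, a % T.nq < T.nq := fun a => Nat.mod_lt _ q0
  have m2 : ∀ a < T.nq * T.np, a / T.nq < T.np := fun a ha => Nat.div_lt_of_lt_mul ha
  let val : ℕ → G := fun a => R.val (x (a % T.nq)) * R.val (y (a / T.nq))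
  have vm : ∀ a < T.nq * T.np, val a ∈ gp E (sgl L) := fun a ha => by
    simp only [val]
    rw [hx _ (m1 a), hy _ (m2 a ha), (R.wd_spec h _).2, (R.wd_spec h _).2]
    exact mul_mem (lprod_mem_sgl hL _) (lprod_mem_sgl hL _)
  have key : ∀ a < T.nq * T.np, ∀ b < T.nq * T.np, T.mul a b < T.nq * T.np ∧ val (T.mul a b) = val a * val b := by
    intro a ha b hb
    obtain ⟨k1, e1⟩ := (hp _ (m2 a ha)).1 _ (m1 b)
    obtain ⟨⟨k2, k4⟩, e2⟩ := (hp _ (m2 a ha)).2 _ (m2 b hb)
    obtain ⟨k5, e5⟩ := hq _ (m1 a) _ k1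
    obtain ⟨k3, e3⟩ := hq _ k5 _ k4
    have e0 : T.mul a b = T.qm (T.qm (a % T.nq * T.nq + T.act (a / T.nq * T.nq + b % T.nq)) * T.nq +
      T.co (a / T.nq * T.np + b / T.nq)) + T.nq * T.pm (a / T.nq * T.np + b / T.nq) :=
      (force_eq (a / T.nq) _).trans (force_eq _ _)
    refine ⟨by rw [e0]; nlinarith, ?_⟩
    have e6 := congrArg R.val e2
    rw [R.val_mul _ _ (ox _ k4) (oy _ k2), R.val_mul _ _ (oy _ (m2 a ha)) (oy _ (m2 b hb))] at e6
    have e4 := congrArg R.val e1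
    rw [R.val_mul _ _ (oy _ (m2 a ha)) (ox _ (m1 b)), R.val_mul _ _ (ox _ k1) (oy _ (m2 a ha))] at e4
    simp only [val]
    rw [e0, Nat.add_mul_mod_self_left, Nat.add_mul_div_left _ _ q0, Nat.mod_eq_of_lt k3, Nat.div_eq_of_lt k3,
      zero_add, e3, R.val_mul _ _ (ox _ k5) (ox _ k4), mul_assoc, e6, e5, R.val_mul _ _ (ox _ (m1 a)) (ox _ k1),
      mul_assoc, mul_assoc, ← mul_assoc (R.val (x (T.act _))), ← e4, mul_assoc]
  have v0 : val 0 = 1 := by simp only [val]; rw [Nat.zero_mod, Nat.zero_div, x0, y0, R.val_one, one_mul]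
  have vi : ∀ a < T.nq * T.np, val (T.iv a) = (val a)⁻¹ := fun a ha =>
    eq_inv_of_mul_eq_one_right (by rw [← (key a ha _ (hi a ha).1).2, (hi a ha).2, v0])
  have inj : ∀ a b, a < T.nq * T.np → b < T.nq * T.np → val a = val b → a = b := fun a b ha hb e => by
    refine List.inj_on_of_nodup_map (distinctL_spec _ _ hd).1 (List.mem_range.2 ha) (List.mem_range.2 hb) ?_
    simp only [val] at e
    rw [← R.val_mul _ _ (ox _ (m1 a)) (oy _ (m2 a ha)), ← R.val_mul _ _ (ox _ (m1 b)) (oy _ (m2 b hb))] at e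
    rw [R.inj _ _ (R.ok_mul _ _ (ox _ (m1 a)) (oy _ (m2 a ha))) (R.ok_mul _ _ (ox _ (m1 b)) (oy _ (m2 b hb))) e]
  have env : ∀ l, c l < T.nq * T.np ∧ val (c l) = E l := fun l => by
    by_cases h1 : l < L
    · refine ⟨(hl l h1).1, ?_⟩
      simp only [val]
      rw [← R.val_mul _ _ (ox _ (m1 _)) (oy _ (m2 _ (hl l h1).1)), (hl l h1).2, (h l).2]
    · rw [hc l (not_lt.1 h1), hL l (not_lt.1 h1)]; exact ⟨Nat.mul_pos q0 p0, v0⟩
  let K : Subgroup G :=
    { carrier := {g | ∃ a, a < T.nq * T.np ∧ val a = g}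
      mul_mem' := by
        rintro _ _ ⟨a, ha, rfl⟩ ⟨b, hb, rfl⟩
        exact ⟨_, key a ha b hb⟩
      one_mem' := ⟨0, Nat.mul_pos q0 p0, v0⟩
      inv_mem' := by
        rintro _ ⟨a, ha, rfl⟩
        exact ⟨_, (hi a ha).1, vi a ha⟩ }
  have hK : gp E (sgl L) ≤ K := gp_sgl_le fun l _ => ⟨_, env l⟩
  have le : T.nq ≤ T.nq * T.np := Nat.le_mul_of_pos_right _ p0
  refine ⟨{g | ∃ a, a < T.nq ∧ val a = g},
    { ok a := a < T.nq * T.np
      val := val
      dom d a := a < Nat.rec (motive := fun _ => ℕ) (T.nq * T.np) (fun _ _ => T.nq) d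
      ok_mul a b ha hb := (key a ha b hb).1
      val_mul a b ha hb := (key a ha b hb).2
      ok_inv a ha := (hi a ha).1
      val_inv := vi
      ok_one := Nat.mul_pos q0 p0
      val_one := v0
      inj := inj
      all_iff d p := by cases d <;> exact allLt_iff
      dom_ok d a ha := by
        cases d
        · exact ha
        · exact lt_of_lt_of_le ha le
      mem d g := by
        cases d
        · exact ⟨fun hg => hK hg, fun ⟨a, ha, e⟩ => e ▸ vm a ha⟩
        · exact Iff.rfl }, env, fun _ => Iff.rfl, vm,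
      fun _ ⟨a, ha, e⟩ => e ▸ vm a (lt_of_lt_of_le ha le), ?_⟩
  have : Finite K := Set.Finite.subset ((Set.finite_lt_nat (T.nq * T.np)).image val) fun _ h => h
  have : Finite (gp E (sgl L)) := Finite.of_injective _ (Subgroup.inclusion_injective hK)
  simpa using Nat.card_le_card_of_injective (fun a : Fin (T.nq * T.np) => (⟨val a, vm a a.2⟩ : gp E (sgl L)))
    fun a b e => Fin.ext (inj _ _ a.2 b.2 (congrArg Subtype.val e))

end TC2

end Cfsg.Agent.H28
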