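import Mathlib

set_option autoImplicit false

namespace Cfsg.Agent.H28.Sr

open Finset

variable {V : Type*} [DecidableEq V]

/-- The abstract second-subconstituent data. -/
structure Ab (X : Finset V) (n : V → V → ℤ) : Prop where
  card : X.card = 60
  sym : ∀ B ∈ X, ∀ C ∈ X, n B C = n C B
  self : ∀ B ∈ X, n B B = 4
  md : ∀ B ∈ X, ∀ C ∈ X, n B C % 3 = 1
  ip : ∀ B ∈ X, ∀ C ∈ X, ∑ D ∈ X, n B D * n C D = 48 * n B C
  sm : ∀ B ∈ X, ∑ D ∈ X, n B D = 0

/-- functions in the span -/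
def Wf (X : Finset V) (n : V → V → ℤ) (g : V → ℤ) : Prop :=
  (∀ C ∈ X, ∑ D ∈ X, g D * n C D = 48 * g C) ∧ ∑ D ∈ X, g D = 0

def Ov (X : Finset V) (n : V → V → ℤ) (S : Finset V) : Prop :=
  S ⊆ X ∧ S.card = 20 ∧ ∀ B ∈ S, ∀ C ∈ S, n B C ≠ -2

theorem sum_ind (X : Finset V) (p : V → Prop) [DecidablePred p] (c : ℤ) :
    ∑ D ∈ X, (if p D then c else 0) = c * (X.filter p).card := by
  rw [← Finset.sum_filter]; simp [mul_comm]

namespace Ab

variable {X : Finset V} {n : V → V → ℤ} (h : Ab X n)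
include h

theorem bound {g : V → ℤ} (hg : Wf X n g) (h2 : ∑ D ∈ X, g D * g D = 192) {B : V} (hB : B ∈ X) :
    -4 ≤ g B ∧ g B ≤ 4 ∧ (g B = 4 → ∀ C ∈ X, g C = n B C) := by
  have e1 : ∑ D ∈ X, (g D - n B D) ^ 2 = 384 - 96 * g B := by
    have : ∀ D, (g D - n B D) ^ 2 = g D * g D - 2 * (g D * n B D) + n B D * n B D := fun D => by ring
    simp only [this, Finset.sum_add_distrib, Finset.sum_sub_distrib, ← Finset.mul_sum]
    rw [h2, hg.1 B hB, h.ip B hB B hB, h.self B hB]; ring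
  have e2 : ∑ D ∈ X, (g D + n B D) ^ 2 = 384 + 96 * g B := by
    have : ∀ D, (g D + n B D) ^ 2 = g D * g D + 2 * (g D * n B D) + n B D * n B D := fun D => by ring
    simp only [this, Finset.sum_add_distrib, ← Finset.mul_sum]
    rw [h2, hg.1 B hB, h.ip B hB B hB, h.self B hB]; ring
  have p1 : 0 ≤ ∑ D ∈ X, (g D - n B D) ^ 2 := Finset.sum_nonneg fun _ _ => sq_nonneg _
  have p2 : 0 ≤ ∑ D ∈ X, (g D + n B D) ^ 2 := Finset.sum_nonneg fun _ _ => sq_nonneg _
  refine ⟨by omega, by omega, fun h4 C hC => ?_⟩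
  have e0 : ∑ D ∈ X, (g D - n B D) ^ 2 = 0 := by rw [e1, h4]; rfl
  have := (Finset.sum_eq_zero_iff_of_nonneg fun _ _ => sq_nonneg _).1 e0 C hC
  have := pow_eq_zero_iff (two_ne_zero) |>.1 this
  omega

theorem wf {B : V} (hB : B ∈ X) : Wf X n (n B) := ⟨fun C hC => h.ip B hB C hC, h.sm B hB⟩

theorem nrm {B : V} (hB : B ∈ X) : ∑ D ∈ X, n B D * n B D = 192 := by
  rw [h.ip B hB B hB, h.self B hB]; rfl

theorem vals {B C : V} (hB : B ∈ X) (hC : C ∈ X) : n B C = 4 ∨ n B C = 1 ∨ n B C = -2 := by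
  have := h.bound (h.wf hB) (h.nrm hB) hC
  have := h.md B hB C hC
  omega

theorem cls {B C D : V} (hB : B ∈ X) (hC : C ∈ X) (hD : D ∈ X) (h4 : n B C = 4) : n B D = n C D :=
  (h.bound (h.wf hB) (h.nrm hB) hC).2.2 h4 D hD

theorem cls' {B C D : V} (hB : B ∈ X) (hC : C ∈ X) (hD : D ∈ X) (h4 : n B C = 4) : n D B = n D C := by
  rw [h.sym D hD B hB, h.sym D hD C hC, h.cls hB hC hD h4]

theorem cnt4' {g : V → ℤ} (hg : Wf X n g) (h2 : ∑ D ∈ X, g D * g D = 192)
    (hm : ∀ C ∈ X, g C % 3 = 1) : (X.filter fun D => g D = 4).card = 4 := by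
  have e1 : ∑ D ∈ X, (g D * g D + g D - 2) = 72 := by
    simp only [Finset.sum_add_distrib, Finset.sum_sub_distrib]
    rw [h2, hg.2]; simp [h.card]
  have e2 : ∑ D ∈ X, (g D * g D + g D - 2) = ∑ D ∈ X, (if g D = 4 then (18 : ℤ) else 0) := by
    refine Finset.sum_congr rfl fun D hD => ?_
    have := h.bound hg h2 hD
    have := hm D hD
    have : g D = 4 ∨ g D = 1 ∨ g D = -2 := by omega
    rcases this with e | e | e <;> simp [e]
  rw [sum_ind] at e2
  omega

theorem cnt4 {B : V} (hB : B ∈ X) : (X.filter fun D => n B D = 4).card = 4 :=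
  h.cnt4' (h.wf hB) (h.nrm hB) (h.md B hB)

theorem cnt1 {B : V} (hB : B ∈ X) : (X.filter fun D => n B D = 1).card = 32 := by
  have e1 : ∑ D ∈ X, (n B D * n B D - 2 * n B D - 8) = -288 := by
    simp only [Finset.sum_sub_distrib, ← Finset.mul_sum]
    rw [h.nrm hB, h.sm B hB]; simp [h.card]
  have e2 : ∑ D ∈ X, (n B D * n B D - 2 * n B D - 8) = ∑ D ∈ X, (if n B D = 1 then (-9 : ℤ) else 0) := by
    refine Finset.sum_congr rfl fun D hD => ?_
    rcases h.vals hB hD with e | e | e <;> simp [e]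
  rw [sum_ind] at e2
  omega

theorem tri {a b c : V} (ha : a ∈ X) (hb : b ∈ X) (hc : c ∈ X) (h1 : n a b = -2) (h2 : n a c = -2)
    (h3 : n b c = -2) {D : V} (hD : D ∈ X) : n a D + n b D + n c D = 0 := by
  have e1 : ∑ D ∈ X, (n a D + n b D + n c D) ^ 2 = 0 := by
    have : ∀ D, (n a D + n b D + n c D) ^ 2 = n a D * n a D + n b D * n b D + n c D * n c D +
        2 * (n a D * n b D) + 2 * (n a D * n c D) + 2 * (n b D * n c D) := fun D => by ring
    simp only [this, Finset.sum_add_distrib, ← Finset.mul_sum]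
    rw [h.nrm ha, h.nrm hb, h.nrm hc, h.ip a ha b hb, h.ip a ha c hc, h.ip b hb c hc, h1, h2, h3]; rfl
  have := (Finset.sum_eq_zero_iff_of_nonneg fun _ _ => sq_nonneg _).1 e1 D hD
  exact pow_eq_zero_iff (two_ne_zero) |>.1 this

theorem cntT {K q : V} (hK : K ∈ X) (hq : q ∈ X) (h1 : n K q = 1) :
    (X.filter fun D => n K D = -2 ∧ n q D = -2).card = 12 := by
  have e1 : ∑ D ∈ X, (n K D * n q D - n K D - n q D + 1) = 108 := by
    simp only [Finset.sum_add_distrib, Finset.sum_sub_distrib]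
    rw [h.ip K hK q hq, h.sm K hK, h.sm q hq, h1]; simp [h.card]
  have e2 : ∑ D ∈ X, (n K D * n q D - n K D - n q D + 1) =
      ∑ D ∈ X, (if n K D = -2 ∧ n q D = -2 then (9 : ℤ) else 0) := by
    refine Finset.sum_congr rfl fun D hD => ?_
    have a1 := fun e => h.cls' hK hD hq e
    have a2 := fun e => h.cls' hq hD hK e
    have a3 := h.sym K hK q hq
    rcases h.vals hK hD with e | e | e <;> rcases h.vals hq hD with e' | e' | e' <;>
      simp [e, e'] <;> omega
  rw [sum_ind] at e2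
  omega

theorem cntE {K q : V} (hK : K ∈ X) (hq : q ∈ X) (h1 : n K q = 1) :
    (X.filter fun D => n K D ≠ -2 ∧ n q D ≠ -2).card = 24 := by
  have e1 : ∑ D ∈ X, (n K D * n q D + 2 * n K D + 2 * n q D + 4) = 288 := by
    simp only [Finset.sum_add_distrib, ← Finset.mul_sum]
    rw [h.ip K hK q hq, h.sm K hK, h.sm q hq, h1]; simp [h.card]
  have e2 : ∑ D ∈ X, (n K D * n q D + 2 * n K D + 2 * n q D + 4) =
      ∑ D ∈ X, ((if n K D ≠ -2 ∧ n q D ≠ -2 then (9 : ℤ) else 0) +
        (if n K D = 4 then (9 : ℤ) else 0) + (if n q D = 4 then (9 : ℤ) else 0)) := by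
    refine Finset.sum_congr rfl fun D hD => ?_
    have a1 := fun e => h.cls' hK hD hq e
    have a2 := fun e => h.cls' hq hD hK e
    have a3 := h.sym K hK q hq
    rcases h.vals hK hD with e | e | e <;> rcases h.vals hq hD with e' | e' | e' <;>
      simp [e, e'] <;> omega
  simp only [Finset.sum_add_distrib] at e2
  rw [sum_ind, sum_ind, sum_ind, h.cnt4 hK, h.cnt4 hq] at e2
  simp only [Finset.sum_add_distrib] at e1
  omega

theorem third {K q : V} (hK : K ∈ X) (hq : q ∈ X) (h1 : n K q = 1) :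
    ∃ r ∈ X, n r K = 1 ∧ n r q = 1 ∧ ∀ v ∈ X, n K v = 1 → n q v = 1 → n r v = 4 ∨ n r v = -2 := by
  have hT := h.cntT hK hq h1
  have h1' : n q K = 1 := by rw [h.sym q hq K hK, h1]
  have pick : ∀ a ∈ X, ∀ b ∈ X, ∃ c ∈ X, n K c = -2 ∧ n q c = -2 ∧ n a c ≠ 4 ∧ n b c ≠ 4 := by
    intro a ha b hb
    by_contra hc
    push Not at hc
    have : (X.filter fun D => n K D = -2 ∧ n q D = -2) ⊆
        (X.filter fun D => n a D = 4) ∪ (X.filter fun D => n b D = 4) := by
      intro c hc'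
      simp only [mem_filter, mem_union] at hc' ⊢
      by_cases e : n a c = 4
      · exact Or.inl ⟨hc'.1, e⟩
      · exact Or.inr ⟨hc'.1, hc c hc'.1 hc'.2.1 hc'.2.2 e⟩
    have h3 := (card_le_card this).trans (card_union_le _ _)
    rw [hT, h.cnt4 ha, h.cnt4 hb] at h3
    omega
  have pr : ∀ a ∈ X, ∀ b ∈ X, n K a = -2 → n q a = -2 → n K b = -2 → n q b = -2 → n a b ≠ 4 →
      n a b = 1 := by
    intro a ha b hb e1 e2 e3 e4 e5
    rcases h.vals ha hb with e | e | e
    · exact absurd e e5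
    · exact e
    · have t1 := h.tri hK ha hb e1 e3 e hK
      have t2 := h.tri hq ha hb e2 e4 e hK
      have := h.self K hK
      omega
  obtain ⟨a, ha, a1, a2, -, -⟩ := pick K hK K hK
  obtain ⟨b, hb, b1, b2, b3, -⟩ := pick a ha a ha
  obtain ⟨c, hc, c1, c2, c3, c4⟩ := pick a ha b hb
  have ab := pr a ha b hb a1 a2 b1 b2 b3
  have ac := pr a ha c hc a1 a2 c1 c2 c3
  have bc := pr b hb c hc b1 b2 c1 c2 c4
  have s1 := h.sym K hK a ha
  have s2 := h.sym K hK b hb
  have s3 := h.sym K hK c hc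
  have s4 := h.sym q hq a ha
  have s5 := h.sym q hq b hb
  have s6 := h.sym q hq c hc
  have s7 := h.sym a ha b hb
  have s8 := h.sym a ha c hc
  have s9 := h.sym b hb c hc
  have d1 := h.self K hK
  have d2 := h.self q hq
  have d3 := h.self a ha
  have d4 := h.self b hb
  have d5 := h.self c hc
  set u : V → ℤ := fun D => -(n K D + n q D + n a D + n b D + n c D) with hu
  have wu : Wf X n u := by
    constructor
    · intro C hC
      have : ∀ D, u D * n C D = -(n K D * n C D + n q D * n C D + n a D * n C D + n b D * n C D +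
          n c D * n C D) := fun D => by simp only [hu]; ring
      simp only [this, Finset.sum_add_distrib, Finset.sum_neg_distrib]
      rw [h.ip K hK C hC, h.ip q hq C hC, h.ip a ha C hC, h.ip b hb C hC, h.ip c hc C hC]
      simp only [hu]; ring
    · simp only [hu, Finset.sum_add_distrib, Finset.sum_neg_distrib]
      rw [h.sm K hK, h.sm q hq, h.sm a ha, h.sm b hb, h.sm c hc]; rfl
  have nu : ∑ D ∈ X, u D * u D = 192 := by
    have : ∀ D, u D * u D = -(u D * n K D + u D * n q D + u D * n a D + u D * n b D +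
        u D * n c D) := fun D => by simp only [hu]; ring
    simp only [this, Finset.sum_add_distrib, Finset.sum_neg_distrib]
    rw [wu.1 K hK, wu.1 q hq, wu.1 a ha, wu.1 b hb, wu.1 c hc]
    simp only [hu]; omega
  have mu : ∀ C ∈ X, u C % 3 = 1 := by
    intro C hC
    have := h.md K hK C hC
    have := h.md q hq C hC
    have := h.md a ha C hC
    have := h.md b hb C hC
    have := h.md c hc C hC
    simp only [hu]; omega
  have c4' := h.cnt4' wu nu mu
  obtain ⟨r, hr⟩ : (X.filter fun D => u D = 4).Nonempty := by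
    rw [← card_pos, c4']; norm_num
  rw [mem_filter] at hr
  obtain ⟨hr, hr4⟩ := hr
  have ur := (h.bound wu nu hr).2.2 hr4
  have rK : n r K = 1 := by rw [← ur K hK]; simp only [hu]; omega
  have rq : n r q = 1 := by rw [← ur q hq]; simp only [hu]; omega
  have ra : n r a = -2 := by rw [← ur a ha]; simp only [hu]; omega
  have rb : n r b = -2 := by rw [← ur b hb]; simp only [hu]; omega
  have rc : n r c = -2 := by rw [← ur c hc]; simp only [hu]; omega
  have s10 := h.sym K hK r hr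
  have s11 := h.sym q hq r hr
  have d6 := h.self r hr
  refine ⟨r, hr, rK, rq, ?_⟩
  have e1 : ∑ D ∈ X, ((n K D + n q D + n r D) ^ 2 - ((if n K D = 4 then (36 : ℤ) else 0) +
      (if n q D = 4 then (36 : ℤ) else 0) + (if n r D = 4 then (36 : ℤ) else 0) +
      (if n a D = 4 then (36 : ℤ) else 0) + (if n b D = 4 then (36 : ℤ) else 0) +
      (if n c D = 4 then (36 : ℤ) else 0))) = 0 := by
    have : ∀ D, (n K D + n q D + n r D) ^ 2 = n K D * n K D + n q D * n q D + n r D * n r D +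
        2 * (n K D * n q D) + 2 * (n K D * n r D) + 2 * (n q D * n r D) := fun D => by ring
    simp only [this, Finset.sum_add_distrib, Finset.sum_sub_distrib, ← Finset.mul_sum, sum_ind]
    rw [h.nrm hK, h.nrm hq, h.nrm hr, h.ip K hK q hq, h.ip K hK r hr, h.ip q hq r hr,
      h.cnt4 hK, h.cnt4 hq, h.cnt4 hr, h.cnt4 ha, h.cnt4 hb, h.cnt4 hc]
    omega
  have cl : ∀ D ∈ X, ∀ y ∈ X, n y D = 4 → n K D = n K y ∧ n q D = n q y ∧ n r D = n r y ∧
      n a D = n a y ∧ n b D = n b y ∧ n c D = n c y := fun D hD y hy e =>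
    ⟨(h.cls' hy hD hK e).symm, (h.cls' hy hD hq e).symm, (h.cls' hy hD hr e).symm,
      (h.cls' hy hD ha e).symm, (h.cls' hy hD hb e).symm, (h.cls' hy hD hc e).symm⟩
  have s12 := h.sym a ha r hr
  have s13 := h.sym b hb r hr
  have s14 := h.sym c hc r hr
  have e2 := (Finset.sum_eq_zero_iff_of_nonneg (fun D hD => ?_)).1 e1
  · intro v hv e3 e4
    have e5 := e2 v hv
    rcases h.vals hr hv with e | e | e
    · exact Or.inl e
    · exfalso
      have k1 : n a v ≠ 4 := fun e' => by have := cl v hv a ha e'; omega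
      have k2 : n b v ≠ 4 := fun e' => by have := cl v hv b hb e'; omega
      have k3 : n c v ≠ 4 := fun e' => by have := cl v hv c hc e'; omega
      simp [e, e3, e4, k1, k2, k3] at e5
    · exact Or.inr e
  · by_cases k1 : n K D = 4
    · obtain ⟨-, z2, z3, z4, z5, z6⟩ := cl D hD K hK k1
      rw [k1, z2, z3, z4, z5, z6, h1', rK, ← s1, ← s2, ← s3, a1, b1, c1]; norm_num
    by_cases k2 : n q D = 4
    · obtain ⟨z1, -, z3, z4, z5, z6⟩ := cl D hD q hq k2
      rw [k2, z1, z3, z4, z5, z6, h1, rq, ← s4, ← s5, ← s6, a2, b2, c2]; norm_num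
    by_cases k3 : n r D = 4
    · obtain ⟨z1, z2, -, z4, z5, z6⟩ := cl D hD r hr k3
      rw [k3, z1, z2, z4, z5, z6, s10, s11, s12, s13, s14, rK, rq, ra, rb, rc]; norm_num
    by_cases k4 : n a D = 4
    · obtain ⟨z1, z2, z3, -, z5, z6⟩ := cl D hD a ha k4
      rw [k4, z1, z2, z3, z5, z6, a1, a2, ra, ← s7, ← s8, ab, ac]; norm_num
    by_cases k5 : n b D = 4
    · obtain ⟨z1, z2, z3, z4, -, z6⟩ := cl D hD b hb k5
      rw [k5, z1, z2, z3, z4, z6, b1, b2, rb, ← s9, ab, bc]; norm_num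
    by_cases k6 : n c D = 4
    · obtain ⟨z1, z2, z3, z4, z5, -⟩ := cl D hD c hc k6
      rw [k6, z1, z2, z3, z4, z5, c1, c2, rc, ac, bc]; norm_num
    simp only [k1, k2, k3, k4, k5, k6, if_false]
    have := sq_nonneg (n K D + n q D + n r D)
    omega

theorem uniq {K q : V} (hK : K ∈ X) (hq : q ∈ X) (h1 : n K q = 1) :
    ∃ S0, (Ov X n S0 ∧ K ∈ S0 ∧ q ∈ S0 ∧ ∀ C ∈ X, n K C = 4 → C ∈ S0) ∧
      ∀ S, Ov X n S → K ∈ S → q ∈ S → S = S0 := by
  obtain ⟨r, hr, rK, rq, h3⟩ := h.third hK hq h1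
  have h1' : n q K = 1 := by rw [h.sym q hq K hK, h1]
  have s10 := h.sym K hK r hr
  have s11 := h.sym q hq r hr
  have d1 := h.self K hK
  have d2 := h.self q hq
  have hc : (X.filter fun D => (n K D ≠ -2 ∧ n q D ≠ -2) ∧ n r D ≠ 4).card = 20 := by
    have e1 := card_filter_add_card_filter_not (s := X.filter fun D => n K D ≠ -2 ∧ n q D ≠ -2)
      (fun D => n r D = 4)
    rw [h.cntE hK hq h1, filter_filter, filter_filter] at e1
    have e2 : (X.filter fun D => (n K D ≠ -2 ∧ n q D ≠ -2) ∧ n r D = 4) =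
        X.filter fun D => n r D = 4 := by
      refine filter_congr fun D hD => ⟨fun z => z.2, fun z => ⟨?_, z⟩⟩
      have := h.cls' hr hD hK z
      have := h.cls' hr hD hq z
      omega
    rw [e2, h.cnt4 hr] at e1
    simp only [ne_eq] at e1 ⊢
    omega
  refine ⟨X.filter fun D => (n K D ≠ -2 ∧ n q D ≠ -2) ∧ n r D ≠ 4, ⟨⟨filter_subset _ _, hc, ?_⟩,
    ?_, ?_, ?_⟩, ?_⟩
  · intro u hu v hv e
    rw [mem_filter] at hu hv
    obtain ⟨hu, ⟨u1, u2⟩, u3⟩ := hu
    obtain ⟨hv, ⟨v1, v2⟩, v3⟩ := hv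
    have k1 : n K u ≠ 4 := fun z => by have := h.cls hK hu hv z; omega
    have k2 : n q u ≠ 4 := fun z => by have := h.cls hq hu hv z; omega
    have suv := h.sym u hu v hv
    have k3 : n K v ≠ 4 := fun z => by have := h.cls hK hv hu z; omega
    have k4 : n q v ≠ 4 := fun z => by have := h.cls hq hv hu z; omega
    have := h.vals hK hu
    have := h.vals hq hu
    have := h.vals hK hv
    have := h.vals hq hv
    have := h3 u hu
    have := h3 v hv
    have t := h.tri hr hu hv (by omega) (by omega) e hK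
    have := h.sym K hK u hu
    have := h.sym K hK v hv
    omega
  · rw [mem_filter]; exact ⟨hK, by omega, by omega⟩
  · rw [mem_filter]; exact ⟨hq, by omega, by omega⟩
  · intro C hC e
    have := h.cls' hK hC hq e
    have := h.cls' hK hC hr e
    rw [mem_filter]; exact ⟨hC, by omega, by omega⟩
  · rintro S ⟨s1, s2, s3⟩ kS qS
    refine eq_of_subset_of_card_le (fun v hv => ?_) (by rw [hc, s2])
    rw [mem_filter]
    refine ⟨s1 hv, ⟨s3 K kS v hv, s3 q qS v hv⟩, fun e => ?_⟩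
    have : S ⊆ ((X.filter fun D => n K D = 4) ∪ (X.filter fun D => n q D = 4)) ∪
        (X.filter fun D => n r D = 4) := by
      intro u hu
      simp only [mem_union, mem_filter, s1 hu, true_and]
      have := h.cls hr (s1 hv) (s1 hu) e
      have := s3 v hv u hu
      have := s3 K kS u hu
      have := s3 q qS u hu
      have := h.vals hK (s1 hu)
      have := h.vals hq (s1 hu)
      have := h3 u (s1 hu)
      omega
    have z := (card_le_card this).trans ((card_union_le _ _).trans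
      (Nat.add_le_add_right (card_union_le _ _) _))
    rw [h.cnt4 hK, h.cnt4 hq, h.cnt4 hr, s2] at z
    omega

theorem c16 {S : Finset V} (hS : Ov X n S) {B : V} (hB : B ∈ S) :
    (S.filter fun C => n B C = 1).card = 16 := by
  have hBX := hS.1 hB
  have e1 := card_filter_add_card_filter_not (s := S) (fun C => n B C = 1)
  have e2 : (S.filter fun C => ¬ n B C = 1) ⊆ X.filter fun C => n B C = 4 := by
    intro C hC
    rw [mem_filter] at hC ⊢
    have := h.vals hBX (hS.1 hC.1)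
    have := hS.2.2 B hB C hC.1
    have := hC.2
    exact ⟨hS.1 hC.1, by omega⟩
  have e3 := card_le_card e2
  rw [h.cnt4 hBX] at e3
  rw [hS.2.1] at e1
  obtain ⟨q, hq⟩ : (S.filter fun C => n B C = 1).Nonempty := by rw [← card_pos]; omega
  rw [mem_filter] at hq
  obtain ⟨S0, ⟨-, -, -, z⟩, hu⟩ := h.uniq hBX (hS.1 hq.1) hq.2
  have e4 := hu S hS hB hq.1
  have e5 : (X.filter fun C => n B C = 4) ⊆ S.filter fun C => ¬ n B C = 1 := by
    intro C hC
    rw [mem_filter] at hC ⊢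
    exact ⟨e4 ▸ z C hC.1 hC.2, by omega⟩
  have e6 := card_le_card e5
  rw [h.cnt4 hBX] at e6
  omega

open Classical in
theorem two {B : V} (hB : B ∈ X) : (X.powerset.filter fun S => Ov X n S ∧ B ∈ S).card = 2 := by
  have := card_mul_eq_card_mul (s := X.powerset.filter fun S => Ov X n S ∧ B ∈ S)
    (t := X.filter fun D => n B D = 1) (fun S q => q ∈ S) (m := 16) (n := 1) ?_ ?_
  · rw [h.cnt1 hB] at this; omega
  · intro S hS
    rw [mem_filter] at hS
    rw [← h.c16 hS.2.1 hS.2.2]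
    congr 1
    ext C
    simp only [bipartiteAbove, mem_filter]
    exact ⟨fun z => ⟨z.2, z.1.2⟩, fun z => ⟨⟨hS.2.1.1 z.1, z.2⟩, z.1⟩⟩
  · intro q hq
    rw [mem_filter] at hq
    obtain ⟨S0, ⟨o, k1, k2, -⟩, hu⟩ := h.uniq hB hq.1 hq.2
    rw [card_eq_one]
    refine ⟨S0, ?_⟩
    ext S
    simp only [bipartiteBelow, mem_filter, mem_powerset, mem_singleton]
    exact ⟨fun z => hu S z.1.2.1 z.1.2.2 z.2, fun z => z ▸ ⟨⟨o.1, o, k1⟩, k2⟩⟩

end Ab

end Cfsg.Agent.H28.Sr
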