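import Cfsg.Agent.H28.Sr1
import Cfsg.Agent.S0410

set_option autoImplicit false

namespace Cfsg.Agent.H28.Sr

open Finset

variable {V : Type*} [Fintype V] [DecidableEq V]

structure SA (a : V → V → ℤ) : Prop where
  card : Fintype.card V = 77
  sym : ∀ u v, a u v = a v u
  a01 : ∀ u v, a u v = 0 ∨ a u v = 1
  diag : ∀ v, a v v = 0
  row : ∀ u, ∑ v, a u v = 16
  sq : ∀ u v, ∑ w, a u w * a w v = (if u = v then 12 else 0) - 4 * a u v + 4

def far (a : V → V → ℤ) (x : V) : Finset V := univ.filter fun B => B ≠ x ∧ a x B = 0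

def zz (a : V → V → ℤ) (x B w : V) : ℤ :=
  (if w = B then 6 else 0) - (if w = x then 2 else 0) - a x w + 3 * (a x w * a w B)

def ff (a : V → V → ℤ) (x B v : V) : ℤ := 2 * zz a x B v - ∑ w, a v w * zz a x B w

def Uf (a : V → V → ℤ) (f : V → ℤ) : Prop := ∀ v, ∑ w, a v w * f w = -6 * f v

def IsPt (a : V → V → ℤ) (C : Finset V) : Prop := C.card = 21 ∧ ∀ u ∈ C, ∀ v ∈ C, a u v = 0

theorem mem_far {a : V → V → ℤ} {x B : V} : B ∈ far a x ↔ B ≠ x ∧ a x B = 0 := by simp [far]

namespace SA

variable {a : V → V → ℤ} (h : SA a)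
include h

theorem sqv (z : V → ℤ) (v : V) : ∑ w, a v w * ∑ u, a w u * z u =
    12 * z v - 4 * ∑ u, a v u * z u + 4 * ∑ u, z u := by
  simp only [Finset.mul_sum]
  rw [Finset.sum_comm]
  have : ∀ u, ∑ w, a v w * (a w u * z u) = (if v = u then 12 * z u else 0) - 4 * (a v u * z u) + 4 * z u := by
    intro u
    have : ∑ w, a v w * (a w u * z u) = (∑ w, a v w * a w u) * z u := by
      rw [Finset.sum_mul]; exact Finset.sum_congr rfl fun _ _ => by ring
    rw [this, h.sq]; split_ifs <;> ring
  simp only [this, Finset.sum_add_distrib, Finset.sum_sub_distrib, Finset.sum_ite_eq, mem_univ, if_true]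

theorem swap (f z : V → ℤ) : ∑ v, f v * ∑ w, a v w * z w = ∑ w, z w * ∑ v, a w v * f v := by
  simp only [Finset.mul_sum]
  rw [Finset.sum_comm]
  exact Finset.sum_congr rfl fun w _ => Finset.sum_congr rfl fun v _ => by rw [h.sym v w]; ring

theorem uf_M {z : V → ℤ} (hz : ∑ w, z w = 0) : Uf a fun v => 2 * z v - ∑ w, a v w * z w := by
  intro v
  have : ∀ w, a v w * (2 * z w - ∑ u, a w u * z u) = 2 * (a v w * z w) - a v w * ∑ u, a w u * z u :=
    fun w => by ring
  simp only [this, Finset.sum_sub_distrib, ← Finset.mul_sum]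
  rw [h.sqv, hz]; ring

theorem uf_ip {f : V → ℤ} (hf : Uf a f) (z : V → ℤ) :
    ∑ v, f v * (2 * z v - ∑ w, a v w * z w) = 8 * ∑ v, f v * z v := by
  have : ∀ v, f v * (2 * z v - ∑ w, a v w * z w) = 2 * (f v * z v) - f v * ∑ w, a v w * z w :=
    fun w => by ring
  simp only [this, Finset.sum_sub_distrib, ← Finset.mul_sum]
  rw [h.swap]
  have : ∀ w, z w * ∑ v, a w v * f v = -6 * (f w * z w) := fun w => by rw [hf]; ring
  simp only [this, ← Finset.mul_sum]; ring

theorem uf_sum {f : V → ℤ} (hf : Uf a f) : ∑ v, f v = 0 := by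
  have e := h.swap (fun _ => 1) f
  simp only [one_mul, mul_one, h.row, hf _] at e
  rw [← Finset.mul_sum, ← Finset.sum_mul] at e
  omega

theorem zsum {x B : V} (hB : B ∈ far a x) : ∑ w, zz a x B w = 0 := by
  rw [mem_far] at hB
  simp only [zz, Finset.sum_add_distrib, Finset.sum_sub_distrib, ← Finset.mul_sum,
    Finset.sum_ite_eq', mem_univ, if_true, h.row, h.sq, hB.2, if_neg hB.1.symm]
  norm_num

theorem uf_ff {x B : V} (hB : B ∈ far a x) : Uf a (ff a x B) := h.uf_M (h.zsum hB)

theorem ff_eq (x B v : V) : ff a x B v = (if v = B then 12 else 0) + (if v = x then 8 else 0)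
    - 4 * a x v + 6 * (a x v * a v B) - 6 * a v B + 4 - 3 * ∑ w, a x w * a v w * a w B := by
  have : ∀ w, a v w * zz a x B w = (if w = B then 6 * a v w else 0) - (if w = x then 2 * a v w else 0)
      - a v w * a w x + 3 * (a x w * a v w * a w B) := by
    intro w; simp only [zz]; rw [h.sym x w]; split_ifs <;> ring
  simp only [ff, this, Finset.sum_add_distrib, Finset.sum_sub_distrib, ← Finset.mul_sum,
    Finset.sum_ite_eq', mem_univ, if_true, h.sq]
  simp only [zz]
  rw [h.sym v x]
  split_ifs <;> ring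

theorem aa (u v : V) : a u v * a u v = a u v := by rcases h.a01 u v with e | e <;> simp [e]

theorem tri0 {x p : V} (hp : a x p = 1) (w : V) : a x w * a w p = 0 := by
  have e := h.sq x p
  have : x ≠ p := fun z => by rw [z, h.diag] at hp; exact absurd hp (by norm_num)
  rw [if_neg this, hp] at e
  refine (Finset.sum_eq_zero_iff_of_nonneg fun w _ => ?_).1 (by rw [e]; rfl) w (mem_univ _)
  rcases h.a01 x w with e | e <;> rcases h.a01 w p with e' | e' <;> simp [e, e']

theorem ff_x {x B : V} (hB : B ∈ far a x) : ff a x B x = 0 := by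
  rw [mem_far] at hB
  rw [h.ff_eq]
  simp only [h.aa, h.sq, h.diag, hB.2, if_neg hB.1.symm, if_true]
  norm_num

theorem ff_p {x B p : V} (hB : B ∈ far a x) (hp : a x p = 1) : ff a x B p = 0 := by
  rw [mem_far] at hB
  rw [h.ff_eq]
  have e1 : p ≠ B := fun z => by rw [z, hB.2] at hp; exact absurd hp (by norm_num)
  have e2 : p ≠ x := fun z => by rw [z, h.diag] at hp; exact absurd hp (by norm_num)
  have e3 : ∀ w, a x w * a p w * a w B = 0 := fun w => by rw [h.sym p w, h.tri0 hp, zero_mul]
  simp only [e3, if_neg e1, if_neg e2, hp]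
  simp

theorem ff_out {x B v : V} (hB : B ∈ far a x) (hv : v ∉ far a x) : ff a x B v = 0 := by
  by_cases e : v = x
  · rw [e, h.ff_x hB]
  · rcases h.a01 x v with e' | e'
    · exact absurd (mem_far.2 ⟨e, e'⟩) hv
    · exact h.ff_p hB e'

theorem ff_far {x B v : V} (hv : v ∈ far a x) : ff a x B v = (if v = B then 12 else 0)
    - 6 * a v B + 4 - 3 * ∑ w, a x w * a v w * a w B := by
  rw [mem_far] at hv
  rw [h.ff_eq, if_neg hv.1, hv.2]; ring

theorem far_card (x : V) : (far a x).card = 60 := by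
  have e1 : ∑ v, (1 - a x v - if v = x then 1 else 0) = 60 := by
    simp only [Finset.sum_sub_distrib, h.row, Finset.sum_ite_eq', mem_univ, if_true]
    simp [h.card]
  have e2 : ∑ v, (1 - a x v - if v = x then 1 else 0) =
      ∑ v, if v ≠ x ∧ a x v = 0 then (1 : ℤ) else 0 := by
    refine Finset.sum_congr rfl fun v _ => ?_
    by_cases e : v = x
    · simp [e, h.diag]
    · rcases h.a01 x v with e' | e' <;> simp [e, e']
  rw [sum_ind] at e2
  simp only [far]
  omega

theorem ab (x : V) : Ab (far a x) (ff a x) where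
  card := h.far_card x
  sym := by
    intro B hB C hC
    rw [h.ff_far hB, h.ff_far hC, h.sym B C]
    have : ∑ w, a x w * a C w * a w B = ∑ w, a x w * a B w * a w C :=
      Finset.sum_congr rfl fun w _ => by rw [h.sym C w, h.sym B w]; ring
    rw [this]
    by_cases e : B = C
    · simp [e]
    · simp [e, Ne.symm e]
  self := by
    intro B hB
    rw [h.ff_far hB]
    have : ∀ w, a x w * a B w * a w B = a x w * a w B := fun w => by
      rw [h.sym B w, mul_assoc, h.aa]
    rw [mem_far] at hB
    simp only [this, h.sq, h.diag, hB.2, if_neg hB.1.symm, if_true]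
    norm_num
  md := by
    intro B hB C hC
    rw [h.ff_far hC]
    split_ifs <;> omega
  ip := by
    intro B hB C hC
    rw [Finset.sum_subset (subset_univ (far a x)) (fun v _ hv => by rw [h.ff_out hB hv, zero_mul])]
    have e := h.uf_ip (h.uf_ff hB) (zz a x C)
    simp only [← ff.eq_1] at e
    rw [e]
    have : ∀ v, ff a x B v * zz a x C v = if v = C then 6 * ff a x B v else 0 := by
      intro v
      by_cases hv : v ∈ far a x
      · rw [mem_far] at hv
        simp only [zz, hv.2, if_neg hv.1]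
        split_ifs <;> ring
      · rw [h.ff_out hB hv]; simp
    simp only [this, Finset.sum_ite_eq', mem_univ, if_true]; ring
  sm := by
    intro B hB
    rw [Finset.sum_subset (subset_univ (far a x)) (fun v _ hv => h.ff_out hB hv)]
    exact h.uf_sum (h.uf_ff hB)

theorem ff_adj {x B C : V} (hC : C ∈ far a x) (e : a B C = 1) : ff a x B C = -2 := by
  rw [h.ff_far hC]
  have e' : a C B = 1 := by rw [h.sym, e]
  have e1 : C ≠ B := fun z => by rw [z, h.diag] at e; exact absurd e (by norm_num)
  have : ∀ w, a x w * a C w * a w B = 0 := fun w => by rw [mul_assoc, h.tri0 e', mul_zero]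
  simp [this, e1, e']

theorem pt_of {x : V} {S : Finset V} (hS : Ov (far a x) (ff a x) S) : IsPt a (insert x S) := by
  have hx : x ∉ S := fun z => (mem_far.1 (hS.1 z)).1 rfl
  refine ⟨by rw [card_insert_of_notMem hx, hS.2.1], fun u hu v hv => ?_⟩
  rw [mem_insert] at hu hv
  rcases hu with rfl | hu <;> rcases hv with rfl | hv
  · exact h.diag _
  · exact (mem_far.1 (hS.1 hv)).2
  · rw [h.sym]; exact (mem_far.1 (hS.1 hu)).2
  · rcases h.a01 u v with e | e
    · exact e
    · exact absurd (h.ff_adj (hS.1 hv) e) (hS.2.2 u hu v hv)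

theorem hoff {C : Finset V} (hC : IsPt a C) : Uf a fun v => 11 * (if v ∈ C then 1 else 0) - 3 := by
  set c : V → ℤ := fun v => if v ∈ C then 1 else 0 with hc
  have sc : ∑ v, c v = 21 := by simp [hc, hC.1]
  have cc : ∀ v, c v * c v = c v := fun v => by simp only [hc]; split_ifs <;> rfl
  have cd : ∀ v, c v * ∑ w, a v w * c w = 0 := by
    intro v
    rw [Finset.mul_sum]
    refine Finset.sum_eq_zero fun w _ => ?_
    simp only [hc]
    split_ifs with e1 e2
    · simp [hC.2 v e1 w e2]
    all_goals simp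
  have sd : ∑ v, ∑ w, a v w * c w = 336 := by
    have e := h.swap (fun _ => 1) c
    simp only [one_mul, mul_one, h.row] at e
    rw [e, ← Finset.sum_mul, sc]; rfl
  have sd2 : ∑ v, (∑ w, a v w * c w) * (∑ w, a v w * c w) = 2016 := by
    rw [h.swap]
    simp only [h.sqv, sc]
    have : ∀ w, c w * (12 * c w - 4 * ∑ u, a w u * c u + 4 * 21) = 96 * c w := fun w => by
      have := cc w
      have := cd w
      linear_combination 12 * cc w - 4 * cd w
    simp only [this, ← Finset.mul_sum, sc]; rfl
  have e0 : ∑ v, ((∑ w, a v w * c w) - 6 * (1 - c v)) ^ 2 = 0 := by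
    have : ∀ v, ((∑ w, a v w * c w) - 6 * (1 - c v)) ^ 2 =
        (∑ w, a v w * c w) * (∑ w, a v w * c w) - 12 * (∑ w, a v w * c w) + 36 - 36 * c v := fun v => by
      linear_combination 12 * cd v + 36 * cc v
    simp only [this, Finset.sum_add_distrib, Finset.sum_sub_distrib, ← Finset.mul_sum, sd, sd2, sc]
    simp [h.card]
  intro v
  have e1 := (Finset.sum_eq_zero_iff_of_nonneg fun _ _ => sq_nonneg _).1 e0 v (mem_univ _)
  have e2 := pow_eq_zero_iff (two_ne_zero) |>.1 e1
  have : ∀ w, a v w * (11 * c w - 3) = 11 * (a v w * c w) - 3 * a v w := fun w => by ring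
  show ∑ w, a v w * (11 * c w - 3) = -6 * (11 * c v - 3)
  simp only [this, Finset.sum_sub_distrib, ← Finset.mul_sum, h.row]
  linear_combination 11 * e2

theorem ov_of {x : V} {C : Finset V} (hC : IsPt a C) (hx : x ∈ C) :
    Ov (far a x) (ff a x) (C.erase x) := by
  have sub : C.erase x ⊆ far a x := fun v hv => by
    rw [mem_erase] at hv
    exact mem_far.2 ⟨hv.1, hC.2 x hx v hv.2⟩
  have c20 : (C.erase x).card = 20 := by rw [card_erase_of_mem hx, hC.1]
  refine ⟨sub, c20, fun B hB => ?_⟩
  have hBf := sub hB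
  have e := h.uf_ip (h.hoff hC) (zz a x B)
  simp only [← ff.eq_1] at e
  have t1 : ∀ f : V → ℤ, ∑ v, (11 * (if v ∈ C then 1 else 0) - 3) * f v =
      11 * ∑ v ∈ C, f v - 3 * ∑ v, f v := by
    intro f
    have : ∀ v, (11 * (if v ∈ C then 1 else 0) - 3) * f v =
        11 * (if v ∈ C then f v else 0) - 3 * f v := fun v => by split_ifs <;> ring
    simp only [this, Finset.sum_sub_distrib, ← Finset.mul_sum]
    simp
  rw [t1, t1, h.uf_sum (h.uf_ff hBf), h.zsum hBf] at e
  have t2 : ∑ v ∈ C, zz a x B v = 4 := by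
    have : ∀ v ∈ C, zz a x B v = (if v = B then 6 else 0) - (if v = x then 2 else 0) := by
      intro v hv
      simp [zz, hC.2 x hx v hv]
    rw [Finset.sum_congr rfl this, Finset.sum_sub_distrib, Finset.sum_ite_eq', Finset.sum_ite_eq',
      if_pos hx, if_pos (mem_of_mem_erase hB)]
    rfl
  have t3 : ∑ v ∈ C.erase x, ff a x B v = 32 := by
    have := Finset.add_sum_erase C (ff a x B) hx
    rw [h.ff_x hBf] at this
    omega
  have t4 : ∑ v ∈ C.erase x, ff a x B v = ∑ v ∈ C.erase x, (1 + (if ff a x B v = 4 then (3 : ℤ) else 0)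
      - (if ff a x B v = -2 then (3 : ℤ) else 0)) := by
    refine Finset.sum_congr rfl fun v hv => ?_
    rcases (h.ab x).vals hBf (sub hv) with z | z | z <;> simp [z]
  simp only [Finset.sum_add_distrib, Finset.sum_sub_distrib, sum_ind, Finset.sum_const, c20] at t4
  have t5 := card_le_card (filter_subset_filter (fun v => ff a x B v = 4) sub)
  rw [(h.ab x).cnt4 hBf] at t5
  have t6 : ((C.erase x).filter fun v => ff a x B v = -2).card = 0 := by
    simp only [nsmul_eq_mul] at t4
    omega
  rw [card_eq_zero, filter_eq_empty_iff] at t6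
  exact fun v hv => t6 hv

open Classical in
theorem two {x B : V} (hB : B ∈ far a x) :
    (univ.filter fun C : Finset V => IsPt a C ∧ x ∈ C ∧ B ∈ C).card = 2 := by
  rw [← (h.ab x).two hB]
  symm
  refine card_nbij' (fun S => insert x S) (fun C => C.erase x) ?_ ?_ ?_ ?_
  · intro S hS
    simp only [coe_filter, Set.mem_setOf_eq, mem_powerset, mem_univ, true_and] at hS ⊢
    exact ⟨h.pt_of hS.2.1, mem_insert_self _ _, mem_insert_of_mem hS.2.2⟩
  · intro C hC
    simp only [coe_filter, Set.mem_setOf_eq, mem_powerset, mem_univ, true_and] at hC ⊢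
    have := h.ov_of hC.1 hC.2.1
    exact ⟨this.1, this, mem_erase.2 ⟨(mem_far.1 hB).1, hC.2.2⟩⟩
  · intro S hS
    simp only [coe_filter, Set.mem_setOf_eq, mem_powerset] at hS
    exact erase_insert fun z => (mem_far.1 (hS.1 z)).1 rfl
  · intro C hC
    simp only [coe_filter, Set.mem_setOf_eq, mem_univ, true_and] at hC
    exact insert_erase hC.2.1

end SA

end Cfsg.Agent.H28.Sr
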