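import Cfsg.Agent.H28.Sr2

set_option autoImplicit false

namespace Cfsg.Agent.H28.Sr

open Finset

variable {V : Type*} [Fintype V] [DecidableEq V]

abbrev Pt (a : V → V → ℤ) := {C : Finset V // IsPt a C}

open Classical in
noncomputable def bl (a : V → V → ℤ) (v : V) : Finset (Pt a) := univ.filter fun C => v ∈ C.1

theorem mem_bl {a : V → V → ℤ} {v : V} {C : Pt a} : C ∈ bl a v ↔ v ∈ C.1 := by simp [bl]

namespace SA

variable {a : V → V → ℤ} (h : SA a)
include h

open Classical

theorem int2 {x B : V} (hB : B ∈ far a x) : (bl a x ∩ bl a B).card = 2 := by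
  rw [← h.two hB]
  refine card_nbij (fun C => C.1) ?_ ?_ ?_
  · intro C hC
    simp only [coe_inter, Set.mem_inter_iff, mem_coe, mem_bl] at hC
    simp only [coe_filter, Set.mem_setOf_eq, mem_univ, true_and]
    exact ⟨C.2, hC⟩
  · exact fun _ _ _ _ e => Subtype.ext e
  · intro C hC
    simp only [coe_filter, Set.mem_setOf_eq, mem_univ, true_and] at hC
    exact ⟨⟨C, hC.1⟩, by simpa [mem_bl] using hC.2, rfl⟩

omit h in
theorem int0 {x B : V} (hB : a x B = 1) : Disjoint (bl a x) (bl a B) := by
  rw [disjoint_left]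
  intro C h1 h2
  rw [mem_bl] at h1 h2
  have := C.2.2 x h1 B h2
  omega

theorem six (x : V) : (bl a x).card = 6 := by
  have := card_mul_eq_card_mul (s := bl a x) (t := far a x) (fun C B => B ∈ C.1) (m := 20) (n := 2) ?_ ?_
  · rw [h.far_card] at this; omega
  · intro C hC
    rw [mem_bl] at hC
    have := h.ov_of C.2 hC
    rw [← this.2.1]
    congr 1
    ext B
    simp only [bipartiteAbove, mem_filter, mem_erase]
    exact ⟨fun z => ⟨(mem_far.1 z.1).1, z.2⟩, fun z => ⟨this.1 (mem_erase.2 z), z.2⟩⟩
  · intro B hB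
    rw [← h.int2 hB]
    congr 1
    ext C
    simp only [bipartiteBelow, mem_filter, mem_inter, mem_bl]

theorem c22 : Fintype.card (Pt a) = 22 := by
  have := card_mul_eq_card_mul (s := (univ : Finset (Pt a))) (t := (univ : Finset V))
    (fun C B => B ∈ C.1) (m := 21) (n := 6) ?_ ?_
  · rw [card_univ, card_univ, h.card] at this; omega
  · intro C _
    rw [← C.2.1]
    congr 1
    ext B
    simp [bipartiteAbove]
  · intro B _
    rw [← h.six B]
    congr 1

theorem le2 {u v : V} (e : u ≠ v) : (bl a u ∩ bl a v).card ≤ 2 := by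
  rcases h.a01 u v with z | z
  · rw [h.int2 (mem_far.2 ⟨e.symm, z⟩)]
  · rw [disjoint_iff_inter_eq_empty.1 (int0 z)]; simp

theorem bl_inj : Function.Injective (bl a) := by
  intro u v e
  by_contra z
  have := h.le2 z
  rw [← e, inter_self, h.six] at this
  omega

theorem adj_iff (u v : V) : a u v = 1 ↔ Disjoint (bl a u) (bl a v) := by
  refine ⟨int0, fun z => ?_⟩
  rw [disjoint_iff_inter_eq_empty] at z
  by_cases e : u = v
  · have := h.six u
    rw [← e, inter_self] at z
    rw [z] at this; simp at this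
  · rcases h.a01 u v with y | y
    · have := h.int2 (mem_far.2 ⟨Ne.symm e, y⟩)
      rw [z] at this; simp at this
    · exact y

theorem steiner : Cfsg.IsSteinerSystem 3 6 (Set.range (bl a)) := by
  refine ⟨by rintro _ ⟨v, rfl⟩; exact h.six v, fun s hs => ?_⟩
  have un : ∀ s : Finset (Pt a), s.card = 3 → ∀ u v, s ⊆ bl a u → s ⊆ bl a v → u = v := by
    intro s hs u v h1 h2
    by_contra z
    have := (card_le_card (subset_inter h1 h2)).trans (h.le2 z)
    omega
  have e : (univ : Finset V).biUnion (fun v => powersetCard 3 (bl a v)) = powersetCard 3 univ := by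
    refine eq_of_subset_of_card_le (fun s hs => ?_) ?_
    · rw [mem_biUnion] at hs
      obtain ⟨v, -, hv⟩ := hs
      rw [mem_powersetCard] at hv ⊢
      exact ⟨subset_univ _, hv.2⟩
    · rw [card_biUnion]
      · simp only [card_powersetCard, h.six, card_univ, h.c22, sum_const, h.card]
        decide
      · intro u _ v _ z
        rw [Function.onFun, disjoint_left]
        intro s h1 h2
        rw [mem_powersetCard] at h1 h2
        exact z (un s h1.2 u v h1.1 h2.1)
  have : s ∈ powersetCard 3 (univ : Finset (Pt a)) := mem_powersetCard.2 ⟨subset_univ _, hs⟩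
  rw [← e, mem_biUnion] at this
  obtain ⟨v, -, hv⟩ := this
  rw [mem_powersetCard] at hv
  refine ⟨bl a v, ⟨⟨v, rfl⟩, hv.1⟩, ?_⟩
  rintro _ ⟨⟨u, rfl⟩, hu⟩
  rw [un s hs u v hu hv.1]

theorem iso {W : Type*} [Fintype W] [DecidableEq W] {b : W → W → ℤ} (k : SA b) :
    ∃ φ : V ≃ W, ∀ u v, b (φ u) (φ v) = 1 ↔ a u v = 1 := by
  obtain ⟨e, he⟩ := Cfsg.Agent.S0410.result h.c22 k.c22 h.steiner k.steiner
  have ex : ∀ v, ∃ w, bl b w = (bl a v).image e := by
    intro v
    have : (bl a v).image e ∈ Set.range (bl b) := by rw [← he]; exact ⟨_, ⟨v, rfl⟩, rfl⟩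
    exact this
  choose φ hφ using ex
  have inj : Function.Injective φ := by
    intro u v z
    have := hφ u
    rw [z, hφ v] at this
    exact (h.bl_inj (image_injective e.injective this)).symm
  have bij : Function.Bijective φ :=
    (Fintype.bijective_iff_injective_and_card φ).2 ⟨inj, h.card.trans k.card.symm⟩
  refine ⟨Equiv.ofBijective φ bij, fun u v => ?_⟩
  simp only [Equiv.ofBijective_apply]
  rw [k.adj_iff, h.adj_iff, hφ, hφ, disjoint_image e.injective]

end SA

theorem sa_of {G : SimpleGraph V} [DecidableRel G.Adj] (hG : G.IsSRGWith 77 16 0 4) :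
    SA (G.adjMatrix ℤ) where
  card := hG.card
  sym := fun u v => by simp [G.adj_comm]
  a01 := fun u v => by by_cases e : G.Adj u v <;> simp [e]
  diag := fun v => by simp
  row := fun u => by
    have := hG.regular u
    rw [← SimpleGraph.card_neighborFinset_eq_degree] at this
    simp only [SimpleGraph.adjMatrix_apply, Finset.sum_boole]
    rw [← SimpleGraph.neighborFinset_eq_filter, this]; rfl
  sq := fun u v => by
    have := congrFun (congrFun (hG.matrix_eq (α := ℤ)) u) v
    rw [pow_two, Matrix.mul_apply] at this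
    rw [this]
    simp only [Matrix.add_apply, Matrix.smul_apply, SimpleGraph.adjMatrix_apply, SimpleGraph.compl_adj,
      Matrix.one_apply]
    by_cases e : u = v
    · simp [e]
    · by_cases e' : G.Adj u v <;> simp [e, e']

theorem main {W : Type*} [Fintype W] [DecidableEq W] {G : SimpleGraph V} {H : SimpleGraph W}
    [DecidableRel G.Adj] [DecidableRel H.Adj] (hG : G.IsSRGWith 77 16 0 4)
    (hH : H.IsSRGWith 77 16 0 4) : Nonempty (G ≃g H) := by
  obtain ⟨φ, hφ⟩ := (sa_of hG).iso (sa_of hH)
  refine ⟨⟨φ, fun {u v} => ?_⟩⟩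
  have := hφ u v
  simpa using this

end Cfsg.Agent.H28.Sr
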