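import Mathlib
import Cfsg.Agent.H28.FM2

/-! `SU₆(2)`: monomial group and word checks. -/

set_option autoImplicit false
set_option maxRecDepth 100000

namespace Cfsg.Agent.H28.Su
open Cfsg.Agent.H25 Cfsg.Agent.H28 Matrix

noncomputable def pk (f : ℕ → ℕ) (n : ℕ) : ℕ :=
  Nat.rec (motive := fun _ => ℕ) 0
    (fun t ih => Nat.add ih (Nat.shiftLeft (Nat.land (f t) 15) (Nat.shiftLeft t 2))) n

theorem l15 (a : ℕ) : Nat.land a 15 = a % 16 := Nat.and_two_pow_sub_one_eq_mod a 4

theorem d4_eq (m j : ℕ) : d4 m j = m / 16 ^ j % 16 := by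
  rw [d4, l15]
  show m >>> (j <<< 2) % 16 = _
  rw [Nat.shiftRight_eq_div_pow, Nat.shiftLeft_eq, mul_comm j, pow_mul]; rfl

theorem pk_succ (f : ℕ → ℕ) (n : ℕ) : pk f (n + 1) = pk f n + f n % 16 * 16 ^ n := by
  show pk f n + (Nat.land (f n) 15) <<< (n <<< 2) = _
  rw [l15, Nat.shiftLeft_eq, Nat.shiftLeft_eq, mul_comm n, pow_mul]; rfl

theorem pk_lt (f : ℕ → ℕ) (n : ℕ) : pk f n < 16 ^ n := by
  induction n with
  | zero => exact Nat.one_pos
  | succ n ih =>
    rw [pk_succ, pow_succ]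
    have := Nat.mod_lt (f n) (show 0 < 16 by norm_num)
    nlinarith

theorem d4_pk (f : ℕ → ℕ) {n t : ℕ} (ht : t < n) : d4 (pk f n) t = f t % 16 := by
  induction n with
  | zero => omega
  | succ n ih =>
    rw [d4_eq, pk_succ]
    rcases Nat.lt_succ_iff_lt_or_eq.1 ht with h | rfl
    · obtain ⟨k, rfl⟩ := Nat.exists_eq_add_of_lt h
      rw [← ih h, d4_eq, show f (t + k + 1) % 16 * 16 ^ (t + k + 1) =
        16 ^ t * (16 * (f (t + k + 1) % 16 * 16 ^ k)) by ring, Nat.add_mul_div_left _ _ (by positivity),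
        Nat.add_mul_mod_self_left]
    · rw [Nat.add_mul_div_right _ _ (by positivity), Nat.div_eq_of_lt (pk_lt f t), zero_add, Nat.mod_mod]

noncomputable def eN (m i j : ℕ) : ℕ := d4 m (Nat.add (Nat.mul 6 i) j)

noncomputable def mmN (A B : ℕ) : ℕ :=
  pk (fun t => K4.mulE 6 (eN A) (eN B) (Nat.div t 6) (Nat.mod t 6)) 36

def idN : ℕ := 0x100000010000001000000100000010000001

noncomputable def evN (Ms : List ℕ) (w : List ℕ) : ℕ :=
  List.rec (motive := fun _ => ℕ) idN (fun a _ ih => force ih fun r => mmN (gd idN Ms a) r) w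

noncomputable def suN (m : ℕ) : Bool :=
  band (Nat.beq (K4.det 6 (eN m)) 1) (eqE 6 (K4.mulE 6 (trE (eN m)) (fun i j => K4.pw (eN m i j) 2)) oneE)

/-- the word is the matrix `f` up to a scalar -/
noncomputable def eqZ (Ms : List ℕ) (w : List ℕ) (f : Fin 6 → Fin 6 → ℕ) : Bool :=
  force (evN Ms w) fun m => decide (∃ c : ZMod 3, ∀ i j : Fin 6, eN m i j = K4.ml (c.val + 1) (f i j))

/-- monomial matrices -/
@[ext] structure W where
  s : Equiv.Perm (Fin 6)
  v : Fin 6 → ZMod 3
  h : ∑ i, v i = 0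

instance : Mul W := ⟨fun x y => ⟨x.s * y.s, fun j => x.v (y.s j) + y.v j, by
  rw [Finset.sum_add_distrib, Equiv.sum_comp y.s x.v, x.h, y.h, add_zero]⟩⟩
instance : One W := ⟨⟨1, 0, by simp⟩⟩
instance : Inv W := ⟨fun x => ⟨x.s⁻¹, fun j => -x.v (x.s⁻¹ j), by
  rw [Finset.sum_neg_distrib, Equiv.sum_comp x.s⁻¹ x.v, x.h, neg_zero]⟩⟩

@[simp] theorem mul_s (x y : W) : (x * y).s = x.s * y.s := rfl
@[simp] theorem mul_v (x y : W) (j : Fin 6) : (x * y).v j = x.v (y.s j) + y.v j := rfl
@[simp] theorem one_s : (1 : W).s = 1 := rfl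
@[simp] theorem one_v (j : Fin 6) : (1 : W).v j = 0 := rfl
@[simp] theorem inv_s (x : W) : (x⁻¹).s = x.s⁻¹ := rfl
@[simp] theorem inv_v (x : W) (j : Fin 6) : (x⁻¹).v j = -x.v (x.s⁻¹ j) := rfl

instance : Group W where
  mul_assoc x y z := W.ext (mul_assoc _ _ _) (funext fun j => by simp [add_assoc])
  one_mul x := W.ext (one_mul _) (funext fun j => by simp)
  mul_one x := W.ext (mul_one _) (funext fun j => by simp)
  inv_mul_cancel x := W.ext (inv_mul_cancel _) (funext fun j => by simp)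

instance : Finite W := Finite.of_injective (fun x : W => (x.s, x.v))
  fun _ _ e => W.ext (congrArg Prod.fst e) (congrArg Prod.snd e)

def pr : W →* Equiv.Perm (Fin 6) := ⟨⟨W.s, rfl⟩, fun _ _ => rfl⟩

def pW (s : Equiv.Perm (Fin 6)) : W := ⟨s, 0, by simp⟩
def zW (t : ZMod 3) : W := ⟨1, fun _ => t, by revert t; decide⟩

section
variable {F : Type} [Field F] {φ : ℕ → F} (h : FM K4 φ)

variable (φ) in
def wf (t : ZMod 3) : F := φ (t.val + 1)

variable (φ) in
noncomputable def dec (m : ℕ) : Matrix (Fin 6) (Fin 6) F := matE φ (Equiv.refl _) (eN m)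

variable (φ) in
def mon (s : Equiv.Perm (Fin 6)) (v : Fin 6 → ZMod 3) : Matrix (Fin 6) (Fin 6) F :=
  of fun i j => if i = s j then wf φ (v j) else 0

variable (F) in
abbrev GG := ↥(SU 6 F 2)

variable (F) in
def mt : GG F →* Matrix (Fin 6) (Fin 6) F := (slToMat 6 F).comp (SU 6 F 2).subtype

theorem mt_inj {a b : GG F} (e : mt F a = mt F b) : a = b := Subtype.ext (Subtype.ext e)

theorem mt_det (a : GG F) : (mt F a).det = 1 := a.1.2

theorem mt_un (a : GG F) (j k : Fin 6) : ∑ i, mt F a i j * mt F a i k ^ 2 = if j = k then 1 else 0 := by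
  have := a.2 (Pi.single j 1) (Pi.single k 1)
  simp only [hermForm, mulVec_single_one] at this
  refine this.trans ?_
  rw [Finset.sum_eq_single j (fun b _ hb => by simp [hb]) (by simp)]
  by_cases e : j = k <;> simp [e]

include h

theorem two0 : (2 : F) = 0 := by
  have := h.add 1 1
  rw [show K4.ad 1 1 = 0 by decide +kernel, h.zero, h.one] at this
  linear_combination -this

def cj : F →+* F where
  toFun x := x ^ 2
  map_one' := one_pow 2
  map_mul' x y := mul_pow x y 2
  map_zero' := by simp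
  map_add' x y := by linear_combination (x * y) * two0 h

theorem wf_add (a b : ZMod 3) : wf φ (a + b) = wf φ a * wf φ b := by
  rw [wf, wf, wf, ← h.mul]; congr 1; revert a b; decide +kernel

theorem wf_zero : wf φ 0 = 1 := h.one

theorem wf_ne (a : ZMod 3) : wf φ a ≠ 0 := h.ne_zero (by omega) (by have := a.val_lt; show _ < 4; omega)

theorem wf_inj {a b : ZMod 3} (e : wf φ a = wf φ b) : a = b := by
  have := h.inj _ (by have := a.val_lt; show _ < 4; omega) _ (by have := b.val_lt; show _ < 4; omega) e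
  exact ZMod.val_injective 3 (by omega)

theorem wf_sq (a : ZMod 3) : wf φ a ^ 2 = wf φ (-a) := by
  rw [pow_two, ← wf_add h]; congr 1; revert a; decide

theorem wf_surj {x : F} (hx : x ≠ 0) : ∃ a, wf φ a = x := by
  obtain ⟨a, ha, rfl⟩ := h.surj x
  have : a < 4 := ha
  interval_cases a
  exacts [absurd h.zero hx, ⟨0, rfl⟩, ⟨1, rfl⟩, ⟨2, rfl⟩]

theorem wf_sum {ι : Type*} (s : Finset ι) (v : ι → ZMod 3) : wf φ (∑ i ∈ s, v i) = ∏ i ∈ s, wf φ (v i) := by
  classical
  induction s using Finset.induction_on with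
  | empty => simp [wf_zero h]
  | insert a s ha ih => rw [Finset.sum_insert ha, Finset.prod_insert ha, wf_add h, ih]

def mkG (A : Matrix (Fin 6) (Fin 6) F) (h1 : A.det = 1) (h2 : Aᵀ * A.map (cj h) = 1) : GG F :=
  ⟨⟨A, h1⟩, fun u v => by
    have e3 : ∀ u v, hermForm 6 F 2 u v = u ⬝ᵥ (cj h ∘ v) := fun _ _ => rfl
    show hermForm 6 F 2 (A *ᵥ u) (A *ᵥ v) = _
    have e4 : cj h ∘ (A *ᵥ v) = A.map (cj h) *ᵥ (cj h ∘ v) := funext fun i => RingHom.map_mulVec _ _ _ i
    rw [e3, e3, e4, ← Matrix.vecMul_transpose, ← Matrix.dotProduct_mulVec, Matrix.mulVec_mulVec, h2,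
      Matrix.one_mulVec]⟩

theorem mt_un' (a : GG F) : (mt F a)ᵀ * (mt F a).map (cj h) = 1 := by
  ext j k; rw [one_apply, ← mt_un a j k]; rfl

theorem mon_mul (s t : Equiv.Perm (Fin 6)) (v u : Fin 6 → ZMod 3) :
    mon φ s v * mon φ t u = mon φ (s * t) fun j => v (t j) + u j := by
  ext i j
  simp only [mon, mul_apply, of_apply, mul_ite, mul_zero, Finset.sum_ite_eq', Finset.mem_univ, if_true,
    Equiv.Perm.mul_apply, wf_add h, ite_mul, zero_mul]

theorem mon_one : mon φ 1 0 = 1 := by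
  ext i j; simp [mon, wf_zero h, one_apply]

theorem mon_det (s : Equiv.Perm (Fin 6)) (v : Fin 6 → ZMod 3) : (mon φ s v).det = wf φ (∑ i, v i) := by
  have : mon φ s v = (diagonal fun i => wf φ (v i)).submatrix s.symm id := by
    ext i j; simp only [mon, of_apply, submatrix_apply, id, diagonal_apply, Equiv.symm_apply_eq]
    split_ifs with e
    · rw [e, Equiv.symm_apply_apply]
    · rfl
  rw [this, det_permute, det_diagonal, wf_sum h]
  rcases Int.units_eq_one_or (Equiv.Perm.sign s.symm) with e | e <;> rw [e] <;> simp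
  linear_combination (-∏ i, wf φ (v i)) * two0 h

theorem mon_un (s : Equiv.Perm (Fin 6)) (v : Fin 6 → ZMod 3) :
    (mon φ s v)ᵀ * (mon φ s v).map (cj h) = 1 := by
  ext j k
  simp only [mon, mul_apply, of_apply, transpose_apply, map_apply, ite_mul, zero_mul,
    Finset.sum_ite_eq', Finset.mem_univ, if_true, one_apply, Equiv.apply_eq_iff_eq]
  split_ifs with e
  · show _ * wf φ (v k) ^ 2 = _
    rw [e, wf_sq h, ← wf_add h, add_neg_cancel, wf_zero h]
  · rw [map_zero, mul_zero]

def rho : W →* GG F where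
  toFun x := mkG h (mon φ x.s x.v) (by rw [mon_det h, x.h, wf_zero h]) (mon_un h _ _)
  map_one' := mt_inj (mon_one h)
  map_mul' x y := mt_inj (by rw [map_mul]; exact (mon_mul h _ _ _ _).symm)

theorem mt_rho (x : W) : mt F (rho h x) = mon φ x.s x.v := rfl

theorem rho_inj : Function.Injective (rho h) := fun x y e => by
  have e1 := fun j => congrFun (congrFun (congrArg (mt F) e) (x.s j)) j
  simp only [mt_rho, mon, of_apply, if_true] at e1
  have e2 : ∀ j, x.s j = y.s j := fun j => by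
    by_contra hn; exact wf_ne h _ (by rw [e1 j, if_neg hn])
  exact W.ext (Equiv.ext e2) (funext fun j => wf_inj h (by rw [e1 j, if_pos (e2 j)]))

theorem mon_mulL (v : Fin 6 → ZMod 3) (A : Matrix (Fin 6) (Fin 6) F) (i j : Fin 6) :
    (mon φ 1 v * A) i j = wf φ (v i) * A i j := by
  have := h
  rw [mul_apply, Finset.sum_eq_single i (fun b _ hb => by simp [mon, Ne.symm hb]) (by simp)]; simp [mon]

theorem mon_mulR (v : Fin 6 → ZMod 3) (A : Matrix (Fin 6) (Fin 6) F) (i j : Fin 6) :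
    (A * mon φ 1 v) i j = A i j * wf φ (v j) := by
  have := h
  rw [mul_apply, Finset.sum_eq_single j (fun b _ hb => by simp [mon, hb]) (by simp)]; simp [mon]

theorem zW_cen (t : ZMod 3) : rho h (zW t) ∈ Subgroup.center (GG F) :=
  Subgroup.mem_center_iff.2 fun g => mt_inj (by
    ext i j; rw [map_mul, map_mul, mt_rho]; exact (mon_mulR h _ _ i j).trans
      ((mul_comm _ _).trans (mon_mulL h (fun _ => t) _ i j).symm))

theorem dec_mm (A B : ℕ) : dec φ (mmN A B) = dec φ A * dec φ B := by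
  rw [dec, dec, dec, ← h.mulE]
  ext i j
  have hi := i.2
  have hj := j.2
  simp only [matE, of_apply, Equiv.refl_apply]
  rw [eN, mmN, d4_pk _ (show Nat.add (Nat.mul 6 i) j < 36 from (by omega : 6 * (i : ℕ) + j < 36))]
  show φ (K4.mulE 6 _ _ ((6 * (i : ℕ) + j) / 6) ((6 * (i : ℕ) + j) % 6) % 16) = _
  rw [show (6 * (i : ℕ) + j) / 6 = i by omega, show (6 * (i : ℕ) + j) % 6 = j by omega]
  congr 1
  show Nat.land _ 15 % 16 = Nat.land _ 15
  rw [l15, Nat.mod_mod]

theorem dec_id : dec φ idN = 1 := by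
  rw [← h.oneE (Equiv.refl _)]; exact eqE_sound _ (by decide +kernel)

noncomputable def el (m : ℕ) : GG F :=
  if H : suN m = true then mkG h (dec φ m) (by
      simp only [suN, band_eq, Bool.and_eq_true] at H
      rw [dec, h.det, Nat.eq_of_beq_eq_true H.1, h.one]) (by
      simp only [suN, band_eq, Bool.and_eq_true] at H
      have e := eqE_sound (φ := φ) (Equiv.refl (Fin 6)) H.2
      rw [h.mulE, h.oneE, trE_eq] at e
      rw [← e]; congr 1; ext i j; exact (h.pw _ _).symm)
  else 1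

theorem mt_el {m : ℕ} (H : suN m = true) : mt F (el h m) = dec φ m := by rw [el, dif_pos H]; rfl

noncomputable def gn (Ms : List ℕ) (a : ℕ) : GG F := el h (gd idN Ms a)

theorem mt_gn {Ms : List ℕ} (H : allL suN Ms = true) (a : ℕ) : mt F (gn h Ms a) = dec φ (gd idN Ms a) :=
  mt_el h ((gd_cases idN Ms a).elim (allL_sound H _) fun e => by rw [e]; decide +kernel)

theorem mt_ev {Ms : List ℕ} (H : allL suN Ms = true) (w : List ℕ) :
    mt F (ev (gn h Ms) w) = dec φ (evN Ms w) := by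
  induction w with
  | nil => rw [ev_nil, map_one]; exact (dec_id h).symm
  | cons a w ih =>
    rw [ev_cons, map_mul, ih, mt_gn h H, ← dec_mm h]
    exact congrArg _ (force_eq _ fun r => mmN (gd idN Ms a) r).symm

theorem eqZ_sound {Ms : List ℕ} (H : allL suN Ms = true) {w : List ℕ} {f : Fin 6 → Fin 6 → ℕ}
    (e : eqZ Ms w f = true) {g : GG F} (hg : ∀ i j, mt F g i j = φ (f i j)) :
    (QuotientGroup.mk (ev (gn h Ms) w) : PSU 6 F 2) = QuotientGroup.mk g := by
  rw [eqZ, force_eq, decide_eq_true_eq] at e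
  obtain ⟨c, hc⟩ := e
  have : ev (gn h Ms) w = rho h (zW c) * g := mt_inj (by
    ext i j
    rw [mt_ev h H, map_mul, mt_rho]
    refine Eq.trans ?_ (mon_mulL h _ _ i j).symm
    rw [hg]; exact (congrArg φ (hc i j)).trans (h.mul _ _))
  rw [this, QuotientGroup.mk_mul, (QuotientGroup.eq_one_iff _).2 (zW_cen h c), one_mul]

/-- code of a monomial matrix -/
def cW (x : W) (i j : Fin 6) : ℕ := if i = x.s j then (x.v j).val + 1 else 0

theorem mt_cW (x : W) (i j : Fin 6) : mt F (rho h x) i j = φ (cW x i j) := by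
  rw [mt_rho, mon, of_apply, cW]; split_ifs
  exacts [rfl, h.zero.symm]

end

end Cfsg.Agent.H28.Su
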