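import Mathlib
import Cfsg.Agent.H28.Su1

/-! `SU₆(2)`: the diagonal group and its normaliser. -/

set_option autoImplicit false
set_option maxRecDepth 100000

namespace Cfsg.Agent.H28.Su
open Cfsg.Agent.H25 Cfsg.Agent.H28 Matrix Subgroup Equiv

theorem card_comap {A B : Type*} [Group A] [Group B] (θ : A →* B) (X : Subgroup B) (hX : X ≤ θ.range) :
    Nat.card (X.comap θ) = Nat.card θ.ker * Nat.card X := by
  have hs : Function.Surjective (θ.subgroupComap X) := fun y => by
    obtain ⟨a, ha⟩ := hX y.2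
    exact ⟨⟨a, by rw [mem_comap, ha]; exact y.2⟩, Subtype.ext ha⟩
  rw [card_eq_card_quotient_mul_card_subgroup (θ.subgroupComap X).ker,
    Nat.card_congr (QuotientGroup.quotientKerEquivOfSurjective _ hs).toEquiv, mul_comm]
  congr 1
  exact Nat.card_congr ⟨fun a => ⟨a.1.1, congrArg Subtype.val a.2⟩,
    fun a => ⟨⟨a.1, by rw [mem_comap, a.2]; exact X.one_mem⟩, Subtype.ext a.2⟩, fun _ => rfl, fun _ => rfl⟩

theorem syl {Γ : Type*} [Group Γ] [Finite Γ] (h8 : ¬ 3 ^ 8 ∣ Nat.card Γ) {T A B : Subgroup Γ}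
    (hA : A ≤ T) (hB : B ≤ T) (cA : Nat.card A = 3 ^ 7) (cB : Nat.card B = 3 ^ 7) :
    ∃ c ∈ T, ∀ a ∈ A, c * a * c⁻¹ ∈ B := by
  haveI : Fact (Nat.Prime 3) := ⟨by norm_num⟩
  have key : ∀ {A : Subgroup Γ}, A ≤ T → Nat.card A = 3 ^ 7 → ∃ P : Sylow 3 T, P.1 = A.subgroupOf T :=
    fun {A} hA cA => by
      have c : Nat.card (A.subgroupOf T) = 3 ^ 7 := (Nat.card_congr (subgroupOfEquivOfLe hA).toEquiv).trans cA
      refine ⟨(IsPGroup.of_card c).toSylow fun hd => h8 (dvd_trans ?_ (card_subgroup_dvd_card T)), rfl⟩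
      rw [← (A.subgroupOf T).card_mul_index, c, pow_succ]
      exact Nat.mul_dvd_mul_left _ hd
  obtain ⟨P, hP⟩ := key hA cA
  obtain ⟨Q, hQ⟩ := key hB cB
  obtain ⟨c, hc⟩ := MulAction.exists_smul_eq T P Q
  refine ⟨c, c.2, fun a ha => ?_⟩
  have : (MulAut.conj c) • (⟨a, hA ha⟩ : T) ∈ (c • P : Sylow 3 T).1 :=
    smul_mem_pointwise_smul _ _ _ (by rw [hP]; exact ha)
  rw [hc, hQ] at this
  exact this

def c1 : Perm (Fin 6) := swap 0 1 * swap 0 2
def c2 : Perm (Fin 6) := swap 3 4 * swap 3 5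
def TL : List (Perm (Fin 6)) := [1, c1, c1 * c1, c2, c2 * c2, c1 * c2, c1 * c1 * c2, c1 * c2 * c2, c1 * c1 * c2 * c2]

def TT : Subgroup (Perm (Fin 6)) where
  carrier := {s | s ∈ TL}
  mul_mem' := fun ha hb => (by decide +kernel : ∀ a ∈ TL, ∀ b ∈ TL, a * b ∈ TL) _ ha _ hb
  one_mem' := List.mem_cons_self
  inv_mem' := (by decide +kernel : ∀ a ∈ TL, a⁻¹ ∈ TL) _

theorem card_TT : Nat.card TT = 9 := by
  have : Nat.card TT = TL.toFinset.card := by
    rw [← Fintype.card_coe, ← Nat.card_eq_fintype_card]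
    exact Nat.card_congr (Equiv.subtypeEquivRight fun x => List.mem_toFinset.symm)
  rw [this]; decide +kernel

def fx (s : Perm (Fin 6)) : ℕ := Fintype.card {v : Fin 6 → ZMod 3 // ∑ i, v i = 0 ∧ ∀ j, v (s j) = v j}

theorem fx_val : fx 1 = 243 ∧ fx (c1 * c2) = 9 ∧ ∀ s ∈ TL, s ≠ 1 → fx s ≤ 27 := by decide +kernel

theorem card_ker : Nat.card pr.ker = 243 := by
  rw [← fx_val.1, fx, ← Nat.card_eq_fintype_card]
  exact Nat.card_congr ⟨fun a => ⟨a.1.v, a.1.h, fun _ => rfl⟩, fun v => ⟨⟨1, v.1, v.2.1⟩, rfl⟩,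
    fun a => Subtype.ext (W.ext a.2.symm rfl), fun _ => rfl⟩

theorem card_pr (X : Subgroup (Perm (Fin 6))) : Nat.card (X.comap pr) = 243 * Nat.card X := by
  rw [card_comap pr X fun s _ => ⟨pW s, rfl⟩, card_ker]

theorem uniq {A : Subgroup W} (hA : A ≤ TT.comap pr) (hc : ∀ a ∈ A, ∀ b ∈ A, a * b = b * a)
    (cA : Nat.card A = 243) : A = pr.ker := by
  let θ := pr.comp A.subtype
  have e1 := card_comap θ θ.range le_rfl
  rw [show θ.range.comap θ = ⊤ from eq_top_iff.2 fun a _ => ⟨a, rfl⟩, card_top, cA] at e1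
  have e2 : θ.range ≤ TT := by rintro _ ⟨a, rfl⟩; exact hA a.2
  have e3 : ∀ s ∈ θ.range, Nat.card θ.ker ≤ fx s := by
    rintro _ ⟨a, rfl⟩
    rw [fx, ← Nat.card_eq_fintype_card]
    refine Nat.card_le_card_of_injective (fun b => ⟨b.1.1.v, b.1.1.h, fun j => ?_⟩) fun b c e => ?_
    · have e := congrFun (congrArg W.v (hc _ b.1.2 _ a.2)) j
      have hb : b.1.1.s = 1 := b.2
      simp only [mul_v, hb, Perm.one_apply] at e
      exact add_right_cancel (e.trans (add_comm _ _))
    · exact Subtype.ext (Subtype.ext (W.ext ((show b.1.1.s = 1 from b.2).trans (show c.1.1.s = 1 from c.2).symm)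
        (congrArg Subtype.val e)))
  by_cases h0 : θ.range = ⊥
  · refine eq_of_le_of_card_ge (fun a ha => ?_) (by rw [cA, card_ker])
    exact mem_bot.1 (h0 ▸ (⟨⟨a, ha⟩, rfl⟩ : pr a ∈ θ.range))
  · exfalso
    obtain ⟨⟨s, hs⟩, hs1⟩ := (ne_bot_iff_exists_ne_one.1 h0)
    have e4 := (e3 s hs).trans (fx_val.2.2 s (e2 hs) fun e => hs1 (Subtype.ext e))
    have e5 : Nat.card θ.range ≤ 9 := card_TT ▸ card_le_of_le e2
    have e6 : θ.range = TT := eq_of_le_of_card_ge e2 (by rw [card_TT]; nlinarith)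
    have e7 := e3 (c1 * c2) (e6 ▸ (by decide +kernel : c1 * c2 ∈ TL))
    rw [fx_val.2.1] at e7
    nlinarith

def sW (i : Fin 6) : W := ⟨1, fun j => (if j = i then 1 else 0) + if j = 5 then 2 else 0, by revert i; decide⟩

theorem pow_D (x : W) (hx : x.s = 1) (n : ℕ) : (x ^ n).s = 1 ∧ ∀ j, (x ^ n).v j = n * x.v j := by
  induction n with
  | zero => simp
  | succ n ih => rw [pow_succ]; simp [ih.1, ih.2, hx, add_mul]

theorem gen_D {B : Subgroup W} (hB : ∀ i, sW i ∈ B) : pr.ker ≤ B := fun x hx => by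
  have hx : x.s = 1 := hx
  have p := fun i => pow_D (sW i) rfl (x.v i).val
  have : x = sW 0 ^ (x.v 0).val * sW 1 ^ (x.v 1).val * sW 2 ^ (x.v 2).val * sW 3 ^ (x.v 3).val *
      sW 4 ^ (x.v 4).val := W.ext (by simp [hx, p]) (funext fun j => by
    have := x.h
    rw [Fin.sum_univ_six] at this
    simp only [mul_v, p, Perm.one_apply, ZMod.natCast_val, ZMod.cast_id', id]
    have h3 : (3 : ZMod 3) = 0 := rfl
    fin_cases j <;> simp [sW]
    linear_combination this - x.v 5 * h3 + (x.v 5 - x.v 0 - x.v 1 - x.v 2 - x.v 3 - x.v 4) * h3)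
  rw [this]
  exact mul_mem (mul_mem (mul_mem (mul_mem (pow_mem (hB _) _) (pow_mem (hB _) _)) (pow_mem (hB _) _))
    (pow_mem (hB _) _)) (pow_mem (hB _) _)

/-- the even monomial group -/
def M0 : Subgroup W := (alternatingGroup (Fin 6)).comap pr

theorem gen_M {B : Subgroup W} (hB : ∀ i, sW i ∈ B)
    (hs : ∀ a b : Fin 6, a ≠ b → pW (swap a b * swap 4 5) ∈ B) : M0 ≤ B := by
  have hm : ∀ s t, pW (s * t) = pW s * pW t := fun s t => W.ext rfl (funext fun j => (add_zero _).symm)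
  have key : ∀ s : Perm (Fin 6), (Perm.sign s = 1 → pW s ∈ B) ∧
      (Perm.sign s = -1 → pW (swap 4 5 * s) ∈ B) := fun s => by
    induction s using Perm.swap_induction_on with
    | one => exact ⟨fun _ => B.one_mem, fun e => by simp at e⟩
    | swap_mul f a b hab ih =>
      rw [Perm.sign_mul, Perm.sign_swap hab]
      refine ⟨fun e => ?_, fun e => ?_⟩
      · rw [show swap a b * f = swap a b * swap 4 5 * (swap 4 5 * f) by
          rw [mul_assoc, swap_mul_self_mul], hm]
        exact mul_mem (hs a b hab) (ih.2 (by rw [← neg_neg (Perm.sign f), ← e]; simp))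
      · have := inv_mem (hs a b hab)
        rw [← mul_assoc, hm]
        refine mul_mem (?_) (ih.1 (by simpa using e))
        convert this using 1
        exact W.ext (by simp [pW]) (funext fun j => by simp [pW])
  intro x hx
  have : x = pW x.s * ((pW x.s)⁻¹ * x) := by simp
  rw [this]
  exact mul_mem ((key _).1 hx) (gen_D hB (show (pW x.s)⁻¹.s * x.s = 1 from inv_mul_cancel _))

theorem eq_M0 {N : Subgroup W} (h1 : pr.ker ≤ N) (h2 : Nat.card N = Nat.card M0) : N = M0 := by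
  have e : N = (N.map pr).comap pr := by rw [comap_map_eq, sup_eq_left.2 h1]
  have e2 := card_pr (N.map pr)
  rw [← e, h2, M0, card_pr] at e2
  have e3 := (N.map pr).card_mul_index
  rw [← (alternatingGroup (Fin 6)).card_mul_index, alternatingGroup.index_eq_two, ← Nat.mul_left_cancel (by norm_num) e2] at e3
  rw [e, Perm.eq_alternatingGroup_of_index_eq_two (Nat.mul_left_cancel Nat.card_pos e3), M0]

section
variable {F : Type} [Field F] {φ : ℕ → F} (h : FM K4 φ)
include h

theorem norm_D {g : GG F} (hg : ∀ x ∈ pr.ker, ∃ y ∈ pr.ker, g * rho h x = rho h y * g) :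
    ∃ x, rho h x = g := by
  have e1 : ∀ i j k, mt F g i j ≠ 0 → mt F g i k ≠ 0 → j = k := fun i j k hj hk => by
    by_contra hn
    obtain ⟨y, hy, e⟩ := hg (sW j * (sW k)⁻¹) (mul_mem rfl (inv_mem rfl))
    have e := congrArg (mt F) e
    rw [(mt F).map_mul, (mt F).map_mul, mt_rho, mt_rho, show y.s = 1 from hy, show (sW j * (sW k)⁻¹).s = 1 by simp [sW]] at e
    have a := congrFun (congrFun e i) j
    have b := congrFun (congrFun e i) k
    rw [mon_mulL h, mon_mulR h, mul_comm] at a b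
    have := wf_inj h ((mul_right_cancel₀ hj a).trans (mul_right_cancel₀ hk b).symm)
    revert this hn
    simp only [mul_v, inv_v, inv_s, sW, inv_one, Perm.one_apply]
    clear * -
    revert j k; decide
  have e2 : ∀ j, ∃ i, mt F g i j ≠ 0 := fun j => by
    by_contra hn
    push Not at hn
    have := mt_un g j j
    simp [hn] at this
  choose s hs using e2
  have e3 : Function.Bijective s := Finite.injective_iff_bijective.1 fun j k e => e1 _ _ _ (hs j) (e ▸ hs k)
  choose v hv using fun j => wf_surj h (hs j)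
  have e4 : mon φ (Equiv.ofBijective s e3) v = mt F g := by
    ext i j
    simp only [mon, of_apply, Equiv.ofBijective_apply]
    split_ifs with e
    · rw [e, hv]
    · obtain ⟨k, rfl⟩ := e3.2 i
      by_contra hn
      exact e (by rw [e1 _ _ _ (hs k) (Ne.symm hn)])
  have e5 := mon_det h (Equiv.ofBijective s e3) v
  rw [e4, mt_det, ← wf_zero h] at e5
  exact ⟨⟨_, v, (wf_inj h e5).symm⟩, mt_inj e4⟩

theorem cen_M {g : GG F} (hg : ∀ x ∈ M0, g * rho h x = rho h x * g) : ∃ t, rho h (zW t) = g := by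
  obtain ⟨y, rfl⟩ := norm_D h fun x hx => ⟨x, hx, hg x (by
    rw [M0, mem_comap, show pr x = 1 from hx]; exact one_mem _)⟩
  have e : ∀ x ∈ M0, ∀ j, y.v (x.s j) + x.v j = x.v (y.s j) + y.v j := fun x hx j =>
    congrFun (congrArg W.v (rho_inj h (by rw [map_mul, map_mul]; exact hg x hx) : y * x = x * y)) j
  have e1 : y.s = 1 := Equiv.ext fun j => by
    have a := e (sW j * (sW (y.s j))⁻¹) (by rw [M0, mem_comap]; exact one_mem _) j
    simp only [mul_v, inv_v, inv_s, mul_s, sW, inv_one, Perm.one_apply, mul_one] at a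
    rw [add_comm, add_left_inj] at a
    rw [Perm.one_apply]
    revert a
    generalize y.s j = k
    clear * -
    revert j k; decide
  have e2 : ∀ a b c : Fin 6, a ≠ b → b ≠ c → y.v ((swap a b * swap b c) c) = y.v c := fun a b c h1 h2 => by
    have := e (pW (swap a b * swap b c)) (by
      rw [M0, mem_comap, Perm.mem_alternatingGroup]
      simp [pr, pW, Perm.sign_swap h1, Perm.sign_swap h2]) c
    simpa [pW] using this
  refine ⟨y.v 0, congrArg _ (W.ext e1.symm (funext fun j => ?_))⟩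
  have a1 : y.v 0 = y.v 1 := e2 0 2 1 (by decide) (by decide)
  have a2 : y.v 0 = y.v 2 := e2 0 1 2 (by decide) (by decide)
  have a3 : y.v 0 = y.v 3 := e2 0 1 3 (by decide) (by decide)
  have a4 : y.v 0 = y.v 4 := e2 0 1 4 (by decide) (by decide)
  have a5 : y.v 0 = y.v 5 := e2 0 1 5 (by decide) (by decide)
  fin_cases j
  exacts [rfl, a1, a2, a3, a4, a5]

end

end Cfsg.Agent.H28.Su
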