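import Mathlib
import Cfsg.Agent.H28.Su2
import Cfsg.Agent.H28.U43
import Cfsg.Agent.S0283

/-! `SU₆(2)`: the subgroup `3.U₄(3)`. -/

set_option autoImplicit false
set_option maxRecDepth 100000

namespace Cfsg.Agent.H28.Su
open Cfsg.Agent.H25 Cfsg.Agent.H28 Matrix Subgroup Equiv

def Ms : List ℕ := [0x10000100000001000000010000100000001, 0x1010000000100001000000010100000, 0x111033111303111330022111202111220111, 0x112021112201331110031113301113110221, 0x113031113301221110021112201112110331, 0x103113011221211201133110130113211021, 0x30000300001000020000200000000001, 0x323000233000113000000232000322000112, 0x100000001000000100000010000001010000, 0x10000001000100000000100000010000001, 0x300000010000001000000100000010000002, 0x10000100000001000000100000010000001, 0x323000233000113000000231000321000222, 0x323000233000113000000233000323000332, 0x231000321000111000000231000321000111,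 0x321000231000111000000231000321000111, 0x231000321000111000000321000231000111, 0x321000231000111000000321000231000111]
def WA : List (List ℕ) := [[], [5, 2, 3, 5, 1, 2, 3, 0, 5, 1, 0], [1, 5, 3, 0, 5, 3, 0, 5, 1], [3, 5, 3, 4, 2, 3, 5, 3, 0], [5, 0, 1, 2, 3, 5, 0, 1, 2, 1, 0], [2, 5, 1, 2, 3, 2, 5, 1, 2, 0, 1], [5, 2, 3, 5, 1, 2, 3, 0, 5, 1, 0], [], [0], [2, 5, 1, 2, 3, 2, 5, 1, 2, 1], [3, 5, 1, 2, 3, 4, 0, 1, 2, 3, 5, 3, 0], [3, 5, 3, 4, 2, 3, 5, 0, 1, 2, 3, 0, 1], [1, 5, 3, 0, 5, 3, 0, 5, 1], [0], [], [5, 0, 1, 2, 3, 5, 0, 1, 2, 0, 1, 0], [3, 5, 3, 4, 2, 3, 5, 1, 2, 3, 0, 1, 0], [3, 1, 5, 2, 3, 4, 0, 1, 2, 3, 0, 5, 3], [3, 5, 3, 4, 2, 3, 5, 3, 0], [2, 5, 1, 2, 3, 2, 5, 1, 2, 1], [5, 0, 1, 2, 3, 5, 0, 1, 2, 0, 1, 0], [], [0, 5, 3, 1, 5, 2, 3, 5, 2, 1], [5, 3, 1, 5, 2, 3, 5, 2, 1, 0], [5, 0, 1, 2, 3, 5, 0, 1, 2, 1, 0], [3, 5, 1, 2, 3, 4, 0, 1, 2, 3,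 5, 3, 0], [3, 5, 3, 4, 2, 3, 5, 1, 2, 3, 0, 1, 0], [0, 5, 3, 1, 5, 2, 3, 5, 2, 1], [], [], [2, 5, 1, 2, 3, 2, 5, 1, 2, 0, 1], [3, 5, 3, 4, 2, 3, 5, 0, 1, 2, 3, 0, 1], [3, 1, 5, 2, 3, 4, 0, 1, 2, 3, 0, 5, 3], [5, 3, 1, 5, 2, 3, 5, 2, 1, 0], [], []]
def WS : List (List ℕ) := [[4, 3, 5, 3, 6, 5, 3, 0, 1, 6, 3, 5, 3, 2], [5, 3, 2, 0, 1, 6, 3, 5, 2, 1, 6, 3, 2, 5, 1], [3, 6, 4, 3, 2, 1, 6, 3, 4, 3, 2], [0, 5, 3, 6, 4, 0, 1, 2, 3, 5, 6, 2, 3, 5], [3, 6, 1, 2, 3, 5, 3, 5, 3, 2, 1, 6, 3, 0], []]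
def WX : List (List ℕ) := [[1, 2, 3, 0, 1, 6, 2, 3, 1, 6, 0, 1], [3, 6, 2, 3, 4, 2], [4, 2, 3, 6, 2, 3]]
def WC : List (List ℕ) := [[10, 7, 9, 7, 9, 10, 7, 7], [9, 8, 8, 9, 8, 8], [7, 8, 7, 8, 10, 10, 8, 9, 9, 8], [9, 10, 7, 8, 7, 7, 10, 8, 9, 9, 8, 10, 8], [7, 7, 8, 7, 8, 10, 10, 8, 9, 9, 8, 7, 7], [8, 7, 7, 10, 7, 8, 9, 8, 7, 8, 9], [8, 7, 8, 10, 10, 8, 9, 9, 8, 7]]
def WE : List (List ℕ) := [[], [2, 1, 12], [1, 5, 13]]

def rp (w : List ℕ) : ℕ → List ℕ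
  | 0 => []
  | n + 1 => w ++ rp w n
theorem ev_rp {Γ : Type*} [Group Γ] (g : ℕ → Γ) (w : List ℕ) (k : ℕ) : ev g (rp w k) = ev g w ^ k := by
  induction k with
  | zero => simp [rp]
  | succ k ih => rw [rp, ev_append, ih, pow_succ']
def M7 : List ℕ := Ms.take 7
def uu (t : ZMod 3) (j : Fin 6) : ZMod 3 := if j = 0 then t else 0
def aW : W := ⟨1, ![1, 1, 1, 0, 0, 0], by decide⟩
def hc (e1 e2 : ZMod 3) (i j : Fin 6) : ℕ :=
  if i.val / 3 = j.val / 3 then ((if i.val < 3 then e1 else e2) * (i.val : ZMod 3) * (j.val : ZMod 3)).val + 1 else 0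

theorem ok : allL suN Ms = true ∧ allL suN M7 = true := by decide +kernel
theorem k1 : (∀ w ∈ U43.P, eqZ M7 w (cW 1) = true) ∧
    (∀ a b : Fin 6, a ≠ b → eqZ M7 (gd [] WA (6 * a + b)) (cW (pW (swap a b * swap 4 5))) = true) ∧
    (∀ a : Fin 6, eqZ M7 (gd [] WS a) (cW (sW a)) = true) ∧
    (∀ a < 3, eqZ M7 (gd [] WX a) (fun i j => eN (gd idN Ms (gd 0 [7, 15, 16] a)) i j) = true) ∧
    (∀ a < 7, eqZ Ms (gd [] WC a) (fun i j => eN (gd idN M7 a) i j) = true ∧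
      ∀ b ∈ gd [] WC a, b = 7 ∨ b = 8 ∨ b = 9 ∨ b = 10) := by decide +kernel
theorem k2 : eqZ Ms [8] (cW (pW (swap 0 4 * swap 0 3 * swap 0 2 * swap 0 1))) = true ∧
    eqZ Ms [9] (cW (pW (swap 3 5 * swap 3 4))) = true ∧ eqZ Ms [10] (cW (sW 0)) = true ∧
    eqZ Ms [11] (cW (pW (swap 4 5))) = true ∧ eqZ Ms [7, 7, 7] (cW 1) = true ∧
    eqZ Ms [11, 7, 11] (fun i j => eN (gd idN Ms 7) i j) = true ∧
    (∀ t : ZMod 3, t ≠ 0 → eqZ Ms [11 + t.val] (fun i j => K4.ml (K4.ml ((uu t i).val + 1)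
      (eN (gd idN Ms 7) i j)) ((-uu t j).val + 1)) = true ∧ eqZ Ms (rp (gd [] WE t.val) 11) (cW 1) = true ∧
      1 ≤ eN (evN Ms (gd [] WE t.val)) 0 1 ∧ eN (evN Ms (gd [] WE t.val)) 0 1 < 4 ∧
      ∀ b ∈ gd [] WE t.val, b < 7 ∧ gd idN Ms b = gd idN M7 b ∨ b = 11 + t.val) ∧
    (∀ e1 e2 : ZMod 3, e1 ≠ 0 → e2 ≠ 0 → ∀ i j : Fin 6,
      eN (gd idN Ms (11 + 2 * e1.val + e2.val)) i j = hc e1 e2 i j) ∧
    ∀ i j : Fin 6, if i.val / 3 = j.val / 3 then 1 ≤ eN (gd idN Ms 7) i j ∧ eN (gd idN Ms 7) i j < 4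
      else eN (gd idN Ms 7) i j = 0 := by decide +kernel

noncomputable def nd (x y z x' y' z' : ℕ) : ℕ :=
  K4.ml 1 (K4.ad (K4.ad (K4.ml x (K4.ml x' x')) (K4.ml y (K4.ml y' y'))) (K4.ml z (K4.ml z' z')))
noncomputable def s3 (f : Fin 3 → ℕ) : ℕ := K4.ad (K4.ad (f 0) (f 1)) (f 2)
noncomputable def cb (A : Fin 3 → Fin 3 → ℕ) (i j : Fin 3) : ℕ :=
  K4.ml 1 (s3 fun k => s3 fun l => K4.ml (K4.ml (A i k) (A k l)) (A l j))
def lg (a : ℕ) : ZMod 3 := ((a + 2 : ℕ) : ZMod 3)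
def Cc (A : Fin 3 → Fin 3 → ℕ) : Prop :=
  cb A 0 1 = 0 → cb A 0 2 = 0 → cb A 1 2 = 0 →
  (∃ e : ZMod 3, e ≠ 0 ∧ ∑ i, lg (A i 0) + ∑ j, (lg (A 0 j) - lg (A 0 0)) = e ∧
    ∀ i j : Fin 3, A i j = (lg (A i 0) + e * (i.val : ZMod 3) * (j.val : ZMod 3) + (lg (A 0 j) - lg (A 0 0))).val + 1) ∨
  ∃ t0 t1 t2 : ZMod 3, t0 + t1 + t2 = 0 ∧ ∀ i j : Fin 3,
    K4.ml (A i j) ((![1, 2, 0] j : ZMod 3).val + 1) = K4.ml ((![t0, t1, t2] i).val + 1) (A i j)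
noncomputable instance (A : Fin 3 → Fin 3 → ℕ) : Decidable (Cc A) := by unfold Cc; infer_instance

set_option synthInstance.maxSize 5000 in
theorem kB : ∀ a b c : Fin 4, nd a b c a b c = 1 → ∀ a' b' c' : Fin 4,
    nd a b c a' b' c' = 0 → nd a' b' c' a' b' c' = 1 → ∀ x y z : Fin 4, nd a b c x y z = 0 →
    nd a' b' c' x y z = 0 → nd x y z x y z = 1 →
    Cc ![![a.val, a'.val, x.val], ![b.val, b'.val, y.val], ![c.val, c'.val, z.val]] := by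
  decide +kernel

section
variable {F : Type} [Field F] {φ : ℕ → F} (h : FM K4 φ)
include h

theorem lemB (Y : Fin 3 → Fin 3 → F) (hu : ∀ j k, ∑ i, Y i j * Y i k ^ 2 = if j = k then 1 else 0)
    (hc : ∀ i j, i ≠ j → ∑ k, ∑ l, Y i k * Y k l * Y l j = 0) :
    (∃ (e : ZMod 3) (u u' : Fin 3 → ZMod 3), e ≠ 0 ∧ ∑ i, u i + ∑ j, u' j = e ∧
      ∀ i j : Fin 3, Y i j = wf φ (u i + e * (i.val : ZMod 3) * (j.val : ZMod 3) + u' j)) ∨
    ∃ t0 t1 t2 : ZMod 3, t0 + t1 + t2 = 0 ∧ ∀ i j : Fin 3,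
      Y i j * wf φ (![1, 2, 0] j) = wf φ (![t0, t1, t2] i) * Y i j := by
  choose A h4 hA using fun i j => h.surj (Y i j)
  have e1 : ∀ j k, nd (A 0 j) (A 1 j) (A 2 j) (A 0 k) (A 1 k) (A 2 k) = if j = k then 1 else 0 :=
    fun j k => h.inj _ (h.lt _ _) _ (by split_ifs <;> decide) (by
      rw [apply_ite φ, h.one, h.zero, ← hu, Fin.sum_univ_three]
      simp only [nd, h.mul, h.add, hA, h.one, one_mul, pow_two])
  have e2 : ∀ i j, i ≠ j → cb A i j = 0 := fun i j hij => h.inj _ (h.lt _ _) _ (by decide) (by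
    rw [h.zero, ← hc i j hij]
    simp only [cb, s3, h.mul, h.add, hA, h.one, one_mul, Fin.sum_univ_three])
  have := kB ⟨_, h4 0 0⟩ ⟨_, h4 1 0⟩ ⟨_, h4 2 0⟩ (e1 0 0) ⟨_, h4 0 1⟩ ⟨_, h4 1 1⟩ ⟨_, h4 2 1⟩ (e1 0 1) (e1 1 1)
    ⟨_, h4 0 2⟩ ⟨_, h4 1 2⟩ ⟨_, h4 2 2⟩ (e1 0 2) (e1 1 2) (e1 2 2)
  rw [show ![![A 0 0, A 0 1, A 0 2], ![A 1 0, A 1 1, A 1 2], ![A 2 0, A 2 1, A 2 2]] = A by
    ext i j; fin_cases i <;> fin_cases j <;> rfl] at this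
  rcases this (e2 0 1 (by decide)) (e2 0 2 (by decide)) (e2 1 2 (by decide)) with
    ⟨e, a1, a2, a3⟩ | ⟨t0, t1, t2, a1, a2⟩
  · exact Or.inl ⟨e, _, _, a1, a2, fun i j => (hA i j).symm.trans (congrArg φ (a3 i j))⟩
  · refine Or.inr ⟨t0, t1, t2, a1, fun i j => ?_⟩
    have := congrArg φ (a2 i j)
    rwa [h.mul, h.mul, hA] at this

abbrev mk : GG F →* PSU 6 F 2 := QuotientGroup.mk' _

theorem eqQ {Ms : List ℕ} (H : allL suN Ms = true) {w : List ℕ} {f : Fin 6 → Fin 6 → ℕ}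
    (e : eqZ Ms w f = true) {g : GG F} (hg : ∀ i j, mt F g i j = φ (f i j)) :
    mk (ev (gn h Ms) w) = mk g := eqZ_sound h H e hg

noncomputable def Lb : Subgroup (PSU 6 F 2) := Lc 127 fun a => mk (gn h M7 a)
noncomputable def LL : Subgroup (GG F) := (Lb h).comap mk

theorem gn_one {a : ℕ} (ha : 7 ≤ a) : gn h M7 a = 1 := mt_inj (by
  rw [mt_gn h ok.2, gd_eq, List.getD_eq_default _ _ ha, dec_id h, map_one])

theorem gn_mem (a : ℕ) : gn h M7 a ∈ LL h := by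
  by_cases ha : a < 7
  · exact mem_Lc (X := 127) _ (by interval_cases a <;> rfl)
  · rw [gn_one h (not_lt.1 ha)]; exact one_mem _

theorem memL {w : List ℕ} {f : Fin 6 → Fin 6 → ℕ} (e : eqZ M7 w f = true) {g : GG F}
    (hg : ∀ i j, mt F g i j = φ (f i j)) : g ∈ LL h := by
  have : ev (gn h M7) w ∈ LL h := ev_mem fun a _ => gn_mem h a
  exact (mem_comap.2 ((eqQ h ok.2 e hg) ▸ (mem_comap.1 this)))

theorem mt_X (a : ℕ) (i j : Fin 6) : mt F (gn h Ms a) i j = φ (eN (gd idN Ms a) i j) :=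
  congrFun (congrFun (mt_gn h ok.1 a) i) j

theorem M0_le : ∀ x ∈ M0, rho h x ∈ LL h := gen_M (B := (LL h).comap (rho h))
  (fun i => memL h (k1.2.2.1 i) (mt_cW h _)) fun a b hab => memL h (k1.2.1 a b hab) (mt_cW h _)

theorem X_mem : gn h Ms 7 ∈ LL h ∧ gn h Ms 15 ∈ LL h ∧ gn h Ms 16 ∈ LL h :=
  ⟨memL h (k1.2.2.2.1 0 (by decide)) (mt_X h _), memL h (k1.2.2.2.1 1 (by decide)) (mt_X h _),
    memL h (k1.2.2.2.1 2 (by decide)) (mt_X h _)⟩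

theorem mkX {a : ℕ} {f : Fin 6 → Fin 6 → ℕ} (e : eqZ Ms [a] f = true) {g : GG F}
    (hg : ∀ i j, mt F g i j = φ (f i j)) : mk (gn h Ms a) = mk g := by
  have := eqZ_sound h ok.1 e hg
  rwa [ev_cons, ev_nil, mul_one] at this

theorem Lb_le {T : Subgroup (PSU 6 F 2)} (h1 : ∀ x ∈ M0, mk (rho h x) ∈ T) (h2 : mk (gn h Ms 7) ∈ T) :
    Lb h ≤ T := Lc_le.2 fun a ha => by
  have ha : a < 7 := of_decide_eq_true ((Nat.testBit_two_pow_sub_one 7 a).symm.trans ha)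
  obtain ⟨e1, e2⟩ := k1.2.2.2.2 a ha
  have := eqQ h ok.1 e1 (g := gn h M7 a) fun i j => congrFun (congrFun (mt_gn h ok.2 a) i) j
  rw [← this]
  refine ev_mem (H := T.comap mk) fun b hb => ?_
  rcases e2 b hb with rfl | rfl | rfl | rfl
  · exact h2
  · exact mem_comap.2 ((mkX h k2.1 (mt_cW h _)).symm ▸ h1 _ (by
      rw [M0, mem_comap, Perm.mem_alternatingGroup]; decide))
  · exact mem_comap.2 ((mkX h k2.2.1 (mt_cW h _)).symm ▸ h1 _ (by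
      rw [M0, mem_comap, Perm.mem_alternatingGroup]; decide))
  · exact mem_comap.2 ((mkX h k2.2.2.1 (mt_cW h _)).symm ▸ h1 _ (by
      rw [M0, mem_comap]; exact one_mem _))

theorem cen_iff {g : GG F} : mk g = 1 ↔ ∃ t, rho h (zW t) = g :=
  (QuotientGroup.eq_one_iff g).trans ⟨fun hg => cen_M h fun _ _ => (mem_center_iff.1 hg _).symm,
    by rintro ⟨t, rfl⟩; exact zW_cen h t⟩

theorem card_cen : Nat.card (mk : GG F →* _).ker = 3 := by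
  rw [← Nat.card_zmod 3]
  exact (Nat.card_congr (Equiv.ofBijective (fun t => (⟨rho h (zW t), (cen_iff h).2 ⟨t, rfl⟩⟩ : (mk : GG F →* _).ker))
    ⟨fun a b e => congrFun (congrArg W.v (rho_inj h (congrArg Subtype.val e))) 0,
      fun g => ((cen_iff h).1 g.2).imp fun _ e => Subtype.ext e⟩)).symm

theorem exists_psi [Fintype F] {F9 : Type} [Field F9] [Fintype F9] (hF : Fintype.card F9 = 9) :
    Nat.card (PSU 4 F9 3) = 3265920 ∧ Nonempty (PSU 4 F9 3 ≃* Lb h) := by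
  obtain ⟨φ9, h9⟩ := fm9 hF
  have hc : Nat.card (PSU 4 F9 3) = 3265920 := by
    have h1 := S0280.result (q := 3) hF 4 (by norm_num)
    simp [Finset.prod_range_succ, Nat.even_iff] at h1
    omega
  have : Finite (PSU 4 F9 3) := Nat.finite_of_card_ne_zero (by omega)
  obtain ⟨_, g, pt, H⟩ := md_su h9 (q := 3) hF (by norm_num) U43.hm (by decide) U43.hAm U43.hInj hc
  have hb : ∀ a, Nat.testBit 127 a = false → 7 ≤ a := fun a ha =>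
    not_lt.1 (of_decide_eq_false ((Nat.testBit_two_pow_sub_one 7 a).symm.trans ha))
  obtain ⟨ψ, hψ⟩ := exists_hom (U43.relP H) (U43.htb H).1 (fun a => mk (gn h M7 a))
    (fun w hw => ⟨U43.hP H w hw, by
      rw [← map_ev]; exact (eqZ_sound h ok.2 (k1.1 w hw) (mt_cW h 1)).trans (by rw [map_one]; rfl)⟩)
    fun a ha => ⟨H.one a (hb a ha), by rw [gn_one h (hb a ha), map_one]⟩
  have hr : ψ.range = Lb h := by
    rw [MonoidHom.range_eq_map, ← (U43.htb H).1]; exact Lc_map ψ _ _ hψ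
  have := S0283.result (q := 3) hF 4 (by norm_num) (by norm_num)
  have hi : Function.Injective ψ := by
    refine (MonoidHom.ker_eq_bot_iff ψ).1 ((ψ.normal_ker.eq_bot_or_eq_top).resolve_right fun e => ?_)
    have h1 : mk (rho h aW) ∈ ψ.range := hr ▸ M0_le h aW (by rw [M0, mem_comap]; exact one_mem _)
    obtain ⟨y, hy⟩ := h1
    obtain ⟨t, ht⟩ := (cen_iff h).1 (hy.symm.trans (show y ∈ ψ.ker from e ▸ mem_top y))
    have := congrArg W.v (rho_inj h ht)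
    revert this; clear * -; revert t; decide
  exact ⟨hc, ⟨(MonoidHom.ofInjective hi).trans (MulEquiv.subgroupCongr hr)⟩⟩

end

end Cfsg.Agent.H28.Su
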