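import Mathlib
import Cfsg.Agent.H28.Su3

/-! `SU₆(2)`: the three subgroups are not conjugate. -/

set_option autoImplicit false
set_option maxRecDepth 100000

namespace Cfsg.Agent.H28.Su
open Cfsg.Agent.H25 Cfsg.Agent.H28 Matrix Subgroup Equiv

theorem TT_le : TT.comap pr ≤ M0 := fun x hx =>
  (by decide +kernel : ∀ s ∈ TL, Perm.sign s = 1) _ hx

theorem ker_le : pr.ker ≤ TT.comap pr := fun x hx => by
  rw [mem_comap, show pr x = 1 from hx]; exact one_mem _

section
variable {F : Type} [Field F] {φ : ℕ → F} (h : FM K4 φ)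
include h

theorem mon_inv (v : Fin 6 → ZMod 3) : mon φ 1 (-v) * mon φ 1 v = 1 := by
  rw [mon_mul h, ← mon_one h]; congr 1; ext j; simp

def al (t : ZMod 3) : GG F →* GG F where
  toFun g := mkG h (mon φ 1 (uu t) * mt F g * mon φ 1 (-uu t))
    (by rw [det_mul, det_mul, mt_det, mul_one, mul_comm, ← det_mul, mon_inv h, det_one])
    (by
      rw [Matrix.map_mul, Matrix.map_mul, transpose_mul, transpose_mul]
      simp only [mul_assoc]
      rw [← mul_assoc (mon φ 1 (uu t))ᵀ, mon_un h, one_mul, ← mul_assoc (mt F g)ᵀ, mt_un' h, one_mul, mon_un h])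
  map_one' := mt_inj (by
    show mon φ 1 (uu t) * mt F 1 * mon φ 1 (-uu t) = _
    rw [map_one, mul_one, mul_eq_one_comm, mon_inv h])
  map_mul' x y := mt_inj (by
    refine Eq.trans ?_ (map_mul (mt F) _ _).symm
    show mon φ 1 (uu t) * mt F (x * y) * mon φ 1 (-uu t) = mon φ 1 (uu t) * mt F x * mon φ 1 (-uu t) *
      (mon φ 1 (uu t) * mt F y * mon φ 1 (-uu t))
    simp only [mul_assoc]
    rw [← mul_assoc (mon φ 1 (-uu t)), mon_inv h, one_mul, map_mul, mul_assoc])

theorem mt_al (t : ZMod 3) (g : GG F) (i j : Fin 6) :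
    mt F (al h t g) i j = wf φ (uu t i) * mt F g i j * wf φ (-uu t j) := by
  show (mon φ 1 (uu t) * mt F g * mon φ 1 (-uu t)) i j = _
  rw [mon_mulR h, mon_mulL h]; rfl

theorem al_al (s t : ZMod 3) (g : GG F) : al h s (al h t g) = al h (s + t) g := mt_inj (by
  ext i j
  have e : ∀ i, uu (s + t) i = uu s i + uu t i := fun i => by unfold uu; split_ifs <;> simp
  rw [mt_al, mt_al, mt_al, e, e, neg_add, wf_add h, wf_add h]; ring)

theorem al_zero (g : GG F) : al h 0 g = g := mt_inj (by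
  ext i j; simp [mt_al, uu, wf_zero h])

theorem al_inj (t : ZMod 3) : Function.Injective (al h t) := fun a b e => by
  rw [← al_zero h a, ← al_zero h b, ← neg_add_cancel t, ← al_al, ← al_al, e]

theorem al_rho (t : ZMod 3) (x : W) : al h t (rho h x) = rho h ⟨x.s, fun j => uu t (x.s j) + x.v j - uu t j, by
    rw [Finset.sum_sub_distrib, Finset.sum_add_distrib, Equiv.sum_comp x.s (uu t), x.h]; simp⟩ := mt_inj (by
  ext i j
  simp only [mt_al, mt_rho, mon, of_apply]
  split_ifs with e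
  · rw [e, sub_eq_add_neg, wf_add h, wf_add h]
  · simp)

noncomputable def Lt (t : ZMod 3) : Subgroup (GG F) := (LL h).map (al h t)

theorem M0_Lt (t : ZMod 3) {x : W} (hx : x ∈ M0) : rho h x ∈ Lt h t :=
  ⟨al h (-t) (rho h x), by rw [al_rho]; exact M0_le h _ hx, by rw [al_al, add_neg_cancel, al_zero]⟩

theorem tau_L {g : GG F} (hg : g ∈ LL h) :
    rho h (pW (swap 4 5)) * g * (rho h (pW (swap 4 5)))⁻¹ ∈ LL h := by
  have := Lb_le h (T := (Lb h).comap (MulAut.conj (mk (rho h (pW (swap 4 5))))).toMonoidHom)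
    (fun x hx => by
      have := M0_le h _ ((normal_comap pr).conj_mem x hx (pW (swap 4 5)))
      rw [map_mul, map_mul, map_inv] at this
      exact this)
    (by
      have e := eqQ h ok.1 k2.2.2.2.2.2.1 (mt_X h 7)
      have e2 := mkX h k2.2.2.2.1 (mt_cW h _)
      simp only [ev_cons, ev_nil, mul_one, map_mul, e2] at e
      have e3 : (pW (swap 4 5))⁻¹ = pW (swap 4 5) := W.ext (swap_inv _ _) (funext fun j => neg_zero)
      show _ * _ * _ ∈ Lb h
      rw [← map_inv, ← map_inv, e3, mul_assoc, e]; exact (X_mem h).1)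
  exact this hg

theorem norm_Lt (t : ZMod 3) (y : W) {g : GG F} (hg : g ∈ Lt h t) : rho h y * g * (rho h y)⁻¹ ∈ Lt h t := by
  have e0 : ∀ y ∈ M0, ∀ g ∈ Lt h t, rho h y * g * (rho h y)⁻¹ ∈ Lt h t := fun y hy g hg =>
    mul_mem (mul_mem (M0_Lt h t hy) hg) (inv_mem (M0_Lt h t hy))
  rcases Int.units_eq_one_or (Perm.sign y.s) with e | e
  · exact e0 y e g hg
  · obtain ⟨l, hl, rfl⟩ := hg
    have e1 : al h t (rho h (pW (swap 4 5))) = rho h (pW (swap 4 5)) := by
      rw [al_rho]; congr 1; refine W.ext rfl ?_; simp only [pW]; clear * -; revert t; decide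
    have := e0 (y * (pW (swap 4 5))⁻¹) (by
      rw [M0, mem_comap, Perm.mem_alternatingGroup]
      show Perm.sign (y.s * (swap 4 5)⁻¹) = 1
      rw [Perm.sign_mul, e, swap_inv, Perm.sign_swap (by decide)]; simp) _ ⟨_, tau_L h hl, rfl⟩
    rw [map_mul (al h t), map_mul (al h t), map_inv (al h t), e1, map_mul, map_inv] at this
    convert this using 1; group

theorem not_mem (hc : Nat.card (Lb h) = 3265920) {t : ZMod 3} (ht : t ≠ 0) : al h t (gn h Ms 7) ∉ LL h := by
  intro hm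
  obtain ⟨e1, e2, e3, e4, e5⟩ := k2.2.2.2.2.2.2.1 t ht
  have a1 := mkX h e1 (g := al h t (gn h Ms 7)) fun i j => by rw [mt_al, h.mul, h.mul, mt_X]; rfl
  have a2 : ev (gn h Ms) (gd [] WE t.val) ∈ LL h := ev_mem fun b hb => by
    rcases e5 b hb with ⟨-, e⟩ | rfl
    · rw [gn, e]; exact gn_mem h b
    · exact mem_comap.2 (a1 ▸ mem_comap.1 hm)
  have a3 := eqQ h ok.1 e2 (mt_cW h 1)
  rw [ev_rp, map_pow, map_one, map_one] at a3
  haveI : Fact (Nat.Prime 11) := ⟨by norm_num⟩
  have a4 := orderOf_eq_prime a3 fun e => by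
    obtain ⟨s, hs⟩ := (cen_iff h).1 e
    have := congrFun (congrFun (congrArg (mt F) hs) 0) 1
    rw [mt_ev h ok.1, mt_rho] at this
    exact h.ne_zero e3 e4 (this.symm.trans (by simp [mon, zW]))
  have a5 := orderOf_dvd_natCard (Lb h) (mem_comap.1 a2)
  rw [a4, hc] at a5
  norm_num at a5

theorem card_rho {A : Subgroup (GG F)} (hA : ∀ a ∈ A, ∃ x, rho h x = a) :
    Nat.card (A.comap (rho h)) = Nat.card A := by
  rw [card_comap _ _ hA, (MonoidHom.ker_eq_bot_iff _).2 (rho_inj h), card_bot, one_mul]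

theorem card_S : Nat.card ((TT.comap pr).map (rho h)) = 3 ^ 7 := by
  rw [card_map_of_injective (rho_inj h), card_pr, card_TT]; rfl

theorem card_G [Fintype F] (hF : Fintype.card F = 4) : ¬ 3 ^ 8 ∣ Nat.card (GG F) := by
  have h1 := S0280.result (q := 2) hF 6 (by norm_num)
  simp [Finset.prod_range_succ, Nat.even_iff] at h1
  have h2 := card_cen h
  rw [QuotientGroup.ker_mk'] at h2
  rw [card_eq_card_quotient_mul_card_subgroup (center (GG F)), h2,
    show Nat.card (PSU 6 F 2) = 9196830720 by omega]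
  norm_num

theorem nonconj [Fintype F] (hF : Fintype.card F = 4) (hc : Nat.card (Lb h) = 3265920) {s t : ZMod 3}
    {g : GG F} (e : (Lt h s).map (MulAut.conj g).toMonoidHom = Lt h t) : s = t := by
  have hS : ∀ t, (TT.comap pr).map (rho h) ≤ Lt h t := by
    rintro t _ ⟨x, hx, rfl⟩; exact M0_Lt h t (TT_le hx)
  obtain ⟨c, hc1, hc2⟩ := syl (card_G h hF) (T := Lt h t)
    (A := ((TT.comap pr).map (rho h)).map (MulAut.conj g).toMonoidHom) (e ▸ map_mono (hS s)) (hS t)
    ((card_map_of_injective (MulAut.conj g).injective).trans (card_S h)) (card_S h)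
  let A := (pr.ker.map (rho h)).map (MulAut.conj (c * g)).toMonoidHom
  have a1 : ∀ a ∈ A, a ∈ (TT.comap pr).map (rho h) := by
    rintro _ ⟨_, ⟨x, hx, rfl⟩, rfl⟩
    have := hc2 _ ⟨_, ⟨x, ker_le hx, rfl⟩, rfl⟩
    simpa [mul_assoc] using this
  have a2 := uniq (A := A.comap (rho h)) (fun x hx => by
      obtain ⟨y, hy, e⟩ := a1 _ hx
      exact rho_inj h e ▸ hy)
    (fun a ha b hb => rho_inj h (by
      obtain ⟨_, ⟨x, hx, rfl⟩, e1⟩ := ha
      obtain ⟨_, ⟨y, hy, rfl⟩, e2⟩ := hb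
      rw [map_mul, map_mul, ← e1, ← e2, ← map_mul, ← map_mul, ← map_mul, ← map_mul]
      congr 2
      have hx : x.s = 1 := hx
      have hy : y.s = 1 := hy
      exact W.ext (by simp [hx, hy]) (funext fun j => by simp [hx, hy, add_comm])))
    (by rw [card_rho h fun a ha => (a1 a ha).imp fun _ e => e.2,
      card_map_of_injective (MulAut.conj (c * g)).injective, card_map_of_injective (rho_inj h), card_ker])
  obtain ⟨y, hy⟩ := norm_D h (g := c * g) fun x hx => by
    have b1 : c * g * rho h x * (c * g)⁻¹ ∈ A := ⟨_, ⟨x, hx, rfl⟩, rfl⟩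
    obtain ⟨y, -, e⟩ := a1 _ b1
    exact ⟨y, a2 ▸ (mem_comap.2 (e ▸ b1)), by rw [e]; group⟩
  by_contra hn
  refine not_mem h hc (t := -s + t) (fun e => hn (neg_add_eq_zero.1 e)) ?_
  have b1 : c⁻¹ * al h t (gn h Ms 7) * c ∈ Lt h t :=
    mul_mem (mul_mem (inv_mem hc1) ⟨_, (X_mem h).1, rfl⟩) hc1
  rw [← e] at b1
  obtain ⟨l, hl, e2⟩ := b1
  have b2 := norm_Lt h s y hl
  have e3 : g * l * g⁻¹ = _ := e2
  rw [hy, show c * g * l * (c * g)⁻¹ = c * (g * l * g⁻¹) * c⁻¹ by group, e3] at b2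
  obtain ⟨m, hm, e4⟩ := b2
  rw [← al_al, show al h t (gn h Ms 7) = al h s m by rw [e4]; group, al_al, neg_add_cancel, al_zero]
  exact hm

end

end Cfsg.Agent.H28.Su
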