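import Mathlib
import Cfsg.Agent.H28.Su4

/-! `SU₆(2)`: every `3.U₄(3)` is conjugate to one of the three. -/

set_option autoImplicit false
set_option maxRecDepth 100000

namespace Cfsg.Agent.H28.Su
open Cfsg.Agent.H25 Cfsg.Agent.H28 Matrix Subgroup Equiv

instance : DecidableEq W := fun x y => decidable_of_iff (x.s = y.s ∧ x.v = y.v) W.ext_iff.symm

theorem swp : ∀ i k : Fin 6, i = k ∨ sW i = 1 ∨ sW k = 1 ∨ ∃ a b : Fin 6, a ≠ b ∧
    pW (swap i k * swap a b) * sW i = sW k * pW (swap i k * swap a b) ∧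
    pW (swap i k * swap a b) * sW k = sW i * pW (swap i k * swap a b) := by decide +kernel

theorem ker_comm {x y : W} (hx : x.s = 1) (hy : y.s = 1) : x * y = y * x :=
  W.ext (by simp [hx, hy]) (funext fun j => by simp [hx, hy, add_comm])

def b0 : Fin 3 → Fin 6 := ![0, 1, 2]
def b1 : Fin 3 → Fin 6 := ![3, 4, 5]

theorem sum_blk {F : Type*} [AddCommMonoid F] (f : Fin 6 → F) : ∑ i, f i = ∑ i, f (b0 i) + ∑ i, f (b1 i) := by
  simp [Fin.sum_univ_six, Fin.sum_univ_three, b0, b1, add_assoc]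

variable {F : Type} [Field F] {φ : ℕ → F} (h : FM K4 φ)

def mu : W →* PSU 6 F 2 := mk.comp (rho h)

theorem mu_one {x : W} (e : mu h x = 1) : ∃ t, zW t = x := ((cen_iff h).1 e).imp fun _ e => rho_inj h e

theorem blk {g : GG F} (hg : ∀ i j : Fin 6, i.val / 3 ≠ j.val / 3 → mt F g i j = 0) {x : W} (hx : x.s = 1)
    (hv : ∀ i j : Fin 6, i.val / 3 = j.val / 3 → x.v i = x.v j) : g * rho h x = rho h x * g := mt_inj (by
  ext i j
  rw [map_mul, map_mul, mt_rho, hx, mon_mulL h, mon_mulR h]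
  by_cases e : i.val / 3 = j.val / 3
  · rw [hv i j e, mul_comm]
  · rw [hg i j e, mul_zero, zero_mul])

theorem ent_eq {g : GG F} {x y : W} (hx : x.s = 1) (hy : y.s = 1) (e : g * rho h x = rho h y * g)
    {i j : Fin 6} (hn : mt F g i j ≠ 0) : x.v j = y.v i := by
  have := congrFun (congrFun (congrArg (mt F) e) i) j
  rw [map_mul, map_mul, mt_rho, mt_rho, hx, hy, mon_mulL h, mon_mulR h, mul_comm] at this
  exact wf_inj h (mul_right_cancel₀ hn this)

variable {Γ : Type} [Group Γ] [Finite Γ] (ι : Γ →* GG F) (θ : Γ →* PSU 6 F 2)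

/-- the setting -/
structure St : Prop where
  hι : Function.Injective ι
  hr : θ.range = Lb h
  hk : θ.ker = center Γ
  h3 : Nat.card θ.ker = 3

def pu (X : Subgroup W) : Subgroup Γ := (X.map (mu h)).comap θ
def ba (X : Subgroup W) : Subgroup W := ((pu h θ X).map ι).comap (rho h)

variable {h ι θ} (H : St h ι θ)
include H

theorem St.lift {g : GG F} (hg : g ∈ LL h) : ∃ k, θ k = Su.mk g :=
  (H.hr.symm ▸ mem_comap.1 hg : Su.mk g ∈ θ.range)

theorem St.card_pu {X : Subgroup W} (h1 : pr.ker ≤ X) (h2 : X ≤ M0) : Nat.card (pu h θ X) = Nat.card X := by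
  have e1 : Nat.card (mu h).ker = 3 := by
    rw [← card_cen h, ← card_rho h fun a ha => ((cen_iff h).1 ha).elim fun _ e => ⟨_, e⟩]; rfl
  have e2 := card_comap (mu h) (X.map (mu h)) (map_le_range _ _)
  rw [comap_map_eq, sup_eq_left.2 fun x hx => h1 (by obtain ⟨t, rfl⟩ := mu_one h hx; rfl), e1] at e2
  rw [pu, card_comap θ _ (by rintro _ ⟨x, hx, rfl⟩; exact H.lift (M0_le h x (h2 hx))), H.h3, e2]

theorem St.cen {a : Γ} (ha : θ a = 1) (b : Γ) : b * a = a * b :=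
  mem_center_iff.1 (H.hk ▸ (ha : a ∈ θ.ker)) b

theorem St.swq {a b g : Γ} (e0 : θ a * θ b = θ b * θ a) (e1 : θ g * θ a = θ b * θ g)
    (e2 : θ g * θ b = θ a * θ g) : a * b = b * a := by
  have c0 : θ (a * b * a⁻¹ * b⁻¹) = 1 := by simp [e0]
  have c1 := H.cen (a := b⁻¹ * (g * a * g⁻¹)) (by simp [e1])
  have c2 := H.cen (a := a⁻¹ * (g * b * g⁻¹)) (by simp [e2])
  have c3 : (a * b * a⁻¹ * b⁻¹) ^ 3 = 1 := by
    have := pow_card_eq_one' (x := (⟨_, c0⟩ : θ.ker))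
    rw [H.h3] at this; exact congrArg Subtype.val this
  have c4 : a * b * a⁻¹ * b⁻¹ = (b * (b⁻¹ * (g * a * g⁻¹))) * (a * (a⁻¹ * (g * b * g⁻¹))) *
      (b * (b⁻¹ * (g * a * g⁻¹)))⁻¹ * (a * (a⁻¹ * (g * b * g⁻¹)))⁻¹ := by
    rw [← mul_inv_cancel_right (a * b * a⁻¹ * b⁻¹) g, ← H.cen c0 g]; group
  generalize b⁻¹ * (g * a * g⁻¹) = z at c1 c4
  generalize a⁻¹ * (g * b * g⁻¹) = w at c2 c4
  have c5 : (b * z) * (a * w) * (b * z)⁻¹ * (a * w)⁻¹ = (a * b * a⁻¹ * b⁻¹)⁻¹ := by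
    rw [show b * z * (a * w) * (b * z)⁻¹ * (a * w)⁻¹ = b * (z * (a * w) * z⁻¹) * b⁻¹ * (a * w)⁻¹ by group,
      ← c1, mul_inv_cancel_right, show b * (a * w) * b⁻¹ * (a * w)⁻¹ = b * a * (w * b⁻¹ * w⁻¹) * a⁻¹ by group,
      ← c2, mul_inv_cancel_right]; group
  rw [c5, eq_inv_iff_mul_eq_one] at c4
  rw [pow_succ, pow_two, c4, one_mul, mul_inv_eq_one, mul_inv_eq_iff_eq_mul] at c3
  exact c3

theorem St.ab : ∀ a ∈ pu h θ pr.ker, ∀ b ∈ pu h θ pr.ker, a * b = b * a := by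
  choose l hl using fun i => H.lift (M0_le h (sW i) (TT_le (ker_le rfl)))
  have hl : ∀ i, θ (l i) = mu h (sW i) := hl
  let s : Set Γ := Set.range l ∪ θ.ker
  have e1 : ∀ a ∈ s, ∀ b ∈ s, a * b = b * a := by
    rintro _ (⟨i, rfl⟩ | ha) _ (⟨k, rfl⟩ | hb)
    · rcases swp i k with rfl | e | e | ⟨a, b, hab, e1, e2⟩
      · rfl
      · exact (H.cen (by rw [hl, e, map_one]) _).symm
      · exact H.cen (by rw [hl, e, map_one]) _
      · by_cases hik : i = k
        · rw [hik]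
        obtain ⟨g, hg⟩ := H.lift (M0_le h (pW (swap i k * swap a b)) (by
          rw [M0, mem_comap, Perm.mem_alternatingGroup]
          simp [pr, pW, Perm.sign_swap hik, Perm.sign_swap hab]))
        have hg : θ g = mu h _ := hg
        exact H.swq (g := g) (by rw [hl, hl, ← map_mul, ← map_mul, ker_comm rfl rfl])
          (by rw [hg, hl, hl, ← map_mul, ← map_mul, e1]) (by rw [hg, hl, hl, ← map_mul, ← map_mul, e2])
    exacts [H.cen hb _, (H.cen ha _).symm, H.cen hb _]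
  have e2 : ∀ a ∈ closure s, ∀ b ∈ closure s, a * b = b * a := fun a ha b hb =>
    mem_centralizer_singleton_iff.1 ((closure_le (centralizer {b})).2 (fun x hx =>
      mem_centralizer_singleton_iff.2 (mem_centralizer_iff.1 ((closure_le (centralizer s)).2
        (fun y hy => mem_centralizer_iff.2 fun z hz => e1 z hz y hy) hb) x hx)) ha)
  have e3 : pu h θ pr.ker ≤ closure s := by
    rintro a ⟨d, hd, e⟩
    obtain ⟨a', ha', e'⟩ := gen_D (B := ((closure s).map θ).comap (mu h))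
      (fun i => ⟨l i, subset_closure (Or.inl ⟨i, rfl⟩), hl i⟩) hd
    have : a'⁻¹ * a ∈ closure s := subset_closure (Or.inr (show θ _ = 1 by simp [e', e]))
    simpa using mul_mem ha' this
  exact fun a ha b hb => e2 a (e3 ha) b (e3 hb)

theorem St.card_ba {X : Subgroup W} (h1 : pr.ker ≤ X) (h2 : X ≤ M0)
    (h3 : ∀ k ∈ pu h θ X, ∃ x, rho h x = ι k) : Nat.card (ba h ι θ X) = Nat.card X := by
  rw [ba, card_rho h (by rintro _ ⟨k, hk, rfl⟩; exact h3 k hk), card_map_of_injective H.hι, H.card_pu h1 h2]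

variable (hS : ∀ k ∈ pu h θ (TT.comap pr), ∃ x ∈ TT.comap pr, rho h x = ι k)
include hS

theorem St.baS : ba h ι θ (TT.comap pr) = TT.comap pr :=
  eq_of_le_of_card_ge (by
    rintro x ⟨k, hk, e⟩
    obtain ⟨y, hy, e'⟩ := hS k hk
    exact rho_inj h (e'.trans e) ▸ hy) (H.card_ba ker_le TT_le fun k hk => (hS k hk).imp fun _ e => e.2).ge

theorem St.baD : ba h ι θ pr.ker = pr.ker :=
  have e : pu h θ pr.ker ≤ pu h θ (TT.comap pr) := comap_mono (map_mono ker_le)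
  uniq (H.baS hS ▸ comap_mono (map_mono e)) (by
    rintro a ⟨k, hk, e1⟩ b ⟨l, hl, e2⟩
    exact rho_inj h (by rw [map_mul, map_mul, ← e1, ← e2, ← map_mul, ← map_mul, H.ab k hk l hl]))
    (by rw [H.card_ba le_rfl (ker_le.trans TT_le) fun k hk => (hS k (e hk)).imp fun _ e => e.2, card_ker])

theorem St.dD {k : Γ} (hk : k ∈ pu h θ pr.ker) : ∃ x : W, x.s = 1 ∧ rho h x = ι k := by
  obtain ⟨x, -, e⟩ := hS k (comap_mono (map_mono ker_le) hk)
  exact ⟨x, (H.baD hS ▸ (⟨k, hk, e.symm⟩ : x ∈ ba h ι θ pr.ker) : x ∈ pr.ker), e⟩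

theorem St.uD {x : W} (hx : x.s = 1) : ∃ k y, y.s = 1 ∧ mu h y = θ k ∧ ι k = rho h x := by
  obtain ⟨k, ⟨y, h1, h2⟩, e⟩ : x ∈ ba h ι θ pr.ker := (H.baD hS).symm ▸ hx
  exact ⟨k, y, h1, h2, e⟩

theorem St.dM {k : Γ} (hk : k ∈ pu h θ M0) : ∃ x, rho h x = ι k := norm_D h fun x hx => by
  obtain ⟨e, y, h1, h2, h3⟩ := H.uD hS hx
  obtain ⟨m, -, h4⟩ := hk
  obtain ⟨z, h5, h6⟩ := H.dD hS (k := k * e * k⁻¹) ⟨m * y * m⁻¹, pr.normal_ker.conj_mem y h1 m, by
    simp [h2, h4]⟩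
  exact ⟨z, h5, by rw [h6, ← h3]; simp⟩

theorem St.baM : ba h ι θ M0 = M0 :=
  eq_M0 (H.baD hS ▸ comap_mono (map_mono (comap_mono (map_mono (ker_le.trans TT_le)))))
    (H.card_ba (ker_le.trans TT_le) le_rfl fun _ hk => H.dM hS hk)

theorem St.sc {z : Γ} (hz : θ z = 1) : ∃ t, rho h (zW t) = ι z := cen_M h fun x hx => by
  obtain ⟨k, -, e⟩ : x ∈ ba h ι θ M0 := (H.baM hS).symm ▸ hx
  rw [← e, ← map_mul, ← map_mul, H.cen hz]

theorem St.fix {k : Γ} {x y : W} (hx : x.s = 1) (hy : y.s = 1) (e1 : ι k = rho h x) (e2 : mu h y = θ k)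
    (hv : ∀ i j : Fin 6, i.val / 3 = j.val / 3 → y.v i = y.v j) :
    ∀ i j : Fin 6, i.val / 3 = j.val / 3 → x.v i = x.v j := by
  have key : ∀ c ∈ TL, ∀ j0, c j0 = j0 → ∀ j, x.v j = x.v (c j) := fun c hc j0 h0 => by
    obtain ⟨s, ⟨m, hm, e3⟩, e4⟩ : pW c ∈ ba h ι θ (TT.comap pr) := (H.baS hS).symm ▸ hc
    have e5 : m * y = y * m := W.ext (by simp [hy]) (funext fun j => by
      simp only [mul_v, hy, Perm.one_apply]
      rw [add_comm, hv (m.s j) j ((by decide +kernel : ∀ c ∈ TL, ∀ j : Fin 6, (c j).val / 3 = j.val / 3) _ hm j)])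
    obtain ⟨t, ht⟩ := H.sc hS (z := s * k * (k * s)⁻¹) (by
      rw [map_mul, map_inv, map_mul, map_mul, ← e2, ← e3, ← map_mul, ← map_mul, e5, mul_inv_cancel])
    rw [map_mul, map_inv, map_mul, map_mul, e1, e4, eq_mul_inv_iff_mul_eq, ← map_mul, ← map_mul, ← map_mul] at ht
    have e6 := fun j => congrFun (congrArg W.v (rho_inj h ht)) j
    simp only [mul_v, zW, pW, Pi.zero_apply, add_zero, zero_add] at e6
    have e7 := e6 j0
    rw [h0, add_eq_right] at e7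
    intro j; rw [← e6 j, e7, zero_add]
  have a := key c1 (by decide) 3 (by decide)
  have b := key c2 (by decide) 0 (by decide)
  have a0 : x.v 0 = x.v 2 := a 0
  have a1 : x.v 1 = x.v 0 := a 1
  have b0 : x.v 3 = x.v 5 := b 3
  have b1 : x.v 4 = x.v 3 := b 4
  intro i j
  fin_cases i <;> fin_cases j <;> simp [← a0, a1, ← b0, b1]

theorem St.nomon {x : Γ} (hx : θ x = Su.mk (gn h Ms 7)) {d d' : W} (h1 : d.s = 1) (h2 : d'.s = 1)
    (e : ι x * rho h d = rho h d' * ι x) : ∀ i j : Fin 6, i.val / 3 = j.val / 3 → d.v i = d.v j := by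
  obtain ⟨k, y, a1, a2, a3⟩ := H.uD hS h1
  obtain ⟨k', y', b1, b2, b3⟩ := H.uD hS h2
  rw [← a3, ← b3, ← map_mul, ← map_mul] at e
  have e1 := congrArg θ (H.hι e)
  rw [map_mul, map_mul, hx, ← a2, ← b2] at e1
  obtain ⟨t, ht⟩ := (cen_iff h (g := gn h Ms 7 * rho h y * (rho h y' * gn h Ms 7)⁻¹)).1 (by
    rw [map_mul, map_inv, map_mul, map_mul, mul_inv_eq_one]; exact e1)
  rw [eq_mul_inv_iff_mul_eq, ← mul_assoc, ← map_mul] at ht
  have e2 : ∀ i j : Fin 6, i.val / 3 = j.val / 3 → y.v j = (zW t * y').v i := fun i j hij =>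
    ent_eq h a1 (by simp [b1, zW]) ht.symm (by
      have := k2.2.2.2.2.2.2.2.2 i j
      rw [if_pos hij] at this
      rw [mt_X]; exact h.ne_zero this.1 this.2)
  exact H.fix hS h1 a1 a3 a2 fun i j hij => (e2 i i rfl).trans (e2 i j hij).symm

theorem St.blkx {x : Γ} (hx : θ x = Su.mk (gn h Ms 7)) :
    ∀ i j : Fin 6, i.val / 3 ≠ j.val / 3 → mt F (ι x) i j = 0 := by
  obtain ⟨a, ha⟩ := H.lift (M0_le h aW (TT_le (ker_le rfl)))
  have ha : θ a = mu h aW := ha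
  obtain ⟨y, hy, e⟩ := H.dD hS (k := a) ⟨aW, rfl, ha.symm⟩
  have e1 := H.fix hS hy (y := aW) rfl e.symm ha.symm (by decide)
  have e2 : y.v 0 ≠ y.v 3 := fun e2 => by
    have : y = zW (y.v 0) := W.ext hy (funext fun j => by
      by_cases hj : j.val / 3 = 0
      exacts [e1 j 0 hj, (e1 j 3 (by have := j.2; show _ = 1; omega)).trans e2.symm])
    have e3 : a ∈ θ.ker := H.hk ▸ mem_center_iff.2 fun b => H.hι (by
      rw [map_mul, map_mul, ← e, this]; exact mem_center_iff.1 (zW_cen h _) _)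
    obtain ⟨t, ht⟩ := mu_one h (ha.symm.trans e3)
    revert ht; clear * -; revert t; decide
  have e3 := blk h (g := gn h Ms 7) (fun i j hij => by
    have := k2.2.2.2.2.2.2.2.2 i j
    rw [if_neg hij] at this
    rw [mt_X, this, h.zero]) (x := aW) rfl (by decide)
  obtain ⟨t, ht⟩ := H.sc hS (z := x * a * (a * x)⁻¹) (by
    rw [map_mul, map_inv, map_mul, map_mul, hx, ha, mul_inv_eq_one]
    exact (map_mul _ _ _).symm.trans ((congrArg Su.mk e3).trans (map_mul _ _ _)))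
  rw [map_mul, map_inv, map_mul, map_mul, ← e, eq_mul_inv_iff_mul_eq, ← mul_assoc, ← map_mul] at ht
  have e4 : ∀ i j, mt F (ι x) i j ≠ 0 → y.v j = t + y.v i := fun i j hn =>
    ent_eq h hy (by simp [hy, zW]) ht.symm hn
  have e5 : ∀ j, ∃ i, y.v j = t + y.v i := fun j => by
    by_contra hn
    have := mt_un (ι x) j j
    simp [fun i => not_not.1 fun e => hn ⟨i, e4 i j e⟩] at this
  have e6 : ∀ i, y.v i = if i.val / 3 = 0 then y.v 0 else y.v 3 := fun i => by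
    split_ifs with hi
    exacts [e1 i 0 hi, e1 i 3 (by have := i.2; show _ = 1; omega)]
  have e7 : t = 0 := by
    obtain ⟨i, hi⟩ := e5 0
    obtain ⟨j, hj⟩ := e5 3
    rw [e6 i] at hi
    rw [e6 j] at hj
    revert hi hj e2
    generalize y.v 0 = p
    generalize y.v 3 = q
    split_ifs <;> (clear * -; revert t p q; decide)
  intro i j hij
  by_contra hn
  have := e4 i j hn
  rw [e7, zero_add, e6 i, e6 j] at this
  have hi := i.2
  have hj := j.2
  split_ifs at this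
  exacts [by omega, e2 this, e2 this.symm, by omega]

theorem St.memx {x : Γ} (hx : θ x = Su.mk (gn h Ms 7)) : ∃ t, ι x ∈ Lt h t := by
  have z := H.blkx hS hx
  have z0 : ∀ i j, mt F (ι x) (b0 i) (b1 j) = 0 := fun i j => z _ _ (by revert i j; decide)
  have z1 : ∀ i j, mt F (ι x) (b1 i) (b0 j) = 0 := fun i j => z _ _ (by revert i j; decide)
  have hc3 : ∀ i j, i ≠ j → ∑ k, ∑ l, mt F (ι x) i k * mt F (ι x) k l * mt F (ι x) l j = 0 := fun i j hij => by
    have e := eqQ h ok.1 k2.2.2.2.2.1 (mt_cW h 1)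
    simp only [ev_cons, ev_nil, mul_one, map_mul, map_one, ← hx] at e
    obtain ⟨t, ht⟩ := H.sc hS (z := x * x * x) (by rw [map_mul, map_mul, mul_assoc, e])
    have := congrFun (congrFun (congrArg (mt F) ht) i) j
    simp only [map_mul, mul_apply, Finset.sum_mul] at this
    rw [Finset.sum_comm, ← this, mt_rho]
    exact if_neg hij
  have c0 : ∀ i j : Fin 3, b0 i = b0 j ↔ i = j := by decide
  have c1 : ∀ i j : Fin 3, b1 i = b1 j ↔ i = j := by decide
  have cs : ∀ i : Fin 6, (∃ k, i = b0 k) ∨ ∃ k, i = b1 k := by decide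
  rcases lemB h (fun i j => mt F (ι x) (b0 i) (b0 j))
    (fun j k => by simpa [sum_blk, z1, c0] using mt_un (ι x) (b0 j) (b0 k))
    (fun i j hij => by simpa [sum_blk, z0, z1] using hc3 (b0 i) (b0 j) (fun e => hij ((c0 i j).1 e))) with
    ⟨e, u, u', a1, a2, a3⟩ | ⟨t0, t1, t2, a1, a2⟩
  swap
  · have := H.nomon hS hx (d := ⟨1, ![1, 2, 0, 0, 0, 0], by decide⟩)
      (d' := ⟨1, ![t0, t1, t2, 0, 0, 0], by simpa [Fin.sum_univ_six] using a1⟩) rfl rfl (mt_inj (by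
        ext i j
        rw [map_mul, map_mul, mt_rho, mt_rho, mon_mulL h, mon_mulR h]
        rcases cs i with ⟨i, rfl⟩ | ⟨i, rfl⟩ <;> rcases cs j with ⟨j, rfl⟩ | ⟨j, rfl⟩
        · have := a2 i j
          fin_cases i <;> fin_cases j <;> exact this
        · simp [z0]
        · simp [z1]
        · rw [mul_comm]; fin_cases i <;> fin_cases j <;> rfl)) 0 1 rfl
    exact absurd this (by decide)
  rcases lemB h (fun i j => mt F (ι x) (b1 i) (b1 j))
    (fun j k => by simpa [sum_blk, z0, c1] using mt_un (ι x) (b1 j) (b1 k))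
    (fun i j hij => by simpa [sum_blk, z0, z1] using hc3 (b1 i) (b1 j) (fun e => hij ((c1 i j).1 e))) with
    ⟨e', w, w', b1, b2, b3⟩ | ⟨t0, t1, t2, a1, a2⟩
  swap
  · have := H.nomon hS hx (d := ⟨1, ![0, 0, 0, 1, 2, 0], by decide⟩)
      (d' := ⟨1, ![0, 0, 0, t0, t1, t2], by simpa [Fin.sum_univ_six] using a1⟩) rfl rfl (mt_inj (by
        ext i j
        rw [map_mul, map_mul, mt_rho, mt_rho, mon_mulL h, mon_mulR h]
        rcases cs i with ⟨i, rfl⟩ | ⟨i, rfl⟩ <;> rcases cs j with ⟨j, rfl⟩ | ⟨j, rfl⟩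
        · rw [mul_comm]; fin_cases i <;> fin_cases j <;> rfl
        · simp [z0]
        · simp [z1]
        · have := a2 i j
          fin_cases i <;> fin_cases j <;> exact this)) 3 4 rfl
    exact absurd this (by decide)
  let U : Fin 6 → ZMod 3 := ![u 0, u 1, u 2, w 0, w 1, w 2]
  let U' : Fin 6 → ZMod 3 := ![u' 0, u' 1, u' 2, w' 0, w' 1, w' 2]
  have key : ∀ i j, mt F (ι x) i j = wf φ (U i) * mt F (gn h Ms (11 + 2 * e.val + e'.val)) i j * wf φ (U' j) := by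
    intro i j
    rw [mt_X, k2.2.2.2.2.2.2.2.1 e e' a1 b1]
    rcases cs i with ⟨i, rfl⟩ | ⟨i, rfl⟩ <;> rcases cs j with ⟨j, rfl⟩ | ⟨j, rfl⟩
    · rw [a3, wf_add h, wf_add h]; fin_cases i <;> fin_cases j <;> rfl
    · rw [z0, hc, if_neg (by revert i j; decide), h.zero, mul_zero, zero_mul]
    · rw [z1, hc, if_neg (by revert i j; decide), h.zero, mul_zero, zero_mul]
    · rw [b3, wf_add h, wf_add h]; fin_cases i <;> fin_cases j <;> rfl
  have e1 : ∑ i, U i + ∑ i, U' i = 0 := by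
    have : mt F (ι x) = mon φ 1 U * mt F (gn h Ms (11 + 2 * e.val + e'.val)) * mon φ 1 U' := by
      ext i j; rw [mon_mulR h, mon_mulL h, key]
    have := congrArg det this
    rw [det_mul, det_mul, mt_det, mt_det, mon_det h, mon_det h, mul_one, ← wf_add h, ← wf_zero h] at this
    exact (wf_inj h this).symm
  have e2 : e + e' = 0 := by
    rw [← e1, ← a2, ← b2]; simp only [U, U', Fin.sum_univ_six, Fin.sum_univ_three]; simp; ring
  have e3 : gn h Ms (11 + 2 * e.val + e'.val) ∈ LL h := by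
    rcases (by decide : ∀ e e' : ZMod 3, e ≠ 0 → e + e' = 0 → 11 + 2 * e.val + e'.val = 15 ∨
      11 + 2 * e.val + e'.val = 16) e e' a1 e2 with r | r <;> rw [r]
    exacts [(X_mem h).2.1, (X_mem h).2.2]
  have e4 : ∀ t, ∑ i, uu t i = t := by decide
  refine ⟨∑ i, U i, ?_⟩
  have : ι x = rho h ⟨1, fun i => U i - uu (∑ i, U i) i, by rw [Finset.sum_sub_distrib, e4, sub_self]⟩ *
      al h (∑ i, U i) (gn h Ms (11 + 2 * e.val + e'.val)) *
      rho h ⟨1, fun i => U' i + uu (∑ i, U i) i, by rw [Finset.sum_add_distrib, e4, add_comm, e1]⟩ := mt_inj (by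
    ext i j
    rw [map_mul, map_mul, mt_rho, mt_rho, mon_mulR h, mon_mulL h, mt_al, key, mul_assoc, mul_assoc, mul_assoc,
      mul_assoc, ← wf_add h, ← mul_assoc, ← mul_assoc, ← mul_assoc, ← wf_add h]
    simp)
  rw [this]
  exact mul_mem (mul_mem (M0_Lt h _ (TT_le (ker_le rfl))) ⟨_, e3, rfl⟩) (M0_Lt h _ (TT_le (ker_le rfl)))

theorem St.le : ∃ t, ι.range ≤ Lt h t := by
  obtain ⟨x, hx⟩ := H.lift (X_mem h).1
  obtain ⟨t, ht⟩ := H.memx hS hx
  have := Lb_le h (T := ((Lt h t).comap ι).map θ) (fun y hy => by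
    obtain ⟨k, hk⟩ := H.lift (M0_le h y hy)
    obtain ⟨z, hz⟩ := H.dM hS (k := k) ⟨y, hy, hk.symm⟩
    refine ⟨k, mem_comap.2 (hz ▸ M0_Lt h t ?_), hk⟩
    exact H.baM hS ▸ (⟨k, ⟨y, hy, hk.symm⟩, hz.symm⟩ : z ∈ ba h ι θ M0)) ⟨x, ht, hx⟩
  refine ⟨t, ?_⟩
  rintro _ ⟨k, rfl⟩
  obtain ⟨k', h1, h2⟩ := this (H.hr ▸ ⟨k, rfl⟩ : θ k ∈ Lb h)
  obtain ⟨s, hs⟩ := H.sc hS (z := k'⁻¹ * k) (by simp [h2])
  have := mul_mem (mem_comap.1 h1) (hs ▸ M0_Lt h t (x := zW s) (TT_le (ker_le rfl)))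
  simpa using this

end Cfsg.Agent.H28.Su
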