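import Mathlib
import Cfsg.Agent.H28.Su5

/-! `SU₆(2)`: three classes of `3.U₄(3)`. -/

set_option autoImplicit false

namespace Cfsg.Agent.H28.Su
open Cfsg.Agent.H25 Cfsg.Agent.H28 Matrix Subgroup Equiv

def Tc (U A : Type) [Group U] [Group A] : Prop := Nat.card (center A) = 3 ∧ Nonempty (A ⧸ center A ≃* U)

theorem Tc.equiv {U A B : Type} [Group U] [Group A] [Group B] (e : A ≃* B) (H : Tc U A) : Tc U B := by
  obtain ⟨h1, ⟨f⟩⟩ := H
  refine ⟨(H11.card_center_equiv e).symm.trans h1, ⟨(QuotientGroup.congr (center A) (center B) e ?_).symm.trans f⟩⟩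
  ext b
  exact ⟨by rintro ⟨a, ha, rfl⟩; exact (H11.mem_center_equiv e a).1 ha,
    fun hb => ⟨e.symm b, (H11.mem_center_equiv e.symm b).1 hb, e.apply_symm_apply b⟩⟩

theorem Tc.card {U A : Type} [Group U] [Group A] (H : Tc U A) : Nat.card A = Nat.card U * 3 := by
  obtain ⟨h1, ⟨f⟩⟩ := H
  rw [card_eq_card_quotient_mul_card_subgroup (center A), h1, Nat.card_congr f.toEquiv]

variable {F : Type} [Field F] {φ : ℕ → F} (h : FM K4 φ) {U : Type} [Group U] (ψ : U ≃* Lb h)
include ψ

theorem tc_L : Tc U (LL h) := by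
  let θ := (mk : GG F →* _).comp (LL h).subtype
  have e1 : θ.ker = center (LL h) := by
    ext g
    refine ⟨fun hg => mem_center_iff.2 fun b => Subtype.ext
      (mem_center_iff.1 ((QuotientGroup.eq_one_iff g.1).1 hg) _), fun hg => (cen_iff h).2 (cen_M h fun x hx => ?_)⟩
    exact (congrArg Subtype.val (mem_center_iff.1 hg ⟨_, M0_le h x hx⟩)).symm
  have e2 : θ.range = Lb h := by
    rw [MonoidHom.range_comp, range_subtype, LL, map_comap_eq_self_of_surjective (QuotientGroup.mk'_surjective _)]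
  refine ⟨?_, ⟨((QuotientGroup.quotientMulEquivOfEq e1.symm).trans (QuotientGroup.quotientKerEquivRange θ)).trans
    ((MulEquiv.subgroupCongr e2).trans ψ.symm)⟩⟩
  rw [← e1, ← MonoidHom.comap_ker, card_comap _ _ (by
    rw [range_subtype]; exact fun g hg => mem_comap.2 ((show mk g = 1 from hg) ▸ one_mem _)), card_cen h, ker_subtype,
    card_bot]

theorem tc_Lt (t : ZMod 3) : Tc U (Lt h t) := (tc_L h ψ).equiv (equivMapOfInjective _ _ (al_inj h t))

theorem conj_Lt [Fintype F] (hF : Fintype.card F = 4) (K : Subgroup (GG F)) (H : Tc U K) :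
    ∃ g t, K.map (MulAut.conj g).toMonoidHom = Lt h t := by
  have hc := H.card
  obtain ⟨h1, ⟨f⟩⟩ := H
  let θ : K →* PSU 6 F 2 := (Lb h).subtype.comp ((f.trans ψ).toMonoidHom.comp (QuotientGroup.mk' _))
  have e1 : θ.ker = center K := by
    ext g; simp [θ]
  have e2 : θ.range = Lb h := by
    rw [MonoidHom.range_comp, MonoidHom.range_eq_top.2
      ((f.trans ψ).surjective.comp (QuotientGroup.mk'_surjective _)), ← MonoidHom.range_eq_map, range_subtype]
  have H0 : St h K.subtype θ := ⟨subtype_injective K, e2, e1, e1 ▸ h1⟩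
  obtain ⟨c, -, hc2⟩ := syl (card_G h hF) (T := ⊤) (A := (pu h θ (TT.comap pr)).map K.subtype) le_top le_top
    (by rw [card_map_of_injective (subtype_injective K), H0.card_pu ker_le TT_le, card_pr, card_TT]; rfl)
    (card_S h)
  have H1 : St h ((MulAut.conj c).toMonoidHom.comp K.subtype) θ :=
    ⟨(MulAut.conj c).injective.comp (subtype_injective K), e2, e1, e1 ▸ h1⟩
  obtain ⟨t, ht⟩ := H1.le fun k hk => hc2 _ ⟨k, hk, rfl⟩
  rw [MonoidHom.range_comp, range_subtype] at ht
  exact ⟨c, t, eq_of_le_of_card_ge ht (by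
    rw [card_map_of_injective (MulAut.conj c).injective, hc, (tc_Lt h ψ t).card])⟩

end Cfsg.Agent.H28.Su
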