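import Cfsg.Agent.H15.Words
set_option autoImplicit false
set_option maxRecDepth 100000

namespace Cfsg.Agent.H28.UFu
open Cfsg.Agent.H15 Cfsg.Agent.H14

def tb : Tb := (.leaf (nat_lit 0x144380022848a123058a16244000e00400000000000000000))
def wt : Wt := (.node (nat_lit 5) (.node (nat_lit 2) (.node (nat_lit 1) (.leaf [nat_lit 5, nat_lit 10, nat_lit 6, nat_lit 10]) (.leaf [nat_lit 6, nat_lit 5])) (.node (nat_lit 3) (.leaf [nat_lit 0, nat_lit 10, nat_lit 0, nat_lit 10]) (.node (nat_lit 4) (.leaf [nat_lit 7, nat_lit 10, nat_lit 7, nat_lit 10]) (.leaf [nat_lit 8, nat_lit 7])))) (.node (nat_lit 7) (.node (nat_lit 6) (.leaf [nat_lit 9, nat_lit 10, nat_lit 2, nat_lit 9, nat_lit 10]) (.leaf [nat_lit 2, nat_lit 9, nat_lit 10, nat_lit 9, nat_lit 10])) (.node (nat_lit 8) (.leaf [nat_lit 1, nat_lit 7, nat_lit 0, nat_lit 8]) (.node (nat_lit 9) (.leaf [nat_lit 4, nat_lit 5, nat_lit 1, nat_lit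 6]) (.leaf [nat_lit 3, nat_lit 5, nat_lit 0, nat_lit 6])))))
noncomputable def P : TCP where
  lk := tlk tb (nat_lit 3) (nat_lit 14) (nat_lit 7) (nat_lit 127)
  inv := invT (nat_lit 11693350491970609216) (nat_lit 11)
  wt := wt.get
  gens := [nat_lit 0, nat_lit 1, nat_lit 2, nat_lit 3, nat_lit 4, nat_lit 5, nat_lit 6, nat_lit 7, nat_lit 8, nat_lit 9, nat_lit 10]
  N := nat_lit 2
  n := nat_lit 2
  eps := nat_lit 11
  VM := nat_lit 15
  Wv := nat_lit 4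
  MAXB := nat_lit 112
  JM := nat_lit 31
  Wj := nat_lit 5
  Hm := nat_lit 1023
def ls : List Nat := [nat_lit 0, nat_lit 1, nat_lit 2, nat_lit 3, nat_lit 4, nat_lit 5, nat_lit 6, nat_lit 7, nat_lit 8, nat_lit 9, nat_lit 10, nat_lit 11]
noncomputable def ap : Nat → Nat → Nat := tlk tb (nat_lit 3) (nat_lit 14) (nat_lit 7) (nat_lit 15)
def bases : List (List Nat × Nat) := [([5], 3), ([0, 5], 3), ([1, 5], 3), ([0, 1], 2), ([3, 5, 0, 6], 1), ([4, 5, 1, 6], 1), ([0, 4, 0, 4, 2], 1), ([2, 5, 2, 6], 1), ([2, 0], 2), ([2, 1], 2), ([7], 3), ([7, 5, 8, 6], 1), ([7, 0, 8, 1], 1), ([7, 1, 8, 0, 1, 2], 1), ([9, 5, 9, 5], 1), ([9, 0], 2), ([9, 1], 2), ([9, 7, 9, 8], 1), ([10, 5, 10, 6], 1), ([10, 0, 10, 0], 1), ([10, 7, 10, 7], 1), ([9, 10, 9, 10, 2], 1)]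
theorem c0 : RowsGood P ls 0 2 :=
  rowsGood_of (Js := [nat_lit 0x4421084210842, nat_lit 0x1cc51894b4248]) (by decide +kernel)
theorem f0 : RowsGood P ls 0 2 :=
  c0
theorem good : RowsGood P (List.range (P.eps + 1)) 0 P.N :=
  (f0 : RowsGood P ls 0 2)
theorem idx {G : Type*} [Group G] {E : ℕ → G} {inv : ℕ → ℕ} (hi : ∀ l, E (inv l) = (E l)⁻¹)
    {B : List (List ℕ × ℕ)} (hB : ∀ p ∈ B, lprod E p.1 ^ p.2 = 1) (σ : List (List ℕ))
    {hs ks : List (List ℕ)} (hc : certOk P wt bases inv B σ hs ks = true) :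
    (gp E hs).relIndex (gp E ks) ≠ 0 ∧ (gp E hs).relIndex (gp E ks) ≤ 2 :=
  tc_gp hi hB rfl (fun _ h => invT_of_le h) good σ hc

end Cfsg.Agent.H28.UFu
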